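import Cfsg.Agent.H41.CoType.Adapt
import Cfsg.Agent.H41.CoType.Reduce

/-! An involution of plane type in a group of Conway type, and the choice of the family. -/

set_option autoImplicit false
set_option linter.unusedSimpArgs false

namespace Cfsg.Agent.H41.CoLocal

open Cfsg.Agent Cfsg.Agent.H41.CoType
open Cfsg.Agent.H18 (SingPt OrthPair)

/-- The exchange of the two vectors of the last hyperbolic pair. -/
def swap3 (x : F8) : F8 := fun j =>
  match j with
  | .inl i => if i = 3 then x (.inr i) else x (.inl i)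
  | .inr i => if i = 3 then x (.inl i) else x (.inr i)

theorem swap3_swap3 (x : F8) : swap3 (swap3 x) = x := by
  funext j
  rcases j with i | i <;> by_cases h : i = 3 <;> simp [swap3, h]

theorem q_swap3 : ∀ x : F8, q8 (swap3 x) = q8 x := by decide +kernel

/-- The exchange as an isometry. -/
theorem exists_swapO : ∃ ω : O8, ∀ x, ap ω x = swap3 x := by
  let e : F8 ≃ₗ[ZMod 2] F8 :=
    { toFun := swap3
      map_add' := fun x y => by
        funext j; rcases j with i | i <;> by_cases h : i = 3 <;> simp [swap3, h]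
      map_smul' := fun a x => by
        funext j; rcases j with i | i <;> by_cases h : i = 3 <;> simp [swap3, h]
      invFun := swap3
      left_inv := swap3_swap3
      right_inv := swap3_swap3 }
  refine ⟨⟨e, ?_⟩, fun x => rfl⟩
  intro x
  show Q8 (swap3 x) = Q8 x
  rw [coe_Q8, coe_Q8, q_swap3]

variable {G : Type*} [Group G] [Finite G]

/-- An involution whose image is of plane type, commuting with the part of `P` fixed by it. -/
structure Seed (T : Frame G) where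
  t : G
  hD : t ∈ T.D
  tt : t * t = 1
  him : ∀ y, ap (T.im (T.D_le_C hD)) y + y = B8 (eps 2) y • eps 1 + B8 (eps 1) y • eps 2
  hP : ∀ p ∈ T.P, B8 (eps 1) (T.S.co p) = 0 → B8 (eps 2) (T.S.co p) = 0 → t * p = p * t
  hu : T.u * t * T.u⁻¹ = t
  hw : ∀ w ∈ T.P', InY (T.ph w) →
    t * w * t⁻¹ = T.vv (B8 (T.ph (T.v * t * T.v⁻¹ * t⁻¹)) (T.ph w)) 0 * w
  hκmem : T.v * t * T.v⁻¹ * t⁻¹ ∈ T.P'
  hκY : InY (T.ph (T.v * t * T.v⁻¹ * t⁻¹))
  hκq : q8 (T.ph (T.v * t * T.v⁻¹ * t⁻¹)) = 0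

theorem fix_InY : ∀ (y : F8), pr y = y →
    pr (y + (B8 (eps 2) y • eps 1 + B8 (eps 1) y • eps 2)) = y → InY y := by
  intro y hy hfy
  have h : B8 (eps 2) y • eps 1 + B8 (eps 1) y • eps 2 = 0 := by
    have h1 : pr (B8 (eps 2) y • eps 1 + B8 (eps 1) y • eps 2) =
        B8 (eps 2) y • eps 1 + B8 (eps 1) y • eps 2 := by
      generalize B8 (eps 1) y = β1
      generalize B8 (eps 2) y = β2
      revert β1 β2
      decide +kernel
    rw [pr_add, hy, h1] at hfy
    exact add_eq_left.1 hfy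
  refine ⟨hy, ?_⟩
  revert h
  generalize B8 (eps 1) y = β1
  generalize B8 (eps 2) y = β2
  revert β1 β2
  decide +kernel

theorem exists_seed (T : Frame G) : Nonempty (Seed T) := by
  classical
  obtain ⟨s, hs, hss, hims, hPs⟩ := T.exists_t0
  obtain ⟨i, hi⟩ : ∃ i, T.u * s * T.u⁻¹ = T.S.zp i * s := by
    have hmem : T.u * (s * T.u⁻¹ * s⁻¹) ∈ T.S.F :=
      mul_mem T.hu (T.S.norm (T.D_le_C hs) (inv_mem T.hu))
    obtain ⟨i, hi⟩ := T.S.exists_zp_of_co hmem (by
      rw [T.S.co_mul _ T.hu _ (T.S.norm (T.D_le_C hs) (inv_mem T.hu)), T.u_inv,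
        T.co_conj (T.D_le_C hs) T.hu, T.hcu, add_comm, hims]
      decide +kernel)
    exact ⟨i, by rw [← hi]; group⟩
  obtain ⟨t, ht⟩ : ∃ t, t = T.bp i * s := ⟨_, rfl⟩
  have hbF := T.bp_mem i
  have hbv : T.vv 0 i = T.bp i := by rw [Frame.vv, Setting.zp_zero, one_mul]
  have hb : ∀ {d : G}, d ∈ T.D → d * T.bp i = T.bp i * d := fun hd => hbv ▸ T.vv_comm hd 0 i
  have hbD : T.bp i ∈ T.D := hbv ▸ T.P_le_D (T.four_le_P (T.vv_mem 0 i))
  have hD : t ∈ T.D := ht ▸ mul_mem hbD hs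
  have tt : t * t = 1 := by
    rw [ht, show T.bp i * s * (T.bp i * s) = T.bp i * (s * T.bp i) * s by group, hb hs,
      show T.bp i * (T.bp i * s) * s = (T.bp i * T.bp i) * (s * s) by group, hss, ← T.bp_add, two0,
      T.bp_zero, one_mul]
  have him : ∀ y, ap (T.im (T.D_le_C hD)) y + y = B8 (eps 2) y • eps 1 + B8 (eps 1) y • eps 2 := by
    subst ht
    intro y
    rw [show T.im (T.D_le_C hD) = T.im (mul_mem (T.S.F_le_C hbF) (T.D_le_C hs)) from rfl,
      T.im_mul (T.S.F_le_C hbF) (T.D_le_C hs),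
      show T.im (T.S.F_le_C hbF) = 1 from (T.S.rho_eq_one _).2 hbF, one_mul]
    exact hims y
  have hP : ∀ p ∈ T.P, B8 (eps 1) (T.S.co p) = 0 → B8 (eps 2) (T.S.co p) = 0 → t * p = p * t := by
    intro p hp h1 h2
    rw [ht, mul_assoc, hPs p hp h1 h2, ← mul_assoc, ← hb (T.P_le_D hp), mul_assoc]
  have hu : T.u * t * T.u⁻¹ = t := by
    rw [ht, show T.u * (T.bp i * s) * T.u⁻¹ = (T.u * T.bp i * T.u⁻¹) * (T.u * s * T.u⁻¹) by group, hi,
      ← hbv, T.u_vv, hbv, zero_add,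
      show T.vv i i * (T.S.zp i * s) = (T.vv i i * T.vv i 0) * s by
        rw [show T.vv i 0 = T.S.zp i by rw [Frame.vv, T.bp_zero, mul_one]]; group,
      T.vv_mul, two0, add_zero, hbv]
  obtain ⟨κ, hκ⟩ : ∃ κ, κ = T.v * t * T.v⁻¹ * t⁻¹ := ⟨_, rfl⟩
  have hinv : t⁻¹ = t := inv_eq_of_mul_eq_one_right tt
  have hκP : κ ∈ T.P' := by
    rw [hκ]
    refine ⟨?_, Subgroup.mem_centralizer_singleton_iff.2
      (T.mem_D.1 (mul_mem (T.o.conj_CV (T.o.X_le_normalizer T.v_mem_X) hD) (inv_mem hD))).1⟩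
    rw [show T.v * t * T.v⁻¹ * t⁻¹ = T.v * (t * T.v⁻¹ * t⁻¹) by group]
    exact mul_mem T.hv (T.o.CV_norm_F' hD (inv_mem T.hv))
  have hclt : ∀ {y : F8}, InY y → pr (ap (T.im (T.D_le_C hD)) y) = y := by
    intro y hy
    have h := him y
    rw [hy.2.1, hy.2.2, zero_smul, zero_smul, add_zero] at h
    rw [eq_of_add8 h, hy.1]
  have hw : ∀ w ∈ T.P', InY (T.ph w) → t * w * t⁻¹ = T.vv (B8 (T.ph κ) (T.ph w)) 0 * w := by
    intro w hw hY
    have hwcl := T.isCl_P' hw
    have h1 := T.isCl_conj hD hwcl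
    rw [ap_zero, pr_zero, hclt hY] at h1
    obtain ⟨m, n, hmn⟩ := T.isCl_eq hwcl h1
    obtain ⟨φ, hφ⟩ : ∃ φ, φ = T.u * w * T.u⁻¹ * w⁻¹ := ⟨_, rfl⟩
    have hφP : φ ∈ T.P := hφ ▸ T.uw_mem hw
    have hfφ : t * φ * t⁻¹ = φ := by
      obtain ⟨-, g1, g2⟩ : InY (pr (T.S.co φ)) := by rw [hφ]; exact hY
      rw [B_eps] at g1 g2
      simp [pr] at g1 g2
      rw [hP φ hφP (by rw [B_eps]; exact g1) (by rw [B_eps]; exact g2), mul_inv_cancel_right]
    have hn : n = 0 := by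
      have e1 : T.u * (t * w * t⁻¹) * T.u⁻¹ = T.vv (m + n) n * (φ * w) := by
        rw [hmn, ← T.u_vv, hφ]; group
      have e2 : T.u * (t * w * t⁻¹) * T.u⁻¹ = T.vv m n * (φ * w) := by
        calc T.u * (t * w * t⁻¹) * T.u⁻¹
            = (T.u * t * T.u⁻¹) * (T.u * w * T.u⁻¹) * (T.u * t * T.u⁻¹)⁻¹ := by group
          _ = (t * φ * t⁻¹) * (t * w * t⁻¹) := by rw [hu, hφ]; group
          _ = _ := by rw [hfφ, hmn, ← mul_assoc, T.vv_comm (T.P_le_D hφP), mul_assoc]
      have h3 := (T.vv_inj (mul_right_cancel (e1.symm.trans e2))).1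
      linear_combination h3
    subst hn
    suffices m = B8 (T.ph κ) (T.ph w) by rw [← this]; exact hmn
    obtain ⟨k, hk⟩ : ∃ k, T.v * w * T.v⁻¹ = T.bp k * w := by
      rcases T.o.h'.pair (T.o.h'.comm T.hv hw.1) with e | e
      · exact ⟨0, by rw [T.bp_zero, one_mul]; rwa [mul_inv_eq_one] at e⟩
      · exact ⟨1, by rw [T.bp_one, show T.b = T.v * w * T.v⁻¹ * w⁻¹ from e.symm, inv_mul_cancel_right]⟩
    have hbk : T.bp k = T.vv 0 k := by rw [Frame.vv, Setting.zp_zero, one_mul]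
    have e1 : T.v * (t * w * t⁻¹) * T.v⁻¹ = T.vv m m * (T.bp k * w) := by
      rw [hmn, ← hk, show T.vv m m = T.v * T.vv m 0 * T.v⁻¹ by rw [T.v_vv, add_zero]]
      group
    have e2 : T.v * (t * w * t⁻¹) * T.v⁻¹ = T.vv m (B8 (T.ph κ) (T.ph w)) * (T.bp k * w) := by
      have hκD := T.P'_le_D hκP
      calc T.v * (t * w * t⁻¹) * T.v⁻¹ = κ * ((t * T.bp k) * w * t⁻¹) * κ⁻¹ := by
            rw [show (t * T.bp k) * w * t⁻¹ = t * (T.bp k * w) * t⁻¹ by group, ← hk, hκ]; group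
        _ = κ * (T.bp k * (t * w * t⁻¹)) * κ⁻¹ := by rw [hbk, T.vv_comm hD]; group
        _ = (κ * (T.bp k * T.vv m 0)) * w * κ⁻¹ := by rw [hmn]; group
        _ = T.bp k * T.vv m 0 * ((κ * w) * κ⁻¹) := by rw [hbk, T.vv_mul, T.vv_comm hκD]; group
        _ = T.bp k * T.vv m 0 * (T.bp (B8 (T.ph κ) (T.ph w)) * w) := by
          rw [T.comm_P' hκP hw]; group
        _ = _ := by
          rw [show T.bp (B8 (T.ph κ) (T.ph w)) = T.vv 0 (B8 (T.ph κ) (T.ph w)) by
            rw [Frame.vv, Setting.zp_zero, one_mul], hbk, ← mul_assoc, ← mul_assoc, T.vv_mul, T.vv_mul,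
            T.vv_mul]
          congr 2 <;> ring
    exact (T.vv_inj (mul_right_cancel (e1.symm.trans e2))).2
  have hκinv : t * κ * t⁻¹ = κ⁻¹ := by
    rw [hκ, hinv]
    rw [eq_comm, inv_eq_of_mul_eq_one_right]
    calc T.v * t * T.v⁻¹ * t * (t * (T.v * t * T.v⁻¹ * t) * t)
        = T.v * t * T.v⁻¹ * (t * t) * T.v * t * T.v⁻¹ * (t * t) := by group
      _ = T.v * t * t * T.v⁻¹ := by rw [tt]; group
      _ = 1 := by rw [mul_assoc T.v t, tt]; group
  have hκY : InY (T.ph κ) := by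
    have h1 := T.isCl_conj hD (T.isCl_P' hκP)
    rw [hκinv] at h1
    have h2 := (T.isCl_uniq h1 (T.isCl_inv (T.isCl_P' hκP))).2
    refine fix_InY _ (T.ph_pr κ) ?_
    rw [show T.ph κ + (B8 (eps 2) (T.ph κ) • eps 1 + B8 (eps 1) (T.ph κ) • eps 2) =
      ap (T.im (T.D_le_C hD)) (T.ph κ) by
        rw [← him, add_comm (ap _ _), ← add_assoc, two8, zero_add]]
    exact h2
  have hκq : q8 (T.ph κ) = 0 := by
    have h1 := hw κ hκP hκY
    rw [B_self, T.vv_zero, one_mul, hκinv] at h1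
    have h2 : κ * κ = 1 := by nth_rw 1 [← h1]; exact inv_mul_cancel κ
    rw [T.sq_P' hκP] at h2
    rcases bit (q8 (T.ph κ)) with e | e
    · exact e
    · rw [e, T.bp_one] at h2; exact absurd h2 T.o.h'.xne
  subst hκ
  exact ⟨⟨t, hD, tt, him, hP, hu, hw, hκP, hκY, hκq⟩⟩

/-- The frame and the seed adapted to one family of maximal singular subspaces. -/
theorem exists_base (S : Setting G) : ∃ T : Frame G, T.S.F = S.F ∧ T.S.z = S.z ∧
    ∃ s : Seed T, T.ph (T.v * s.t * T.v⁻¹ * s.t⁻¹) (.inr 3) = 0 := by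
  obtain ⟨T, hT⟩ := exists_frame S
  subst hT
  obtain ⟨s⟩ := exists_seed T
  by_cases h : T.ph (T.v * s.t * T.v⁻¹ * s.t⁻¹) (.inr 3) = 0
  · exact ⟨T, rfl, rfl, s, h⟩
  obtain ⟨ω, hω⟩ := exists_swapO
  let T' : Frame G :=
    { T with
      S := T.S.transform ω
      hb := by
        show ap ω (T.S.co T.b) = eps 0
        rw [T.hb, hω]; decide +kernel
      hcu := by
        show ap ω (T.S.co T.u) = eta 0
        rw [T.hcu, hω]; decide +kernel }
  have hco : ∀ x, T'.S.co x = swap3 (T.S.co x) := fun x => hω _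
  have hpr : ∀ x : F8, pr (swap3 x) = swap3 (pr x) := by
    intro x
    funext j
    rcases j with i | i <;> by_cases h3 : i = 3 <;> simp [pr, swap3, h3]
  have hph : ∀ w, T'.ph w = swap3 (T.ph w) := fun w => by
    show pr (T'.S.co _) = swap3 (pr _)
    rw [hco, hpr]
  have hB : ∀ x y, B8 (swap3 x) (swap3 y) = B8 x y := fun x y => by rw [← hω, ← hω, ap_B]
  have hB0 : ∀ i : Fin 3, ∀ x, B8 (eps i.castSucc) (swap3 x) = B8 (eps i.castSucc) x := by
    intro i x
    conv_lhs => rw [show eps i.castSucc = swap3 (eps i.castSucc) by revert i; decide +kernel, hB]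
  have hB1 := hB0 1
  have hB2 := hB0 2
  change ∀ x, B8 (eps 1) (swap3 x) = B8 (eps 1) x at hB1
  change ∀ x, B8 (eps 2) (swap3 x) = B8 (eps 2) x at hB2
  have hY : ∀ {y}, InY (swap3 y) → InY y := by
    intro y hy
    refine ⟨?_, by rw [← hB1]; exact hy.2.1, by rw [← hB2]; exact hy.2.2⟩
    have := congrArg swap3 hy.1
    rwa [hpr, swap3_swap3, swap3_swap3] at this
  have hY' : ∀ {y}, InY y → InY (swap3 y) := fun {y} hy =>
    ⟨by rw [hpr, hy.1], by rw [hB1]; exact hy.2.1, by rw [hB2]; exact hy.2.2⟩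
  let s' : Seed T' :=
    { t := s.t
      hD := s.hD
      tt := s.tt
      him := by
        intro y
        show ap (ω * T.S.ρ ⟨s.t, T.D_le_C s.hD⟩ * ω⁻¹) y + y = _
        rw [ap_mul, ap_mul]
        have hωi : ap (ω⁻¹ : O8) y = swap3 y := by
          apply ap_inj ω
          rw [← ap_mul, mul_inv_cancel, ap_one, hω, swap3_swap3]
        have h1 := congrArg (ap ω) (s.him (swap3 y))
        rw [ap_add, ap_add, ap_smul, ap_smul, hω (swap3 y), swap3_swap3, hω (eps 1), hω (eps 2), hB1,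
          hB2, show swap3 (eps 1) = eps 1 by decide +kernel,
          show swap3 (eps 2) = eps 2 by decide +kernel] at h1
        rw [hωi]
        exact h1
      hP := fun p hp h1 h2 => s.hP p hp (by rwa [hco, hB1] at h1) (by rwa [hco, hB2] at h2)
      hu := s.hu
      hw := fun w hw hy => by
        rw [hph] at hy
        rw [hph, hph, hB]
        exact s.hw w hw (hY hy)
      hκmem := s.hκmem
      hκY := by rw [hph]; exact hY' s.hκY
      hκq := by rw [hph, q_swap3]; exact s.hκq }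
  refine ⟨T', rfl, rfl, s', ?_⟩
  rw [hph]
  have hq := s.hκq
  rw [inY_q s.hκY, (bit _).resolve_left h, mul_one] at hq
  simpa [swap3] using hq

end Cfsg.Agent.H41.CoLocal
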