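import Cfsg.Agent.H41.CoLocal.CodeTable
import Cfsg.Agent.H11.M24Transitive

/-!
The coordinate model as the code of length 24 modulo the all-ones word.
-/

set_option autoImplicit false
set_option maxRecDepth 20000

namespace Cfsg.Agent.H41.CoLocal

open Cfsg Cfsg.Agent.H12 Cfsg.Agent.H13
open scoped Pointwise

/-- The all-ones word. -/
abbrev oneW : GolayPt → ZMod 2 := fun _ => 1

theorem word_allMask' : word allMask = oneW := H11.word_allMask

/-- The word of a vector. -/
noncomputable def toWord : V11 →ₗ[ZMod 2] (GolayPt → ZMod 2) where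
  toFun x := word (cmb x)
  map_add' x y := by rw [cmb_add, word_xor]
  map_smul' c x := by
    rcases (show ∀ a : ZMod 2, a = 0 ∨ a = 1 by decide) c with rfl | rfl
    · simp only [zero_smul, RingHom.id_apply]
      rw [show cmb (0 : V11) = 0 by decide +kernel, word_zero]
    · simp

theorem toWord_apply (x : V11) : toWord x = word (cmb x) := rfl

theorem toWord_mem (x : V11) : toWord x ∈ golayCode :=
  (word_mem_iff (isCode_lt (vec_spec x).1)).mpr (vec_spec x).1

theorem oneW_mem : oneW ∈ golayCode := Submodule.subset_span (Or.inr rfl)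

theorem word_inj {a b : ℕ} (ha : a < 2 ^ 24) (hb : b < 2 ^ 24) (h : word a = word b) : a = b :=
  fin_inj ha hb (by rw [← support_word, h, support_word])

theorem eq_zero_of_eqv {x : V11} (h : Eqv (toWord x) 0) : x = 0 := by
  by_contra hx
  obtain ⟨hn0, hna, -⟩ := (vec_spec x).2.2.1 hx
  have hlt := isCode_lt (vec_spec x).1
  rcases h with h | h
  · exact hn0 (word_inj hlt (by norm_num) (by rw [← toWord_apply, h, word_zero]))
  · exact hna (word_inj hlt (by norm_num [allMask]) (by rw [← toWord_apply, h, zero_add, word_allMask']))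

theorem eq_of_eqv {a b : V11} (h : Eqv (toWord a) (toWord b)) : a = b := by
  have h' : Eqv (toWord (a + b)) 0 := by
    rw [map_add]
    have := h.add (Or.inl rfl : Eqv (toWord b) (toWord b))
    rwa [show toWord b + toWord b = 0 by
      funext p; exact (show ∀ z : ZMod 2, z + z = 0 by decide) _] at this
  funext i
  exact (show ∀ u v : ZMod 2, u + v = 0 → u = v by decide) _ _ (congrFun (eq_zero_of_eqv h') i)

/-- A vector and a bit as a word of the code. -/
noncomputable def pairWord : (V11 × ZMod 2) →ₗ[ZMod 2] ↥golayCode :=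
  (LinearMap.codRestrict golayCode toWord toWord_mem).comp (LinearMap.fst _ _ _) +
    (LinearMap.id.smulRight (⟨oneW, oneW_mem⟩ : ↥golayCode)).comp (LinearMap.snd _ _ _)

theorem coe_pairWord (x : V11) (e : ZMod 2) :
    (pairWord (x, e) : GolayPt → ZMod 2) = toWord x + e • oneW := rfl

theorem eqv_pairWord (x : V11) (e : ZMod 2) :
    Eqv (pairWord (x, e) : GolayPt → ZMod 2) (toWord x) := by
  rw [coe_pairWord]
  rcases (show ∀ a : ZMod 2, a = 0 ∨ a = 1 by decide) e with rfl | rfl
  · exact Or.inl (by rw [zero_smul, add_zero])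
  · exact Or.inr (by rw [one_smul])

theorem pairWord_bijective : Function.Bijective pairWord := by
  constructor
  · rw [injective_iff_map_eq_zero]
    rintro ⟨x, e⟩ h
    have hx : x = 0 := eq_zero_of_eqv (by
      have := (eqv_pairWord x e).symm
      rwa [h] at this)
    subst hx
    have h' := congrFun (congrArg Subtype.val h) none
    rw [coe_pairWord, map_zero, zero_add] at h'
    simp at h'
    rw [h']; rfl
  · intro w
    have key : golayCode ≤ Submodule.map golayCode.subtype (LinearMap.range pairWord) := by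
      refine Submodule.span_le.mpr ?_
      rintro v (⟨t, rfl⟩ | rfl)
      · have hlt : t.val < 23 := ZMod.val_lt t
        have hm : genMasks.getD t.val 0 ∈ genMasks := by
          rw [List.getD_eq_getElem?_getD,
            List.getElem?_eq_getElem (by rw [show genMasks.length = 24 from rfl]; omega)]
          exact List.getElem_mem _
        have e : word (genMasks.getD t.val 0) = qrWord t := by
          funext p
          rw [word, ← pt_idx p, idx_pt (idx_lt p), genMasks_spec.1 _ hlt _ (idx_lt p),
            ZMod.natCast_zmod_val]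
          rcases (show ∀ z : ZMod 2, z = 0 ∨ z = 1 by decide)
            (qrWord t (pt (idx p))) with hw | hw <;> simp [hw]
        obtain ⟨c, -, hc⟩ := List.any_eq_true.mp (List.all_eq_true.mp gen_chk _ hm)
        rw [Bool.or_eq_true, beq_iff_eq, beq_iff_eq] at hc
        rcases hc with hc | hc
        · refine ⟨_, ⟨(ofCode c, 0), rfl⟩, ?_⟩
          show (pairWord (ofCode c, 0) : GolayPt → ZMod 2) = qrWord t
          rw [coe_pairWord, zero_smul, add_zero, toWord_apply, hc, e]
        · refine ⟨_, ⟨(ofCode c, 1), rfl⟩, ?_⟩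
          show (pairWord (ofCode c, 1) : GolayPt → ZMod 2) = qrWord t
          rw [coe_pairWord, one_smul, toWord_apply, ← e, ← hc, word_xor, word_allMask', add_comm]
      · refine ⟨_, ⟨(0, 1), rfl⟩, ?_⟩
        show (pairWord (0, 1) : GolayPt → ZMod 2) = 1
        rw [coe_pairWord, one_smul, map_zero, zero_add]
        rfl
    obtain ⟨v, ⟨a, rfl⟩, hv⟩ := key w.2
    exact ⟨a, Subtype.ext hv⟩

/-- The code as vectors and a bit. -/
noncomputable def codeEquiv : (V11 × ZMod 2) ≃ₗ[ZMod 2] ↥golayCode :=
  LinearEquiv.ofBijective pairWord pairWord_bijective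

theorem codeEquiv_apply (a : V11 × ZMod 2) : codeEquiv a = pairWord a := rfl

theorem exists_eqv_toWord {w : GolayPt → ZMod 2} (hw : w ∈ golayCode) :
    ∃ x, Eqv (toWord x) w := by
  obtain ⟨⟨x, e⟩, he⟩ := pairWord_bijective.2 ⟨w, hw⟩
  refine ⟨x, ?_⟩
  have := (eqv_pairWord x e).symm
  rwa [he] at this

theorem actW_mem {τ : Equiv.Perm GolayPt} (hτ : τ ∈ M24) {w : GolayPt → ZMod 2}
    (hw : w ∈ golayCode) : actW τ w ∈ golayCode := H11.mem_M24_iff.mp hτ w hw

theorem octT_act {τ : Equiv.Perm GolayPt} {a b : V11} (h : Eqv (toWord b) (actW τ (toWord a))) :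
    octT (pop (cmb b)) = octT (pop (cmb a)) := by
  have := h.octT_eq
  rwa [actW_support, Finset.card_smul_finset, toWord_apply, toWord_apply, support_word,
    support_word, card_fin, card_fin] at this

theorem card_support_toWord (x : V11) : (support₂ (toWord x)).card = pop (cmb x) := by
  rw [toWord_apply, support_word, card_fin]

theorem card_support_add_one (w : GolayPt → ZMod 2) :
    (support₂ (w + oneW)).card = 24 - (support₂ w).card := by
  have : support₂ (w + oneW) = (support₂ w)ᶜ := by
    ext p
    simp only [support₂, Finset.mem_filter, Finset.mem_univ, true_and, Finset.mem_compl,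
      Pi.add_apply]
    show ¬ (w p + (1 : ZMod 2) = 0) ↔ ¬ ¬ (w p = 0)
    rcases (show ∀ x : ZMod 2, x = 0 ∨ x = 1 by decide) (w p) with h | h <;> rw [h] <;> decide
  rw [this, Finset.card_compl, show Fintype.card GolayPt = 24 from rfl]

/-- A word of small weight class has a representative octad or dodecad. -/
theorem exists_rep {x : V11} (hx : x ≠ 0) :
    (oct x = true → ∃ o ∈ octads, ∃ v, Eqv (toWord x) v ∧ support₂ v = o) ∧
    (oct x = false → ∃ d ∈ dodecads, ∃ v, Eqv (toWord x) v ∧ support₂ v = d) := by
  obtain ⟨-, ho, hz, -⟩ := vec_spec x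
  have hw := (hz hx).2.2
  have hle : pop (cmb x) ≤ 24 := by rw [← card_fin]; exact Finset.card_le_univ _
  constructor
  · intro h
    have h8 := ho.mp h
    rcases (show pop (cmb x) = 8 ∨ pop (cmb x) = 16 by simp only [octT] at h8; omega) with hp | hp
    · exact ⟨_, ⟨⟨_, toWord_mem x, rfl⟩, by rw [card_support_toWord, hp]⟩, _, Or.inl rfl, rfl⟩
    · refine ⟨_, ⟨⟨toWord x + oneW, Submodule.add_mem _ (toWord_mem x) oneW_mem, rfl⟩, ?_⟩, _,
        Or.inr (by rw [add_assoc, one_add_one_w, add_zero]), rfl⟩
      rw [card_support_add_one, card_support_toWord, hp]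
  · intro h
    have h12 : octT (pop (cmb x)) = 12 :=
      hw.resolve_left fun e => by simp [ho.mpr e] at h
    have hp : pop (cmb x) = 12 := by simp only [octT] at h12; omega
    exact ⟨_, ⟨⟨_, toWord_mem x, rfl⟩, by rw [card_support_toWord, hp]⟩, _, Or.inl rfl, rfl⟩

/-- Vectors of the same kind are related by the automorphism group of the code. -/
theorem exists_rel {x y : V11} (hx : x ≠ 0) (hy : y ≠ 0) (h : oct x = oct y) :
    ∃ σ ∈ M24, Eqv (toWord y) (actW σ (toWord x)) := by
  cases hc : oct x with
  | true =>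
    obtain ⟨o, ho, v, hv, hvo⟩ := (exists_rep hx).1 hc
    obtain ⟨o', ho', v', hv', hvo'⟩ := (exists_rep hy).1 (h ▸ hc)
    obtain ⟨g, hg, he⟩ := H11.exists_smul_octad ho ho'
    refine ⟨g, hg, hv'.trans ?_⟩
    rw [show v' = actW g v from word_injective_support (by rw [actW_support, hvo, hvo', he])]
    exact hv.symm.act g
  | false =>
    obtain ⟨o, ho, v, hv, hvo⟩ := (exists_rep hx).2 hc
    obtain ⟨o', ho', v', hv', hvo'⟩ := (exists_rep hy).2 (h ▸ hc)
    obtain ⟨g, hg, he⟩ := H11.exists_smul_dodecad ho ho'
    refine ⟨g, hg, hv'.trans ?_⟩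
    rw [show v' = actW g v from word_injective_support (by rw [actW_support, hvo, hvo', he])]
    exact hv.symm.act g

theorem word_eq_iff_testBit {m : ℕ} {p q : GolayPt} :
    word m p = word m q ↔ m.testBit (idx p) = m.testBit (idx q) := by
  unfold word
  cases m.testBit (idx p) <;> cases m.testBit (idx q) <;> simp

theorem eq_one_of_sep {τ : Equiv.Perm GolayPt}
    (h : ∀ m ∈ sepMasks, actW τ (word m) = word m) : τ = 1 := by
  refine Equiv.ext fun p => ?_
  by_contra hne
  have hij : idx (τ p) ≠ idx p := fun e => hne (by simpa [pt_idx] using congrArg pt e)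
  have hs := List.all_eq_true.mp (List.all_eq_true.mp sep_chk.2.1 _ (List.mem_range.mpr (idx_lt (τ p))))
    _ (List.mem_range.mpr (idx_lt p))
  rw [Bool.or_eq_true, beq_iff_eq, or_iff_right hij, List.any_eq_true] at hs
  obtain ⟨m, hm, hd⟩ := hs
  have e := congrFun (h m hm) (τ p)
  rw [actW, Equiv.symm_apply_apply, word_eq_iff_testBit] at e
  simp [e] at hd

end Cfsg.Agent.H41.CoLocal
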