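import Cfsg.Agent.H41.CoLocal.Model
import Cfsg.Agent.H13.CodeAut

/-!
Kernel checks relating the coordinate model to the code of length 24.
-/

set_option autoImplicit false
set_option maxRecDepth 20000

namespace Cfsg.Agent.H41.CoLocal

open Cfsg Cfsg.Agent.H12 Cfsg.Agent.H13
open scoped Pointwise

/-- The combination of a list of masks selected by a vector. -/
def selV : List ℕ → (ℕ → ZMod 2) → ℕ
  | [], _ => 0
  | m :: l, f => (if f 0 = 1 then m else 0) ^^^ selV l (fun i => f (i + 1))

theorem selV_add : ∀ (l : List ℕ) (f g : ℕ → ZMod 2),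
    selV l (f + g) = selV l f ^^^ selV l g
  | [], _, _ => by simp [selV]
  | m :: l, f, g => by
    have h : (if (f + g) 0 = 1 then m else 0) =
        (if f 0 = 1 then m else 0) ^^^ (if g 0 = 1 then m else 0) := by
      show (if f 0 + g 0 = 1 then m else 0) = _
      rcases (show ∀ a : ZMod 2, a = 0 ∨ a = 1 by decide) (f 0) with ha | ha <;>
        rcases (show ∀ a : ZMod 2, a = 0 ∨ a = 1 by decide) (g 0) with hb | hb <;>
        rw [ha, hb] <;> simp +decide
    simp only [selV]
    rw [h, show (fun i => (f + g) (i + 1)) = (fun i => f (i + 1)) + (fun i => g (i + 1)) from rfl,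
      selV_add l]
    ac_rfl

/-- A vector as a function on all naturals. -/
def ext0 (x : V11) (i : ℕ) : ZMod 2 := if h : i < 11 then x ⟨i, h⟩ else 0

/-- The mask of a vector. -/
def cmb (x : V11) : ℕ := selV wordMasks (ext0 x)

theorem cmb_add (x y : V11) : cmb (x + y) = cmb x ^^^ cmb y := by
  unfold cmb
  rw [← selV_add]
  congr 1
  funext i
  by_cases h : i < 11 <;> simp [ext0, h]

/-- The vector of a number. -/
def ofCode (c : ℕ) : V11 := fun i => if c.testBit i then 1 else 0

theorem exists_ofCode (x : V11) : ∃ c < 2048, ofCode c = x := by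
  refine ⟨Nat.ofBits (fun i : Fin 11 => decide (x i = 1)), Nat.ofBits_lt_two_pow _, ?_⟩
  funext i
  rw [ofCode, Nat.testBit_ofBits_lt _ _ i.2]
  rcases (show ∀ a : ZMod 2, a = 0 ∨ a = 1 by decide) (x i) with h | h <;> simp [h]

/-- The octad that represents the central involution. -/
def oMask : ℕ := 5279

/-- The last six coordinates vanish. -/
def inSub (x : V11) : Bool :=
  decide (x 5 = 0 ∧ x 6 = 0 ∧ x 7 = 0 ∧ x 8 = 0 ∧ x 9 = 0 ∧ x 10 = 0)

/-- The properties of one mask. -/
def vecB (x : V11) : Bool :=
  isCode (cmb x) && (oct x == (octT (pop (cmb x)) == 8)) &&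
    (decide (x = 0) || (cmb x != 0 && cmb x != allMask && (octT (pop (cmb x)) == 8 || octT (pop (cmb x)) == 12))) &&
    (inSub x == ((cmb x &&& oMask == 0) || (cmb x &&& oMask == oMask)))

theorem vec_chk : ((List.range 2048).all fun c => vecB (ofCode c)) = true := by decide +kernel

theorem vec_spec (x : V11) :
    isCode (cmb x) = true ∧ (oct x = true ↔ octT (pop (cmb x)) = 8) ∧
      (x ≠ 0 → cmb x ≠ 0 ∧ cmb x ≠ allMask ∧ (octT (pop (cmb x)) = 8 ∨ octT (pop (cmb x)) = 12)) ∧
      (inSub x = true ↔ (cmb x &&& oMask = 0 ∨ cmb x &&& oMask = oMask)) := by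
  obtain ⟨c, hc, rfl⟩ := exists_ofCode x
  have h := List.all_eq_true.mp vec_chk c (List.mem_range.mpr hc)
  unfold vecB at h
  simp only [Bool.and_eq_true, beq_iff_eq] at h
  obtain ⟨⟨⟨h1, h2⟩, h3⟩, h4⟩ := h
  refine ⟨h1, by rw [h2, beq_iff_eq], fun hx => ?_, by rw [h4, Bool.or_eq_true, beq_iff_eq, beq_iff_eq]⟩
  rw [decide_eq_false hx, Bool.false_or] at h3
  simpa [and_assoc] using h3

theorem gen_chk : (genMasks.all fun m => (List.range 2048).any fun c =>
    cmb (ofCode c) == m || allMask ^^^ cmb (ofCode c) == m) = true := by decide +kernel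

/-- Octads with at least five points outside the base octad separating all points. -/
def sepMasks : List ℕ := [31554, 231532, 902657, 926128, 1351424, 2435240, 4203377]

theorem sep_chk : (sepMasks.all fun m =>
    isOctad m && decide (5 ≤ pop (m &&& (allMask ^^^ oMask)))) = true ∧
    ((List.range 24).all fun i => (List.range 24).all fun j =>
      i == j || sepMasks.any fun m => m.testBit i != m.testBit j) = true ∧
    ((List.range 24).all fun i => (List.range 24).all fun j =>
      i == j || oMask.testBit i || oMask.testBit j || (List.range 32).any fun c =>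
        (cmb (ofCode c)).testBit i != (cmb (ofCode c)).testBit j) = true := by
  decide +kernel

end Cfsg.Agent.H41.CoLocal
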