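import Mathlib.Data.ZMod.Basic
import Mathlib.Data.Fintype.Pi
import Mathlib.Data.Fin.VecNotation
import Mathlib.LinearAlgebra.Pi

/-!
The coordinate model of the elementary abelian subgroup of order `2^11` in a group of Conway type.

Coordinates: `0` the central involution `z`; `1` its partner `b`; `2,3,4` the lifts `p` of the three
singular vectors in `F`; `5,6,7` their images `w` under the partner; `8,9,10` the lifts `t` of the
three planes (each fixed by the two exchanging involutions).
-/

set_option autoImplicit false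

namespace Cfsg.Agent.H41.CoLocal

/-- The model. -/
abbrev V11 := Fin 11 → ZMod 2

/-- The coordinate of the central involution. -/
def e0 : V11 := ![1, 0, 0, 0, 0, 0, 0, 0, 0, 0, 0]

/-- The five-dimensional part inside the extraspecial subgroup. -/
def emb (l : Fin 5 → ZMod 2) : V11 := ![l 0, l 1, l 2, l 3, l 4, 0, 0, 0, 0, 0, 0]

/-- The involution fixing the central one. -/
def uMap (x : V11) : V11 :=
  ![x 0 + x 1, x 1, x 2 + x 5, x 3 + x 6, x 4 + x 7, x 5, x 6, x 7, x 8, x 9, x 10]

/-- The involution moving the central one. -/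
def vMap (x : V11) : V11 :=
  ![x 0, x 1 + x 0, x 2, x 3, x 4, x 5 + x 2, x 6 + x 3, x 7 + x 4, x 8, x 9, x 10]

/-- Translations: the four coordinates `(y0, y1, y2, y3)`. -/
abbrev Y4 := ZMod 2 × ZMod 2 × ZMod 2 × ZMod 2

/-- The commutator of `x` with the translation `y`, evaluated in the centre. -/
def fn (x : V11) (y : Y4) : ZMod 2 :=
  let (y0, y1, y2, y3) := y
  x 1 * y0 + ((x 2 + x 5) * y1 + (x 3 + x 6) * y2 + (x 4 + x 7) * y3) +
    y0 * (x 5 * y1 + x 6 * y2 + x 7 * y3) +
    x 8 * (y2 * y3 + y1 + y3) + x 9 * (y3 * y1 + y1 + y2) + x 10 * (y1 * y2 + y2 + y3)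

/-- The displacement of the translation `y` by `x`, modulo the centre. -/
def disp (x : V11) (y : Y4) : Y4 :=
  let (y0, y1, y2, y3) := y
  (x 5 * y1 + x 6 * y2 + x 7 * y3,
    x 5 * y0 + x 9 * y3 + x 10 * y2,
    x 6 * y0 + x 8 * y3 + x 10 * y1,
    x 7 * y0 + x 8 * y2 + x 9 * y1)

/-- The rule for elements whose image fixes more than the radical. -/
def octSmall (x : V11) : Bool :=
  decide (∀ y : Y4, disp x y = 0 → fn x y = 0)

/-- The model of the conjugates of the central involution. -/
def oct (x : V11) : Bool :=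
  if x = 0 then false
  else if x 8 = 0 ∧ x 9 = 0 ∧ x 10 = 0 then
    decide ((x 2 = 0 ∧ x 3 = 0 ∧ x 4 = 0) ∨ (x 5 = 0 ∧ x 6 = 0 ∧ x 7 = 0) ∨
      (x 2 = x 5 ∧ x 3 = x 6 ∧ x 4 = x 7))
  else if x 5 * x 8 + x 6 * x 9 + x 7 * x 10 = 1 then
    if x 2 * x 8 + x 3 * x 9 + x 4 * x 10 = 1 then octSmall (vMap x) else octSmall (vMap (uMap x))
  else octSmall x

/-- The words of the code representing the eleven coordinates (bit `23` is the extra point). -/
def wordMasks : List ℕ :=
  [5279, 1009728, 1256224, 2220640, 4645632, 1053483, 2130606, 4231958, 5581371, 3205831, 6697938]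

end Cfsg.Agent.H41.CoLocal
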