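import Cfsg.Agent.H41.CoLocal.Group
import Cfsg.Agent.H41.CoLocal.Model

/-! Normalised generators of the subgroup of order `2^11` and of its translations. -/

set_option autoImplicit false
set_option linter.unusedSimpArgs false
set_option linter.unusedSectionVars false

namespace Cfsg.Agent.H41.CoLocal

open Cfsg.Agent Cfsg.Agent.H41.CoType
open Cfsg.Agent.H18 (SingPt OrthPair)

/-- The three indices outside the first hyperbolic pair. -/
def jx : Fin 3 → Fin 4 := ![1, 2, 3]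

/-- Normalised generators. -/
structure Coord {G : Type*} [Group G] [Finite G] (M : Loc G) where
  p : Fin 3 → G
  q : Fin 3 → G
  t : Fin 3 → G
  p_mem : ∀ k, p k ∈ M.T.S.F
  p_co : ∀ k, M.T.S.co (p k) = eps (jx k)
  q_mem : ∀ k, q k ∈ M.T.S.F
  q_co : ∀ k, M.T.S.co (q k) = eta (jx k)
  w_u : ∀ k, M.T.u * (M.T.v * p k * M.T.v⁻¹ * (p k)⁻¹) * M.T.u⁻¹ =
    p k * (M.T.v * p k * M.T.v⁻¹ * (p k)⁻¹)
  t_mem : ∀ k, t k ∈ M.A
  t_sq : ∀ k, t k * t k = 1
  t_im : ∀ (k : Fin 3) (h : t k ∈ M.T.S.C) (y : F8),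
    ap (M.T.im h) y + y =
      B8 (eps (Loc.ib k)) y • eps (Loc.ia k) + B8 (eps (Loc.ia k)) y • eps (Loc.ib k)
  t_u : ∀ k, M.T.u * t k * M.T.u⁻¹ = t k
  t_v : ∀ k, M.T.v * t k * M.T.v⁻¹ = t k
  tq : ∀ k, t k * q k * (t k)⁻¹ = M.T.z * q k
  tq_next : ∀ k, t k * q (k + 1) * (t k)⁻¹ = p (k + 2) * q (k + 1)
  tq_prev : ∀ k, t k * q (k + 2) * (t k)⁻¹ = M.T.z * p (k + 1) * q (k + 2)

namespace Coord

variable {G : Type*} [Group G] [Finite G] {M : Loc G} (C : Coord M)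

/-- The images of the generators under the second translation. -/
def w (k : Fin 3) : G := M.T.v * C.p k * M.T.v⁻¹ * (C.p k)⁻¹

/-- The element with given coordinates. -/
def el (x : V11) : G :=
  M.T.vv (x 0) (x 1) *
    (C.p 0 ^ (x 2).val * C.p 1 ^ (x 3).val * C.p 2 ^ (x 4).val) *
    (C.w 0 ^ (x 5).val * C.w 1 ^ (x 6).val * C.w 2 ^ (x 7).val) *
    (C.t 0 ^ (x 8).val * C.t 1 ^ (x 9).val * C.t 2 ^ (x 10).val)

/-- The translation with given coordinates. -/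
def qy (y : Y4) : G :=
  M.T.u ^ y.1.val * C.q 0 ^ y.2.1.val * C.q 1 ^ y.2.2.1.val * C.q 2 ^ y.2.2.2.val

end Coord

end Cfsg.Agent.H41.CoLocal
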