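import Cfsg.Agent.H41.CoLocal.Coord
import Cfsg.Prelude.Def_Transfer

/-! The subgroup of order `2^11` in coordinates. -/

set_option autoImplicit false
set_option linter.unusedSimpArgs false
set_option linter.unusedSectionVars false

namespace Cfsg.Agent.H41.CoLocal

open Cfsg.Agent Cfsg.Agent.H41.CoType
open Cfsg.Agent.H18 (SingPt OrthPair)

/-- Powers of an element of order dividing two. -/
theorem pow_val_add {H : Type*} [Monoid H] {g : H} (hg : g * g = 1) (a c : ZMod 2) :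
    g ^ (a + c).val = g ^ a.val * g ^ c.val := by
  rcases bit a with rfl | rfl <;> rcases bit c with rfl | rfl <;>
    simp [two0, show (1 : ZMod 2).val = 1 from rfl, hg]

theorem pow_val_zero {H : Type*} [Monoid H] (g : H) : g ^ (0 : ZMod 2).val = 1 := pow_zero g

theorem pow_val_one {H : Type*} [Monoid H] (g : H) : g ^ (1 : ZMod 2).val = g := pow_one g

namespace Loc

variable {G : Type*} [Group G] [Finite G] (M : Loc G)

/-- The subgroup is abelian: first step. -/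
theorem elem_comm_tS (k : Fin 3) {a : G} (ha : a ∈ M.A) : Commute (M.tS k) a := by
  obtain ⟨s0, s1, s2, r, hr, hrR, rfl⟩ := M.exists_decomp ha
  exact (((Commute.pow_right (M.tS_comm k 0) _).mul_right (Commute.pow_right (M.tS_comm k 1) _)).mul_right
    (Commute.pow_right (M.tS_comm k 2) _)).mul_right (M.tS_comm_RA k hr hrR)

theorem elem_comm_R {r : G} (hr : r ∈ M.A) (hrR : r ∈ M.T.R) {a : G} (ha : a ∈ M.A) : Commute r a := by
  obtain ⟨s0, s1, s2, r', hr', hr'R, rfl⟩ := M.exists_decomp ha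
  exact (((Commute.pow_right (M.elem_comm_tS 0 hr).symm _).mul_right
    (Commute.pow_right (M.elem_comm_tS 1 hr).symm _)).mul_right
    (Commute.pow_right (M.elem_comm_tS 2 hr).symm _)).mul_right (M.comm_RA hr hrR hr' hr'R)

theorem elem_comm_A {a c : G} (ha : a ∈ M.A) (hc : c ∈ M.A) : a * c = c * a := by
  obtain ⟨s0, s1, s2, r, hr, hrR, rfl⟩ := M.exists_decomp ha
  exact (((Commute.pow_left (M.elem_comm_tS 0 hc) _).mul_left
    (Commute.pow_left (M.elem_comm_tS 1 hc) _)).mul_left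
    (Commute.pow_left (M.elem_comm_tS 2 hc) _)).mul_left (M.elem_comm_R hr hrR hc)

theorem elem_sq_A {a : G} (ha : a ∈ M.A) : a * a = 1 := by
  obtain ⟨s0, s1, s2, r, hr, hrR, rfl⟩ := M.exists_decomp ha
  obtain ⟨i, j, h⟩ := M.T.exists_isCl hrR
  obtain ⟨hi, hj⟩ := M.isCl_inL hr h
  have hr1 : r * r = 1 := by
    rw [M.T.sq_R h, q_inL hi, q_inL hj, B_inL hi hj, add_zero, M.T.vv_zero]
  have hm : ∀ {x y : G}, x ∈ M.A → y ∈ M.A → x * x = 1 → y * y = 1 → x * y * (x * y) = 1 :=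
    fun {x y} hx hy hxx hyy => by
      rw [(show Commute y x from M.elem_comm_A hy hx).mul_mul_mul_comm, hxx, hyy, one_mul]
  have hs : ∀ (k : Fin 3) (n : ℕ), M.tS k ^ n * M.tS k ^ n = 1 := fun k n => by
    rw [← (Commute.refl (M.tS k)).mul_pow, M.tS_tt, one_pow]
  have h0 := pow_mem (M.tS_mem 0) s0.val
  have h1 := pow_mem (M.tS_mem 1) s1.val
  have h2 := pow_mem (M.tS_mem 2) s2.val
  exact hm (mul_mem (mul_mem h0 h1) h2) hr (hm (mul_mem h0 h1) h2 (hm h0 h1 (hs _ _) (hs _ _)) (hs _ _)) hr1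

end Loc

theorem pr_eps_jx : ∀ k : Fin 3, pr (eps (jx k)) = eps (jx k) := by decide +kernel

theorem B_eps0_eta_jx : ∀ k : Fin 3, B8 (eps 0) (eta (jx k)) = 0 := by decide +kernel

theorem q_eps : ∀ i : Fin 4, q8 (eps i) = 0 := by decide +kernel

theorem inL_pr_comb {a : F8} (ha : InL a) (hp : pr a = a) :
    a = a (.inl 1) • eps (jx 0) + a (.inl 2) • eps (jx 1) + a (.inl 3) • eps (jx 2) := by
  funext j
  rcases j with i | i
  · fin_cases i <;> simp [jx, eps, Pi.single_apply]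
    rw [← hp]; simp [pr]
  · simp [eps, ha i]

namespace Coord

variable {G : Type*} [Group G] [Finite G] {M : Loc G} (C : Coord M)

theorem p_Lt (k : Fin 3) : C.p k ∈ M.Lt := ⟨C.p_mem k, by rw [C.p_co]; exact inL_eps _⟩

theorem p_P (k : Fin 3) : C.p k ∈ M.T.P := M.Lt_le_P (C.p_Lt k)

theorem p_A (k : Fin 3) : C.p k ∈ M.A := M.Lt_le_A (C.p_Lt k)

theorem p_cl (k : Fin 3) : M.T.cl (C.p k) = eps (jx k) := by rw [Frame.cl, C.p_co, pr_eps_jx]

theorem w_P' (k : Fin 3) : C.w k ∈ M.T.P' := M.T.vp_mem (C.p_P k)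

theorem w_ph (k : Fin 3) : M.T.ph (C.w k) = eps (jx k) := by
  rw [show C.w k = M.T.v * C.p k * M.T.v⁻¹ * (C.p k)⁻¹ from rfl, M.T.ph_vp (C.p_P k), C.p_cl]

theorem w_isCl (k : Fin 3) : M.T.IsCl (C.w k) 0 (eps (jx k)) := C.w_ph k ▸ M.T.isCl_P' (C.w_P' k)

theorem p_isCl (k : Fin 3) : M.T.IsCl (C.p k) (eps (jx k)) 0 := C.p_cl k ▸ M.T.isCl_P (C.p_P k)

theorem w_A (k : Fin 3) : C.w k ∈ M.A := M.isCl_mem_A (C.w_isCl k) inL_zero (inL_eps _)

theorem p_sq (k : Fin 3) : C.p k * C.p k = 1 := M.elem_sq_A (C.p_A k)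

theorem w_sq (k : Fin 3) : C.w k * C.w k = 1 := M.elem_sq_A (C.w_A k)

theorem u_w (k : Fin 3) : M.T.u * C.w k * M.T.u⁻¹ = C.p k * C.w k := C.w_u k

theorem vv_Lt (i j : ZMod 2) : M.T.vv i j ∈ M.Lt :=
  ⟨M.T.vv_mem_F i j, by rw [M.T.co_vv]; exact inL_smul j (inL_eps 0)⟩

theorem v_w (k : Fin 3) : M.T.v * C.w k * M.T.v⁻¹ = C.w k := by
  have hvv : M.T.v * M.T.v * C.p k = C.p k * (M.T.v * M.T.v) := by
    rcases M.T.o.h'.pair (M.T.o.h'.sq M.T.hv) with e | e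
    · rw [e, one_mul, mul_one]
    · rw [e]; exact (M.T.mem_D.1 (M.T.P_le_D (C.p_P k))).2.symm
  have h1 : M.T.v * C.w k * M.T.v⁻¹ = (C.w k)⁻¹ := by
    show M.T.v * (M.T.v * C.p k * M.T.v⁻¹ * (C.p k)⁻¹) * M.T.v⁻¹ = (M.T.v * C.p k * M.T.v⁻¹ * (C.p k)⁻¹)⁻¹
    calc M.T.v * (M.T.v * C.p k * M.T.v⁻¹ * (C.p k)⁻¹) * M.T.v⁻¹
        = M.T.v * M.T.v * C.p k * (M.T.v * M.T.v)⁻¹ * (M.T.v * (C.p k)⁻¹ * M.T.v⁻¹) := by group
      _ = _ := by rw [hvv]; group
  rw [h1, inv_eq_of_mul_eq_one_right (C.w_sq k)]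

theorem v_p (k : Fin 3) : M.T.v * C.p k * M.T.v⁻¹ = C.w k * C.p k := by
  show _ = M.T.v * C.p k * M.T.v⁻¹ * (C.p k)⁻¹ * C.p k
  rw [inv_mul_cancel_right]

/-- The element with given coordinates, in parts. -/
theorem el_def (x : V11) : C.el x = M.T.vv (x 0) (x 1) *
    (C.p 0 ^ (x 2).val * C.p 1 ^ (x 3).val * C.p 2 ^ (x 4).val) *
    (C.w 0 ^ (x 5).val * C.w 1 ^ (x 6).val * C.w 2 ^ (x 7).val) *
    (C.t 0 ^ (x 8).val * C.t 1 ^ (x 9).val * C.t 2 ^ (x 10).val) := rfl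

theorem el_mem (x : V11) : C.el x ∈ M.A := by
  rw [el_def]
  exact mul_mem (mul_mem (mul_mem (M.Lt_le_A (vv_Lt _ _))
    (mul_mem (mul_mem (pow_mem (C.p_A 0) _) (pow_mem (C.p_A 1) _)) (pow_mem (C.p_A 2) _)))
    (mul_mem (mul_mem (pow_mem (C.w_A 0) _) (pow_mem (C.w_A 1) _)) (pow_mem (C.w_A 2) _)))
    (mul_mem (mul_mem (pow_mem (C.t_mem 0) _) (pow_mem (C.t_mem 1) _)) (pow_mem (C.t_mem 2) _))

theorem el_comm {a : G} (ha : a ∈ M.A) (x : V11) : a * C.el x = C.el x * a :=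
  M.elem_comm_A ha (C.el_mem x)

/-- A combination of three commuting involutions of `A`. -/
theorem triple_add {f : Fin 3 → G} (hm : ∀ k, f k ∈ M.A) (a0 a1 a2 c0 c1 c2 : ZMod 2) :
    f 0 ^ (a0 + c0).val * f 1 ^ (a1 + c1).val * f 2 ^ (a2 + c2).val =
      (f 0 ^ a0.val * f 1 ^ a1.val * f 2 ^ a2.val) * (f 0 ^ c0.val * f 1 ^ c1.val * f 2 ^ c2.val) := by
  have hc : ∀ {x y : G}, x ∈ M.A → y ∈ M.A → Commute x y := fun hx hy => M.elem_comm_A hx hy
  have h := fun k (a : ZMod 2) => pow_mem (hm k) a.val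
  have hs := fun k => M.elem_sq_A (hm k)
  rw [pow_val_add (hs 0), pow_val_add (hs 1), pow_val_add (hs 2),
    (hc (h 0 c0) (h 1 a1)).mul_mul_mul_comm,
    (hc (mul_mem (h 0 c0) (h 1 c1)) (h 2 a2)).mul_mul_mul_comm]

theorem el_add (x y : V11) : C.el (x + y) = C.el x * C.el y := by
  have hc : ∀ {x y : G}, x ∈ M.A → y ∈ M.A → Commute x y := fun hx hy => M.elem_comm_A hx hy
  have hV : ∀ x : V11, M.T.vv (x 0) (x 1) ∈ M.A := fun x => M.Lt_le_A (vv_Lt _ _)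
  have h3 : ∀ {f : Fin 3 → G}, (∀ k, f k ∈ M.A) → ∀ a b c : ZMod 2,
      f 0 ^ a.val * f 1 ^ b.val * f 2 ^ c.val ∈ M.A := fun hm a b c =>
    mul_mem (mul_mem (pow_mem (hm 0) _) (pow_mem (hm 1) _)) (pow_mem (hm 2) _)
  have hP := h3 C.p_A
  have hW := h3 C.w_A
  have hT := h3 C.t_mem
  simp only [el_def, Pi.add_apply]
  rw [← M.T.vv_mul, triple_add C.p_A, triple_add C.w_A, triple_add C.t_mem,
    (hc (hV y) (hP _ _ _)).mul_mul_mul_comm,
    (hc (mul_mem (hV y) (hP _ _ _)) (hW _ _ _)).mul_mul_mul_comm,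
    (hc (mul_mem (mul_mem (hV y) (hP _ _ _)) (hW _ _ _)) (hT _ _ _)).mul_mul_mul_comm]

theorem el_zero : C.el 0 = 1 := by simp [el_def, M.T.vv_zero]

theorem el_sq (x : V11) : C.el x * C.el x = 1 := M.elem_sq_A (C.el_mem x)

theorem el_inv (x : V11) : (C.el x)⁻¹ = C.el x := inv_eq_of_mul_eq_one_right (C.el_sq x)

theorem el_smul (a : ZMod 2) (x : V11) : C.el (a • x) = C.el x ^ a.val := by
  rcases bit a with rfl | rfl
  · rw [zero_smul, el_zero, pow_val_zero]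
  · rw [one_smul, pow_val_one]

theorem el_e0 : C.el e0 = M.T.z := by
  simp [el_def, e0, Frame.vv, M.T.bp_zero, Setting.zp_one]

theorem el_emb (l : Fin 5 → ZMod 2) : C.el (emb l) =
    M.T.vv (l 0) (l 1) * (C.p 0 ^ (l 2).val * C.p 1 ^ (l 3).val * C.p 2 ^ (l 4).val) := by
  simp [el_def, emb]

theorem el_emb_mem (l : Fin 5 → ZMod 2) : C.el (emb l) ∈ M.Lt := by
  rw [el_emb]
  exact mul_mem (vv_Lt _ _)
    (mul_mem (mul_mem (pow_mem (C.p_Lt 0) _) (pow_mem (C.p_Lt 1) _)) (pow_mem (C.p_Lt 2) _))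

theorem co_el_emb (l : Fin 5 → ZMod 2) : M.T.S.co (C.el (emb l)) =
    l 1 • eps 0 + (l 2 • eps (jx 0) + l 3 • eps (jx 1) + l 4 • eps (jx 2)) := by
  have hp : ∀ k (a : ZMod 2), C.p k ^ a.val ∈ M.T.S.F ∧ M.T.S.co (C.p k ^ a.val) = a • eps (jx k) := by
    intro k a
    rcases bit a with rfl | rfl
    · rw [pow_val_zero, zero_smul, M.T.S.co_one]; exact ⟨one_mem _, rfl⟩
    · rw [pow_val_one, one_smul, C.p_co]; exact ⟨C.p_mem k, rfl⟩
  rw [el_emb, M.T.S.co_mul _ (M.T.vv_mem_F _ _) _ (mul_mem (mul_mem (hp 0 _).1 (hp 1 _).1) (hp 2 _).1),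
    M.T.co_vv, M.T.S.co_mul _ (mul_mem (hp 0 _).1 (hp 1 _).1) _ (hp 2 _).1,
    M.T.S.co_mul _ (hp 0 _).1 _ (hp 1 _).1, (hp 0 _).2, (hp 1 _).2, (hp 2 _).2]

theorem el_emb_surj {a : G} (ha : a ∈ M.Lt) : ∃ l, C.el (emb l) = a := by
  obtain ⟨l, hl⟩ : ∃ l : Fin 5 → ZMod 2, l = ![0, M.T.S.co a (.inl 0), M.T.S.co a (.inl 1),
      M.T.S.co a (.inl 2), M.T.S.co a (.inl 3)] := ⟨_, rfl⟩
  have hco : M.T.S.co (C.el (emb l)) = M.T.S.co a := by
    rw [co_el_emb, hl]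
    funext j
    rcases j with i | i
    · fin_cases i <;> simp [jx, eps, Pi.single_apply]
    · simp [eps, ha.2 i]
  obtain ⟨c, hc⟩ := M.T.S.exists_zp (C.el_emb_mem l).1 ha.1 hco
  refine ⟨l + c • ![1, 0, 0, 0, 0], ?_⟩
  have e : emb (l + c • ![1, 0, 0, 0, 0]) = emb l + c • e0 := by
    funext i; fin_cases i <;> simp [emb, e0]
  rw [e, el_add, el_smul, el_e0, hc]
  rcases bit c with rfl | rfl
  · rw [pow_val_zero, Setting.zp_zero]
  · rw [pow_val_one, Setting.zp_one]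

theorem emb_mem_R (l : Fin 5 → ZMod 2) : C.el (emb l) ∈ M.T.R :=
  M.T.P_le_R (M.Lt_le_P (C.el_emb_mem l))

end Coord

/-- The vector of a power of the central involution times a generator. -/
def pv (c : ZMod 2) (k : Fin 3) : Fin 5 → ZMod 2 :=
  ![c, 0, if k = 0 then 1 else 0, if k = 1 then 1 else 0, if k = 2 then 1 else 0]

/-- The shift of the translation `u`. -/
def cu (x : V11) : Fin 5 → ZMod 2 := ![x 1, 0, x 5, x 6, x 7]

/-- The shifts of the three other translations. -/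
def cq (k : Fin 3) (x : V11) : Fin 5 → ZMod 2 :=
  if k = 0 then ![x 2 + x 5 + x 8 + x 9, x 5, 0, x 10, x 9]
  else if k = 1 then ![x 3 + x 6 + x 9 + x 10, x 6, x 10, 0, x 8]
  else ![x 4 + x 7 + x 8 + x 10, x 7, x 9, x 8, 0]

/-- The shift of a product of two translations. -/
def mulSh (f f' : V11 → Fin 5 → ZMod 2) (x : V11) : Fin 5 → ZMod 2 := f x + (f' x + f (emb (f' x)))

theorem emb_add (l l' : Fin 5 → ZMod 2) : emb (l + l') = emb l + emb l' := by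
  funext i; fin_cases i <;> simp [emb]

theorem emb_zero : emb 0 = 0 := by funext i; fin_cases i <;> simp [emb]

theorem emb_smul (a : ZMod 2) (l : Fin 5 → ZMod 2) : emb (a • l) = a • emb l := by
  funext i; fin_cases i <;> simp [emb]

theorem idx3 : ∀ j k : Fin 3, j = k ∨ j = k + 1 ∨ j = k + 2 := by decide +kernel

theorem B_eps_eta_jx : ∀ k j : Fin 3, B8 (eps (jx k)) (eta (jx j)) = if k = j then 1 else 0 := by
  decide +kernel

theorem B_eps_jx_eta0 : ∀ k : Fin 3, B8 (eps (jx k)) (eta 0) = 0 := by decide +kernel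

theorem pr_eta_jx : ∀ k : Fin 3, pr (eta (jx k)) = eta (jx k) := by decide +kernel

theorem uMap_eq (x : V11) : x + emb (cu x) = uMap x := by
  funext i; fin_cases i <;> simp [uMap, emb, cu]

theorem qy_shift (x : V11) (y : Y4) :
    mulSh (mulSh (mulSh (fun x => y.1 • cu x) (fun x => y.2.1 • cq 0 x)) (fun x => y.2.2.1 • cq 1 x))
      (fun x => y.2.2.2 • cq 2 x) x =
      ![fn x y, (disp x y).1, (disp x y).2.1, (disp x y).2.2.1, (disp x y).2.2.2] := by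
  obtain ⟨y0, y1, y2, y3⟩ := y
  funext i
  fin_cases i <;> simp [mulSh, cu, cq, emb, fn, disp] <;> ring

namespace Coord

variable {G : Type*} [Group G] [Finite G] {M : Loc G} (C : Coord M)

/-- Conjugation of `q` by `a` shifts by the given vector. -/
def Cj (q a : G) (l : Fin 5 → ZMod 2) : Prop := a * q * a⁻¹ = C.el (emb l) * q

theorem cj_mul {q a a' : G} {l l' : Fin 5 → ZMod 2} (ha : a ∈ M.A) (h : C.Cj q a l) (h' : C.Cj q a' l') :
    C.Cj q (a * a') (l + l') := by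
  show a * a' * q * (a * a')⁻¹ = _
  calc a * a' * q * (a * a')⁻¹ = a * (a' * q * a'⁻¹) * a⁻¹ := by group
    _ = (a * C.el (emb l')) * q * a⁻¹ := by rw [h']; group
    _ = C.el (emb l') * (a * q * a⁻¹) := by rw [C.el_comm ha]; group
    _ = _ := by rw [h, ← mul_assoc, ← el_add, ← emb_add, add_comm l']

theorem cj_pow {q a : G} {l : Fin 5 → ZMod 2} (h : C.Cj q a l) (e : ZMod 2) :
    C.Cj q (a ^ e.val) (e • l) := by
  rcases bit e with rfl | rfl
  · rw [pow_val_zero, zero_smul]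
    show _ = _
    rw [emb_zero, el_zero]; group
  · rwa [pow_val_one, one_smul]

theorem el_pv (c : ZMod 2) (k : Fin 3) : C.el (emb (pv c k)) = M.T.S.zp c * C.p k := by
  fin_cases k <;> simp [el_emb, pv, Frame.vv, M.T.bp_zero, show (1 : ZMod 2).val = 1 from rfl]

theorem el_zp (c : ZMod 2) : C.el (emb ![c, 0, 0, 0, 0]) = M.T.S.zp c := by
  simp [el_emb, Frame.vv, M.T.bp_zero]

theorem el_vv (i j : ZMod 2) : C.el (emb ![i, j, 0, 0, 0]) = M.T.vv i j := by simp [el_emb]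

theorem u_flip {a e : G} (h : M.T.u * a * M.T.u⁻¹ = e * a) (he : e * M.T.u = M.T.u * e) :
    a * M.T.u * a⁻¹ = e * M.T.u := by
  have h1 : a * M.T.u⁻¹ * a⁻¹ = M.T.u⁻¹ * e := by
    calc a * M.T.u⁻¹ * a⁻¹ = M.T.u⁻¹ * (M.T.u * a * M.T.u⁻¹) * a⁻¹ := by group
      _ = _ := by rw [h]; group
  rw [M.T.u_inv] at h1
  rw [h1, he]

theorem cj_zero {q a : G} (h : a * q = q * a) : C.Cj q a 0 := by
  show _ = _
  rw [emb_zero, el_zero, h]; group

theorem cj_u_vv (i j : ZMod 2) : C.Cj M.T.u (M.T.vv i j) ![j, 0, 0, 0, 0] := by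
  show _ = _
  rw [el_zp]
  refine u_flip ?_ (M.T.S.zp_comm j (M.T.S.pt.comm_x _ M.T.hu)).symm
  rw [M.T.u_vv, show M.T.S.zp j = M.T.vv j 0 by rw [Frame.vv, M.T.bp_zero, mul_one], M.T.vv_mul,
    add_comm j i, zero_add]

theorem p_u (k : Fin 3) : C.p k * M.T.u = M.T.u * C.p k :=
  (M.T.S.commute_iff (C.p_mem k) M.T.hu).2 (by rw [C.p_co, M.T.hcu, B_eps_jx_eta0])

theorem cj_u_p (k : Fin 3) : C.Cj M.T.u (C.p k) 0 := C.cj_zero (C.p_u k)

theorem cj_u_w (k : Fin 3) : C.Cj M.T.u (C.w k) (pv 0 k) := by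
  show _ = _
  rw [el_pv, Setting.zp_zero, one_mul]
  exact u_flip (C.u_w k) (C.p_u k)

theorem cj_u_t (k : Fin 3) : C.Cj M.T.u (C.t k) 0 := by
  refine C.cj_zero ?_
  calc C.t k * M.T.u = (M.T.u * C.t k * M.T.u⁻¹) * M.T.u := by rw [C.t_u]
    _ = _ := by group

theorem q_P (j : Fin 3) : C.q j ∈ M.T.P :=
  M.T.mem_P.2 ⟨C.q_mem j, by rw [C.q_co]; exact B_eps0_eta_jx j⟩

theorem cj_q_vv (j : Fin 3) (i c : ZMod 2) : C.Cj (C.q j) (M.T.vv i c) 0 :=
  C.cj_zero (M.T.vv_comm (M.T.P_le_D (C.q_P j)) i c).symm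

theorem cj_q_p (j k : Fin 3) : C.Cj (C.q j) (C.p k) ![if k = j then 1 else 0, 0, 0, 0, 0] := by
  show _ = _
  rw [el_zp, M.T.S.comm (C.p_mem k) (C.q_mem j), C.p_co, C.q_co, B_eps_eta_jx]
  group

theorem cj_q_w (j k : Fin 3) :
    C.Cj (C.q j) (C.w k) ![if k = j then 1 else 0, if k = j then 1 else 0, 0, 0, 0] := by
  show _ = _
  have h := M.T.comm_PP' (C.q_P j) (C.w_P' k)
  rw [show M.T.cl (C.q j) = eta (jx j) by rw [Frame.cl, C.q_co, pr_eta_jx], C.w_ph, B_comm,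
    B_eps_eta_jx] at h
  rw [el_vv]
  calc C.w k * C.q j * (C.w k)⁻¹
      = M.T.vv (if k = j then 1 else 0) (if k = j then 1 else 0) *
        (M.T.vv (if k = j then 1 else 0) (if k = j then 1 else 0) * (C.w k * C.q j)) * (C.w k)⁻¹ := by
        rw [← mul_assoc (M.T.vv _ _) (M.T.vv _ _), M.T.vv_mul, two0, M.T.vv_zero, one_mul]
    _ = _ := by rw [← h]; group

theorem cj_t_self (k : Fin 3) : C.Cj (C.q k) (C.t k) ![1, 0, 0, 0, 0] := by
  show _ = _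
  rw [el_zp, Setting.zp_one]; exact C.tq k

theorem cj_t_next (k : Fin 3) : C.Cj (C.q (k + 1)) (C.t k) (pv 0 (k + 2)) := by
  show _ = _
  rw [el_pv, Setting.zp_zero, one_mul]; exact C.tq_next k

theorem cj_t_prev (k : Fin 3) : C.Cj (C.q (k + 2)) (C.t k) (pv 1 (k + 1)) := by
  show _ = _
  rw [el_pv, Setting.zp_one]; exact C.tq_prev k

theorem cj_el {q : G} (x : V11) {lv : Fin 5 → ZMod 2} {lp lw lt : Fin 3 → Fin 5 → ZMod 2}
    (hv : C.Cj q (M.T.vv (x 0) (x 1)) lv) (hp : ∀ k, C.Cj q (C.p k) (lp k))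
    (hw : ∀ k, C.Cj q (C.w k) (lw k)) (ht : ∀ k, C.Cj q (C.t k) (lt k)) :
    C.Cj q (C.el x) (lv + (x 2 • lp 0 + x 3 • lp 1 + x 4 • lp 2) +
      (x 5 • lw 0 + x 6 • lw 1 + x 7 • lw 2) + (x 8 • lt 0 + x 9 • lt 1 + x 10 • lt 2)) := by
  have h3 : ∀ {f : Fin 3 → G} {l : Fin 3 → Fin 5 → ZMod 2}, (∀ k, f k ∈ M.A) → (∀ k, C.Cj q (f k) (l k)) →
      ∀ a b c : ZMod 2, C.Cj q (f 0 ^ a.val * f 1 ^ b.val * f 2 ^ c.val) (a • l 0 + b • l 1 + c • l 2) :=
    fun hm h a b c => C.cj_mul (mul_mem (pow_mem (hm 0) _) (pow_mem (hm 1) _))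
      (C.cj_mul (pow_mem (hm 0) _) (C.cj_pow (h 0) a) (C.cj_pow (h 1) b)) (C.cj_pow (h 2) c)
  have hm : ∀ {f : Fin 3 → G}, (∀ k, f k ∈ M.A) → ∀ a b c : ZMod 2,
      f 0 ^ a.val * f 1 ^ b.val * f 2 ^ c.val ∈ M.A := fun hm a b c =>
    mul_mem (mul_mem (pow_mem (hm 0) _) (pow_mem (hm 1) _)) (pow_mem (hm 2) _)
  have hV := M.Lt_le_A (vv_Lt (M := M) (x 0) (x 1))
  rw [el_def]
  exact C.cj_mul (mul_mem (mul_mem hV (hm C.p_A _ _ _)) (hm C.w_A _ _ _))
    (C.cj_mul (mul_mem hV (hm C.p_A _ _ _)) (C.cj_mul hV hv (h3 C.p_A hp _ _ _)) (h3 C.w_A hw _ _ _))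
    (h3 C.t_mem ht _ _ _)

theorem cj_el_u (x : V11) : C.Cj M.T.u (C.el x) (cu x) := by
  have h := C.cj_el x (C.cj_u_vv (x 0) (x 1)) C.cj_u_p C.cj_u_w C.cj_u_t
  convert h using 1
  funext i; fin_cases i <;> simp [cu, pv]

theorem cj_el_q (j : Fin 3) (x : V11) : C.Cj (C.q j) (C.el x) (cq j x) := by
  have hT : ∀ k, C.Cj (C.q j) (C.t k)
      (if j = k then ![1, 0, 0, 0, 0] else if j = k + 1 then pv 0 (k + 2) else pv 1 (k + 1)) := by
    intro k
    rcases idx3 j k with rfl | rfl | rfl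
    · rw [if_pos rfl]; exact C.cj_t_self _
    · rw [if_neg (by revert k; decide +kernel), if_pos rfl]; exact C.cj_t_next _
    · rw [if_neg (by revert k; decide +kernel), if_neg (by revert k; decide +kernel)]
      exact C.cj_t_prev _
  have h := C.cj_el x (C.cj_q_vv j (x 0) (x 1)) (C.cj_q_p j) (C.cj_q_w j) hT
  convert h using 1
  funext i
  fin_cases j <;> fin_cases i <;> simp [cq, pv] <;> ring

/-- The translation `g` shifts by `f`. -/
def Sh (g : G) (f : V11 → Fin 5 → ZMod 2) : Prop := ∀ x, C.el x * g * (C.el x)⁻¹ = C.el (emb (f x)) * g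

theorem sh_u : C.Sh M.T.u cu := C.cj_el_u

theorem sh_q (j : Fin 3) : C.Sh (C.q j) (cq j) := C.cj_el_q j

theorem sh_conj {g : G} {f : V11 → Fin 5 → ZMod 2} (h : C.Sh g f) (x : V11) :
    g * C.el x * g⁻¹ = C.el (x + emb (f x)) := by
  calc g * C.el x * g⁻¹ = (C.el (emb (f x)))⁻¹ * (C.el (emb (f x)) * g) * C.el x * g⁻¹ := by group
    _ = (C.el (emb (f x)))⁻¹ * C.el x := by rw [← h x]; group
    _ = _ := by rw [el_inv, ← el_add, add_comm x]

theorem sh_mul {g g' : G} {f f' : V11 → Fin 5 → ZMod 2} (h : C.Sh g f) (h' : C.Sh g' f') :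
    C.Sh (g * g') (mulSh f f') := by
  intro x
  calc C.el x * (g * g') * (C.el x)⁻¹
      = (C.el x * g * (C.el x)⁻¹) * (C.el x * g' * (C.el x)⁻¹) := by group
    _ = C.el (emb (f x)) * (g * C.el (emb (f' x)) * g⁻¹) * (g * g') := by rw [h, h']; group
    _ = _ := by rw [C.sh_conj h, ← el_add, mulSh, emb_add, emb_add]

theorem sh_pow {g : G} {f : V11 → Fin 5 → ZMod 2} (h : C.Sh g f) (a : ZMod 2) :
    C.Sh (g ^ a.val) (fun x => a • f x) := by
  intro x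
  rcases bit a with rfl | rfl
  · simp only [pow_val_zero, zero_smul]
    rw [emb_zero, el_zero]; group
  · simp only [pow_val_one, one_smul]; exact h x

theorem el_qy (x : V11) (y : Y4) : C.el x * C.qy y * (C.el x)⁻¹ =
    C.el (emb ![fn x y, (disp x y).1, (disp x y).2.1, (disp x y).2.2.1, (disp x y).2.2.2]) * C.qy y := by
  rw [← qy_shift]
  exact C.sh_mul (C.sh_mul (C.sh_mul (C.sh_pow C.sh_u _) (C.sh_pow (C.sh_q 0) _))
    (C.sh_pow (C.sh_q 1) _)) (C.sh_pow (C.sh_q 2) _) x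

theorem el_qy_fix (x : V11) (y : Y4) (h : disp x y = 0) :
    C.el x * C.qy y * (C.el x)⁻¹ = M.T.S.zp (fn x y) * C.qy y := by
  rw [C.el_qy, h, ← el_zp C]
  simp

theorem qy_mem (y : Y4) : C.qy y ∈ M.T.S.F :=
  mul_mem (mul_mem (mul_mem (pow_mem M.T.hu _) (pow_mem (C.q_mem 0) _)) (pow_mem (C.q_mem 1) _))
    (pow_mem (C.q_mem 2) _)

theorem co_el_emb_eq_zero {l : Fin 5 → ZMod 2} (h : M.T.S.co (C.el (emb l)) = 0) :
    l 1 = 0 ∧ l 2 = 0 ∧ l 3 = 0 ∧ l 4 = 0 := by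
  rw [co_el_emb] at h
  exact ⟨by simpa [jx, eps, Pi.single_apply] using congrFun h (.inl 0),
    by simpa [jx, eps, Pi.single_apply] using congrFun h (.inl 1),
    by simpa [jx, eps, Pi.single_apply] using congrFun h (.inl 2),
    by simpa [jx, eps, Pi.single_apply] using congrFun h (.inl 3)⟩

theorem el_qy_co (x : V11) (y : Y4) (h : disp x y ≠ 0) :
    M.T.S.co (C.el x * C.qy y * (C.el x)⁻¹) ≠ M.T.S.co (C.qy y) := by
  intro e
  rw [C.el_qy, M.T.S.co_mul _ (C.el_emb_mem _).1 _ (C.qy_mem y), add_eq_right] at e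
  obtain ⟨h1, h2, h3, h4⟩ := C.co_el_emb_eq_zero e
  refine h ?_
  simp only [Matrix.cons_val] at h1 h2 h3 h4
  exact Prod.ext h1 (Prod.ext h2 (Prod.ext h3 h4))

theorem el_uMap (x : V11) : C.el (uMap x) = M.T.u * C.el x * M.T.u⁻¹ := by
  rw [C.sh_conj C.sh_u, uMap_eq]

theorem q_conj (j : Fin 3) (x : V11) : C.q j * C.el x * (C.q j)⁻¹ = C.el (x + emb (cq j x)) :=
  C.sh_conj (C.sh_q j) x

/-- Conjugation of `a` by `v` multiplies by the given vector. -/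
def Vj (a : G) (d : V11) : Prop := M.T.v * a * M.T.v⁻¹ = a * C.el d

theorem vj_mul {a a' : G} {d d' : V11} (ha' : a' ∈ M.A) (h : C.Vj a d) (h' : C.Vj a' d') :
    C.Vj (a * a') (d + d') := by
  show _ = _
  calc M.T.v * (a * a') * M.T.v⁻¹ = M.T.v * a * M.T.v⁻¹ * (M.T.v * a' * M.T.v⁻¹) := by group
    _ = a * (C.el d * a') * C.el d' := by rw [h, h']; group
    _ = _ := by rw [← C.el_comm ha', el_add]; group

theorem vj_pow {a : G} {d : V11} (h : C.Vj a d) (e : ZMod 2) : C.Vj (a ^ e.val) (e • d) := by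
  rcases bit e with rfl | rfl
  · rw [pow_val_zero, zero_smul]
    show _ = _
    rw [el_zero]; group
  · rwa [pow_val_one, one_smul]

theorem el_single_w (k : Fin 3) :
    C.el ![0, 0, 0, 0, 0, if k = 0 then 1 else 0, if k = 1 then 1 else 0, if k = 2 then 1 else 0, 0, 0, 0] =
      C.w k := by
  fin_cases k <;> simp [el_def, M.T.vv_zero, show (1 : ZMod 2).val = 1 from rfl]

theorem el_vMap (x : V11) : C.el (vMap x) = M.T.v * C.el x * M.T.v⁻¹ := by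
  have h3 : ∀ {f : Fin 3 → G} {d : Fin 3 → V11}, (∀ k, f k ∈ M.A) → (∀ k, C.Vj (f k) (d k)) →
      ∀ a b c : ZMod 2, C.Vj (f 0 ^ a.val * f 1 ^ b.val * f 2 ^ c.val) (a • d 0 + b • d 1 + c • d 2) :=
    fun hm h a b c => C.vj_mul (pow_mem (hm 2) _)
      (C.vj_mul (pow_mem (hm 1) _) (C.vj_pow (h 0) a) (C.vj_pow (h 1) b)) (C.vj_pow (h 2) c)
  have hm : ∀ {f : Fin 3 → G}, (∀ k, f k ∈ M.A) → ∀ a b c : ZMod 2,
      f 0 ^ a.val * f 1 ^ b.val * f 2 ^ c.val ∈ M.A := fun hm a b c =>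
    mul_mem (mul_mem (pow_mem (hm 0) _) (pow_mem (hm 1) _)) (pow_mem (hm 2) _)
  have hv : C.Vj (M.T.vv (x 0) (x 1)) ![0, x 0, 0, 0, 0, 0, 0, 0, 0, 0, 0] := by
    show _ = _
    rw [M.T.v_vv, show C.el ![0, x 0, 0, 0, 0, 0, 0, 0, 0, 0, 0] = M.T.vv 0 (x 0) by simp [el_def],
      M.T.vv_mul, add_zero, add_comm (x 0)]
  have hp : ∀ k, C.Vj (C.p k)
      ![0, 0, 0, 0, 0, if k = 0 then 1 else 0, if k = 1 then 1 else 0, if k = 2 then 1 else 0, 0, 0, 0] := by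
    intro k
    show _ = _
    rw [el_single_w, C.v_p, M.elem_comm_A (C.w_A k) (C.p_A k)]
  have hw : ∀ k, C.Vj (C.w k) 0 := fun k => by show _ = _; rw [el_zero, C.v_w, mul_one]
  have ht : ∀ k, C.Vj (C.t k) 0 := fun k => by show _ = _; rw [el_zero, C.t_v, mul_one]
  have h := C.vj_mul (hm C.t_mem _ _ _) (C.vj_mul (hm C.w_A _ _ _)
    (C.vj_mul (hm C.p_A _ _ _) hv (h3 C.p_A hp (x 2) (x 3) (x 4))) (h3 C.w_A hw (x 5) (x 6) (x 7)))
    (h3 C.t_mem ht (x 8) (x 9) (x 10))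
  rw [Vj, ← el_def] at h
  rw [h, ← el_add]
  congr 1
  funext i; fin_cases i <;> simp [vMap]

/-! ### Injectivity and surjectivity -/

theorem R_shift {g r : G} (hg : g ∈ M.T.P) (hr : r ∈ M.T.R) {l : Fin 5 → ZMod 2}
    (h : r * g * r⁻¹ = C.el (emb l) * g) : l 2 = 0 ∧ l 3 = 0 ∧ l 4 = 0 := by
  obtain ⟨a, c, hac⟩ := M.T.comm_four hr (M.T.P_le_R hg)
  have e : C.el (emb l) = M.T.vv a c := by
    refine mul_right_cancel (b := g) ?_
    rw [← h, hac]; group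
  have h0 := congrArg M.T.S.co e
  rw [co_el_emb, M.T.co_vv] at h0
  exact ⟨by simpa [jx, eps, Pi.single_apply] using congrFun h0 (.inl 1),
    by simpa [jx, eps, Pi.single_apply] using congrFun h0 (.inl 2),
    by simpa [jx, eps, Pi.single_apply] using congrFun h0 (.inl 3)⟩

theorem el_mem_R_iff (x : V11) : C.el x ∈ M.T.R ↔ x 8 = 0 ∧ x 9 = 0 ∧ x 10 = 0 := by
  constructor
  · intro hR
    have h0 := C.R_shift (C.q_P 0) hR (C.sh_q 0 x)
    have h1 := C.R_shift (C.q_P 1) hR (C.sh_q 1 x)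
    simp [cq] at h0 h1
    exact ⟨h1.2, h0.2, h0.1⟩
  · rintro ⟨h8, h9, h10⟩
    rw [el_def, h8, h9, h10, pow_val_zero, pow_val_zero, pow_val_zero, mul_one, mul_one, mul_one]
    have hp := fun k (a : ZMod 2) => pow_mem (M.T.P_le_R (C.p_P k)) a.val
    have hw := fun k (a : ZMod 2) => pow_mem (M.T.P'_le_R (C.w_P' k)) a.val
    exact mul_mem (mul_mem (M.T.P_le_R (M.Lt_le_P (vv_Lt _ _)))
      (mul_mem (mul_mem (hp 0 _) (hp 1 _)) (hp 2 _))) (mul_mem (mul_mem (hw 0 _) (hw 1 _)) (hw 2 _))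

theorem el_eq_one {x : V11} (h : C.el x = 1) : x = 0 := by
  obtain ⟨h8, h9, h10⟩ := (C.el_mem_R_iff x).1 (h ▸ one_mem _)
  have hu := C.sh_u x
  rw [h, one_mul, inv_one, mul_one, eq_comm, mul_eq_right] at hu
  obtain ⟨-, h5, h6, h7⟩ := C.co_el_emb_eq_zero (by rw [hu, M.T.S.co_one])
  simp [cu] at h5 h6 h7
  have hx : x = emb ![x 0, x 1, x 2, x 3, x 4] := by
    funext i; fin_cases i <;> simp [emb, h5, h6, h7, h8, h9, h10]
  rw [hx] at h ⊢
  obtain ⟨h1, h2, h3, h4⟩ := C.co_el_emb_eq_zero (by rw [h, M.T.S.co_one])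
  simp only [Matrix.cons_val] at h1 h2 h3 h4
  rw [el_emb] at h
  simp [h1, h2, h3, h4, Frame.vv, M.T.bp_zero, M.T.S.zp_eq_one] at h
  funext i; fin_cases i <;> simp [emb, h, h1, h2, h3, h4]

theorem el_inj : Function.Injective C.el := fun x y h => by
  have e : x + y = 0 := C.el_eq_one (by rw [el_add, h, el_sq])
  funext i
  have := congrFun e i
  simp only [Pi.add_apply, Pi.zero_apply] at this
  linear_combination this - two0 (y i)

theorem tS_eq (k : Fin 3) : ∃ l, M.tS k = C.t k * C.el (emb l) := by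
  have htD := M.A_le_D (C.t_mem k)
  have e : M.T.im (M.T.D_le_C htD) = M.T.im (M.T.D_le_C (M.tS_mem_D k)) :=
    ap_ext fun y => add_right_cancel ((C.t_im k _ y).trans (M.tS_im k y).symm)
  have hA := mul_mem (C.t_mem k) (M.tS_mem k)
  have hF : C.t k * M.tS k ∈ M.T.S.F := by
    refine (M.T.S.rho_eq_one (M.T.D_le_C (M.A_le_D hA))).1 ?_
    show M.T.im (mul_mem (M.T.D_le_C htD) (M.T.D_le_C (M.tS_mem_D k))) = 1
    rw [M.T.im_mul (M.T.D_le_C htD) (M.T.D_le_C (M.tS_mem_D k)), e, ← M.T.im_mul]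
    refine (M.T.S.rho_eq_one _).2 ?_
    rw [M.tS_tt]; exact one_mem _
  obtain ⟨l, hl⟩ := C.el_emb_surj (M.A_inter_F hA hF)
  exact ⟨l, by rw [hl, ← mul_assoc, C.t_sq, one_mul]⟩

theorem el_surj {a : G} (ha : a ∈ M.A) : ∃ x, C.el x = a := by
  obtain ⟨s0, s1, s2, r, hr, hrR, rfl⟩ := M.exists_decomp ha
  have hS : ∀ k (s : ZMod 2), ∃ x, C.el x = M.tS k ^ s.val := by
    intro k s
    obtain ⟨l, hl⟩ := C.tS_eq k
    refine ⟨s • (![0, 0, 0, 0, 0, 0, 0, 0, if k = 0 then 1 else 0, if k = 1 then 1 else 0,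
      if k = 2 then 1 else 0] + emb l), ?_⟩
    rw [el_smul, el_add, hl]
    congr 2
    fin_cases k <;> simp [el_def, M.T.vv_zero, show (1 : ZMod 2).val = 1 from rfl]
  have hR : ∃ x, C.el x = r := by
    obtain ⟨a', c', h⟩ := M.T.exists_isCl hrR
    obtain ⟨ha', hc'⟩ := M.isCl_inL hr h
    obtain ⟨hpa, hpc⟩ := M.T.isCl_pr h
    obtain ⟨x, hx⟩ : ∃ x : V11, x = ![0, 0, a' (.inl 1), a' (.inl 2), a' (.inl 3), c' (.inl 1), c' (.inl 2),
      c' (.inl 3), 0, 0, 0] := ⟨_, rfl⟩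
    have hcl : ∀ {g : G} {a c : F8}, M.T.IsCl g a c → ∀ e : ZMod 2, M.T.IsCl (g ^ e.val) (e • a) (e • c) := by
      intro g a c hg e
      rcases bit e with rfl | rfl
      · rw [pow_val_zero, zero_smul, zero_smul, ← M.T.vv_zero]; exact M.T.isCl_vv 0 0
      · rwa [pow_val_one, one_smul, one_smul]
    have h1 : M.T.IsCl (C.el x) a' c' := by
      have := M.T.isCl_mul (M.T.isCl_mul (M.T.isCl_vv (x 0) (x 1))
        (M.T.isCl_mul (M.T.isCl_mul (hcl (C.p_isCl 0) (x 2)) (hcl (C.p_isCl 1) (x 3))) (hcl (C.p_isCl 2) (x 4))))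
        (M.T.isCl_mul (M.T.isCl_mul (hcl (C.w_isCl 0) (x 5)) (hcl (C.w_isCl 1) (x 6))) (hcl (C.w_isCl 2) (x 7)))
      simp only [hx, smul_zero, add_zero, zero_add, Matrix.cons_val, ← inL_pr_comb ha' hpa,
        ← inL_pr_comb hc' hpc] at this
      simpa [el_def, hx] using this
    obtain ⟨i, j, hij⟩ := M.T.isCl_eq h1 h
    exact ⟨emb ![i, j, 0, 0, 0] + x, by rw [el_add, el_vv, hij]⟩
  obtain ⟨x0, h0⟩ := hS 0 s0
  obtain ⟨x1, h1⟩ := hS 1 s1
  obtain ⟨x2, h2⟩ := hS 2 s2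
  obtain ⟨x3, h3⟩ := hR
  exact ⟨x0 + x1 + x2 + x3, by rw [el_add, el_add, el_add, h0, h1, h2, h3]⟩

theorem w_ne_one (k : Fin 3) : C.w k ≠ 1 := by
  intro e
  rw [← el_single_w C k] at e
  have h := congrFun (C.el_eq_one e)
  fin_cases k
  · exact absurd (h 5) (by simp)
  · exact absurd (h 6) (by simp)
  · exact absurd (h 7) (by simp)

theorem orderOf_w (k : Fin 3) : orderOf (C.w k) = 2 :=
  orderOf_eq_prime (by rw [pow_two, C.w_sq]) (C.w_ne_one k)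

theorem el_single_t (k : Fin 3) :
    C.el ![0, 0, 0, 0, 0, 0, 0, 0, if k = 0 then 1 else 0, if k = 1 then 1 else 0, if k = 2 then 1 else 0] =
      C.t k := by
  fin_cases k <;> simp [el_def, M.T.vv_zero, show (1 : ZMod 2).val = 1 from rfl]

/-- The coordinates as a bijection. -/
noncomputable def equivA : V11 ≃ M.A :=
  Equiv.ofBijective (fun x => ⟨C.el x, C.el_mem x⟩)
    ⟨fun _ _ h => C.el_inj (congrArg Subtype.val h), fun a => by
      obtain ⟨x, hx⟩ := C.el_surj a.2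
      exact ⟨x, Subtype.ext hx⟩⟩

include C in
theorem card_A : Nat.card M.A = 2 ^ 11 := by
  rw [← Nat.card_congr C.equivA]; simp

include C in
theorem elementary_A : Cfsg.IsElementaryAbelian 2 M.A :=
  ⟨⟨⟨fun a a' => Subtype.ext (M.elem_comm_A a.2 a'.2)⟩⟩, fun a ha => by rw [pow_two, M.elem_sq_A ha]⟩

include C in
theorem centralizer_A : Subgroup.centralizer (M.A : Set G) = M.A :=
  le_antisymm (fun _ hg x hx => hg x (M.Lt_le_A hx)) fun _ ha c hc => M.elem_comm_A hc ha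

include C in
theorem u_norm : M.T.u ∈ Subgroup.normalizer (M.A : Set G) :=
  Subgroup.mem_normalizer_iff.2 fun a => ⟨fun ha => M.conj_u ha, fun ha => by
    have h2 := M.conj_u ha
    rwa [show M.T.u * (M.T.u * a * M.T.u⁻¹) * M.T.u⁻¹ = (M.T.u * M.T.u) * a * (M.T.u * M.T.u)⁻¹ by group,
      M.T.uu, one_mul, inv_one, mul_one] at h2⟩

include C in
theorem v_norm : M.T.v ∈ Subgroup.normalizer (M.A : Set G) := by
  have h : ∀ a ∈ M.A, M.T.v * a * M.T.v⁻¹ ∈ M.A := by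
    intro a ha
    obtain ⟨x, rfl⟩ := C.el_surj ha
    rw [← el_vMap]; exact C.el_mem _
  refine Subgroup.mem_normalizer_iff.2 fun a => ⟨h a, fun ha => ?_⟩
  let f : M.A → M.A := fun y => ⟨_, h y y.2⟩
  have hf : Function.Injective f := fun y y' e =>
    Subtype.ext (mul_left_cancel (mul_right_cancel (congrArg Subtype.val e)))
  obtain ⟨y, hy⟩ := (Finite.injective_iff_surjective.1 hf) ⟨_, ha⟩
  exact mul_left_cancel (mul_right_cancel (congrArg Subtype.val hy)) ▸ y.2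

end Coord

end Cfsg.Agent.H41.CoLocal
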