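import Cfsg.Agent.H41.CoLocal.Model

/-! The image of a coordinate vector in the stabilizer of the singular subspace. -/

set_option autoImplicit false

namespace Cfsg.Agent.H41.CoLocal

/-- The skew matrix of a vector: the six entries are its coordinates five to ten. -/
def skew (x : V11) : Fin 4 → Fin 4 → ZMod 2 :=
  ![![0, x 5, x 6, x 7], ![x 5, 0, x 10, x 9], ![x 6, x 10, 0, x 8], ![x 7, x 9, x 8, 0]]

/-- The action of the transvection adding the coordinate `q` to the coordinate `r` on such matrices. -/
def skewT (r q : Fin 4) (S : Fin 4 → Fin 4 → ZMod 2) : Fin 4 → Fin 4 → ZMod 2 :=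
  fun i j => S i j + (if i = r then S q j else 0) + (if j = r then S i q else 0) +
    (if i = r ∧ j = r then S q q else 0)

end Cfsg.Agent.H41.CoLocal
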