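import Cfsg.Agent.H41.CoLocal.Normalise
import Cfsg.Agent.H41.CoLocal.Siegel

/-!
The normaliser of the subgroup of order `2^11`: the transvections on the singular subspace, seen on
the coordinates.
-/

set_option autoImplicit false
set_option linter.unusedSimpArgs false
set_option linter.unusedSectionVars false

namespace Cfsg.Agent.H41.CoLocal

open Cfsg.Agent Cfsg.Agent.H41.CoType
open Cfsg.Agent.H18 (SingPt OrthPair)
open scoped commutatorElement

/-- The isometry adding the coordinate `inl q` to `inl r` and `inr r` to `inr q`. -/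
def lev (r q : Fin 4) (x : F8) : F8 := x + x (.inl q) • eps r + x (.inr r) • eta q

theorem lev_inl (r q : Fin 4) (x : F8) (i : Fin 4) :
    lev r q x (.inl i) = x (.inl i) + (if i = r then x (.inl q) else 0) := by
  simp [lev, eps, eta, Pi.single_apply]

theorem lev_inr (r q : Fin 4) (x : F8) (i : Fin 4) :
    lev r q x (.inr i) = x (.inr i) + (if i = q then x (.inr r) else 0) := by
  simp [lev, eps, eta, Pi.single_apply]

theorem lev_lev {r q : Fin 4} (h : r ≠ q) (x : F8) : lev r q (lev r q x) = x := by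
  funext j
  rcases j with i | i
  · rw [lev_inl, lev_inl, lev_inl, if_neg h.symm, add_zero, add_assoc, two0, add_zero]
  · rw [lev_inr, lev_inr, lev_inr, if_neg h, add_zero, add_assoc, two0, add_zero]

theorem lev_add (r q : Fin 4) (x y : F8) : lev r q (x + y) = lev r q x + lev r q y := by
  funext j
  rcases j with i | i <;> simp only [lev_inl, lev_inr, Pi.add_apply] <;> split_ifs <;> ring

theorem lev_smul (r q : Fin 4) (a : ZMod 2) (x : F8) : lev r q (a • x) = a • lev r q x := by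
  funext j
  rcases j with i | i <;> simp only [lev_inl, lev_inr, Pi.smul_apply, smul_eq_mul] <;>
    split_ifs <;> ring

theorem q_lev {r q : Fin 4} (h : r ≠ q) (x : F8) : q8 (lev r q x) = q8 x := by
  simp only [q8, lev_inl, lev_inr, add_mul, mul_add, ite_mul, mul_ite, zero_mul, mul_zero,
    Finset.sum_add_distrib, Finset.sum_ite_eq', Finset.mem_univ, if_true, if_neg h.symm]
  linear_combination two0 (x (.inl q) * x (.inr r))

theorem exists_levO {r q : Fin 4} (h : r ≠ q) : ∃ ω : O8, ∀ x, ap ω x = lev r q x := by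
  let e : F8 ≃ₗ[ZMod 2] F8 :=
    { toFun := lev r q
      map_add' := lev_add r q
      map_smul' := lev_smul r q
      invFun := lev r q
      left_inv := lev_lev h
      right_inv := lev_lev h }
  exact ⟨⟨e, fun x => by
    show Q8 (lev r q x) = Q8 x
    rw [coe_Q8, coe_Q8, q_lev h]⟩, fun x => rfl⟩

theorem lev_comm {r q m : Fin 4} (hrq : r ≠ q) (hrm : r ≠ m) (hmq : m ≠ q) (x : F8) :
    lev r m (lev m q (lev r m (lev m q x))) = lev r q x := by
  funext j
  rcases j with i | i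
  · simp only [lev_inl]
    rcases eq_or_ne i r with rfl | h1
    · simp only [if_pos, if_neg hrm, if_neg hrm.symm, if_neg hrq.symm, if_neg hmq.symm, add_zero]
      linear_combination two0 (x (.inl m)) + two0 (x (.inl q))
    · rcases eq_or_ne i m with rfl | h2
      · simp only [if_pos, if_neg hrm.symm, if_neg hrq.symm, if_neg hmq.symm, add_zero]
        linear_combination two0 (x (.inl q))
      · simp only [if_neg h1, if_neg h2, add_zero]
  · simp only [lev_inr]
    rcases eq_or_ne i q with rfl | h1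
    · simp only [if_pos, if_neg hrm, if_neg hrq, if_neg hmq, if_neg hmq.symm, add_zero]
      linear_combination two0 (x (.inr m))
    · rcases eq_or_ne i m with rfl | h2
      · simp only [if_pos, if_neg hrm, if_neg hrq, if_neg h1, add_zero]
        linear_combination two0 (x (.inr r))
      · simp only [if_neg h1, if_neg h2, add_zero]

theorem exists_levOm {r q : Fin 4} (h : r ≠ q) : ∃ ω : O8, ω ∈ Om ∧ ∀ x, ap ω x = lev r q x := by
  obtain ⟨m, hrm, hmq⟩ : ∃ m, r ≠ m ∧ m ≠ q := by revert r q; decide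
  obtain ⟨a, ha⟩ := exists_levO hrm
  obtain ⟨b, hb⟩ := exists_levO hmq
  have ha2 : a * a = 1 := ap_ext fun x => by rw [ap_mul, ha, ha, lev_lev hrm, ap_one]
  have hb2 : b * b = 1 := ap_ext fun x => by rw [ap_mul, hb, hb, lev_lev hmq, ap_one]
  refine ⟨⁅a, b⁆, ?_, fun x => ?_⟩
  · exact Subgroup.commutator_mem_commutator (Subgroup.mem_top _) (Subgroup.mem_top _)
  · rw [commutatorElement_def, inv_eq_of_mul_eq_one_right ha2, inv_eq_of_mul_eq_one_right hb2,
      ap_mul, ap_mul, ap_mul, hb, ha, hb, ha, lev_comm h hrm hmq]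

theorem pr_eps_ne : ∀ j : Fin 4, j ≠ 0 → pr (eps j) = eps j := by decide +kernel

/-- The displacement given by a matrix. -/
def lmul (S : Fin 4 → Fin 4 → ZMod 2) (y : F8) : F8 :=
  Sum.elim (fun i => ∑ j, S i j * y (.inr j)) 0

theorem inL_lmul (S : Fin 4 → Fin 4 → ZMod 2) (y : F8) : InL (lmul S y) := fun _ => rfl

theorem lmul_zero (y : F8) : lmul 0 y = 0 := by
  funext j
  rcases j with i | i <;> simp [lmul]

theorem lmul_add (S S' : Fin 4 → Fin 4 → ZMod 2) (y : F8) :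
    lmul (S + S') y = lmul S y + lmul S' y := by
  funext j
  rcases j with i | i <;> simp [lmul, add_mul, Finset.sum_add_distrib]

theorem lmul_shift (S : Fin 4 → Fin 4 → ZMod 2) (y : F8) {l : F8} (hl : InL l) :
    lmul S (y + l) = lmul S y := by
  funext j
  rcases j with i | i <;> simp [lmul, show ∀ k, l (.inr k) = 0 from hl]

theorem lmul_inj {S S' : Fin 4 → Fin 4 → ZMod 2} (h : ∀ y, lmul S y = lmul S' y) : S = S' := by
  funext i j
  simpa [lmul, eta, Pi.single_apply] using congrFun (h (eta j)) (.inl i)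

theorem lev_lmul {r q : Fin 4} (h : r ≠ q) (S : Fin 4 → Fin 4 → ZMod 2) (y : F8) :
    lev r q (lmul S y) = lmul (skewT r q S) (lev r q y) := by
  funext j
  rcases j with i | i
  · simp only [lev_inl, lmul, Sum.elim_inl, lev_inr, skewT, mul_add, add_mul, mul_ite, ite_mul,
      mul_zero, zero_mul, Finset.sum_add_distrib, Finset.sum_ite_eq', Finset.mem_univ, if_true,
      ite_and]
    rcases eq_or_ne i r with rfl | hi
    · simp only [if_pos, Finset.sum_ite_eq', Finset.mem_univ, if_true, h, h.symm, if_false,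
        Finset.sum_add_distrib, add_zero, zero_add]
      linear_combination -(two0 (S i q * y (.inr i))) - two0 (S q q * y (.inr i))
    · simp only [if_neg hi, Finset.sum_ite_eq', Finset.mem_univ, if_true, h, h.symm, if_false,
        Finset.sum_const_zero, add_zero, zero_add]
      linear_combination -(two0 (S i q * y (.inr r)))
  · simp [lev_inr, lmul]

/-- The unit matrix of a symmetric pair. -/
def pairM (a b : Fin 4) : Fin 4 → Fin 4 → ZMod 2 :=
  fun i j => (if i = a ∧ j = b then 1 else 0) + (if i = b ∧ j = a then 1 else 0)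

theorem lmul_pairM (a b : Fin 4) (y : F8) :
    lmul (pairM a b) y = B8 (eps b) y • eps a + B8 (eps a) y • eps b := by
  rw [B_eps, B_eps]
  funext j
  rcases j with i | i
  · simp only [lmul, Sum.elim_inl, pairM, add_mul, ite_mul, one_mul, zero_mul,
      Finset.sum_add_distrib, ite_and, Pi.add_apply, Pi.smul_apply, eps, smul_eq_mul,
      Pi.single_apply, Sum.inl.injEq, mul_ite, mul_one, mul_zero]
    by_cases h1 : i = a <;> by_cases h2 : i = b <;>
      simp [h1, h2, Finset.sum_ite_eq', Finset.mem_univ]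
  · simp [lmul, eps]

namespace Loc

variable {G : Type*} [Group G] [Finite G] (M : Loc G)

/-- The element displaces by the matrix. -/
def Disp (a : G) (S : Fin 4 → Fin 4 → ZMod 2) : Prop :=
  ∃ h : a ∈ M.T.S.C, ∀ y, ap (M.T.im h) y + y = lmul S y

variable {M}

theorem disp_F {a : G} (ha : a ∈ M.T.S.F) : M.Disp a 0 :=
  ⟨M.T.S.F_le_C ha, fun y => by rw [M.im_F ha, ap_one, two8, lmul_zero]⟩

theorem Disp.mul {a b : G} {S S' : Fin 4 → Fin 4 → ZMod 2} (h : M.Disp a S) (h' : M.Disp b S') :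
    M.Disp (a * b) (S + S') := by
  obtain ⟨ha, e⟩ := h
  obtain ⟨hb, e'⟩ := h'
  refine ⟨mul_mem ha hb, fun y => ?_⟩
  have eb : ap (M.T.im hb) y = y + lmul S' y := by
    rw [← e' y, add_comm (ap (M.T.im hb) y), ← add_assoc, two8, zero_add]
  have ea := e (y + lmul S' y)
  rw [lmul_shift _ _ (inL_lmul S' y)] at ea
  rw [M.T.im_mul ha hb, ap_mul, eb, lmul_add, ← ea, add_assoc, add_assoc, two8, add_zero]

theorem Disp.pow {a : G} {S : Fin 4 → Fin 4 → ZMod 2} (h : M.Disp a S) (e : ZMod 2) :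
    M.Disp (a ^ e.val) (e • S) := by
  rcases bit e with rfl | rfl
  · rw [zero_smul, ZMod.val_zero, pow_zero]; exact disp_F (one_mem _)
  · rw [one_smul, show (1 : ZMod 2).val = 1 from rfl, pow_one]; exact h

theorem Disp.unique {a : G} {S S' : Fin 4 → Fin 4 → ZMod 2} (h : M.Disp a S) (h' : M.Disp a S') :
    S = S' := lmul_inj fun y => by
  obtain ⟨ha, e⟩ := h
  obtain ⟨ha', e'⟩ := h'
  rw [← e, ← e']

theorem Disp.conj {a c : G} {S : Fin 4 → Fin 4 → ZMod 2} (h : M.Disp a S) (hc : c ∈ M.T.S.C)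
    {r q : Fin 4} (hrq : r ≠ q) (him : ∀ x, ap (M.T.im hc) x = lev r q x) :
    M.Disp (c * a * c⁻¹) (skewT r q S) := by
  obtain ⟨ha, e⟩ := h
  have hm : c * a * c⁻¹ ∈ M.T.S.C := mul_mem (mul_mem hc ha) (inv_mem hc)
  refine ⟨hm, fun y => ?_⟩
  obtain ⟨y', rfl⟩ : ∃ y', lev r q y' = y := ⟨_, lev_lev hrq y⟩
  have e1 : M.T.im hm * M.T.im hc = M.T.im hc * M.T.im ha := by
    rw [← M.T.im_mul, ← M.T.im_mul]
    exact M.im_congr _ _ (by group)
  rw [← him y', ← ap_mul, e1, ap_mul, ← ap_add, e, him, him, lev_lmul hrq]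

theorem disp_vw {p : G} (hp : p ∈ M.T.S.F) {j : Fin 4} (hj : j ≠ 0) (hco : M.T.S.co p = eps j) :
    M.Disp (M.T.v * p * M.T.v⁻¹ * p⁻¹) (pairM 0 j) := by
  have hp' : p ∈ M.T.P := M.T.mem_P.2 ⟨hp, by rw [hco]; exact B_inL (inL_eps 0) (inL_eps j)⟩
  have hcl := M.T.isCl_P' (M.T.vp_mem hp')
  have hph : M.T.ph (M.T.v * p * M.T.v⁻¹ * p⁻¹) = eps j := by
    rw [M.T.ph_vp hp', Frame.cl, hco, pr_eps_ne j hj]
  rw [hph] at hcl
  have hD := M.T.R_le_D (M.T.isCl_mem hcl)
  refine ⟨M.T.D_le_C hD, fun y => ?_⟩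
  obtain ⟨σ, hσ⟩ : ∃ σ, σ = M.T.im (M.T.D_le_C hD) := ⟨_, rfl⟩
  rw [← hσ]
  have hlow : ∀ y, B8 (eps 0) y = 0 → ap σ y + y = B8 y (eps j) • eps 0 := fun y hy => by
    rw [hσ]; exact M.T.im_R hcl hy
  have hfix : ap σ (eps 0) = eps 0 := by rw [hσ]; exact M.T.rho_D hD
  have heta : ap σ (eta 0) + eta 0 = eps j := by
    have h1 : pr (ap σ (eta 0)) = eps j := by rw [hσ]; exact M.T.im_R_eta hcl
    have hB := Frame.B_fix hfix (eta 0)
    have hq := ap_q σ (eta 0)
    rw [B_eps, B_eps] at hB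
    generalize ap σ (eta 0) = v at h1 hB hq ⊢
    have hv := pr_decomp v
    rw [h1, hB] at hv
    generalize v (.inl 0) = α at hv
    subst hv
    clear h1 hB hσ hlow hfix hph hcl hco hp'
    revert hj hq α j
    decide +kernel
  obtain ⟨k, hk⟩ : ∃ k, k = y (.inr 0) := ⟨_, rfl⟩
  obtain ⟨y0, hy0, rfl⟩ : ∃ y0, B8 (eps 0) y0 = 0 ∧ y = y0 + k • eta 0 :=
    ⟨y + k • eta 0, by rw [B_eps, hk]; simp [eta, two0],
      by rw [add_assoc, two8, add_zero]⟩
  clear hk
  rw [ap_add, ap_smul, show ap σ y0 + k • ap σ (eta 0) + (y0 + k • eta 0) =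
      (ap σ y0 + y0) + k • (ap σ (eta 0) + eta 0) by rw [smul_add]; abel,
    hlow y0 hy0, heta, lmul_pairM, B_comm y0]
  rw [B_add_right, B_add_right, B_smul_right, B_smul_right, hy0]
  clear hlow hfix heta hσ hph hcl hco hp'
  rw [show B8 (eps j) (eta 0) = 0 by revert hj j; decide +kernel,
    show B8 (eps 0) (eta 0) = 1 by decide +kernel]
  simp

theorem el_disp (C : Coord M) (x : V11) : M.Disp (C.el x) (skew x) := by
  have hw : ∀ k, M.Disp (C.w k) (pairM 0 (jx k)) := fun k =>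
    disp_vw (C.p_mem k) (by revert k; decide) (C.p_co k)
  have ht : ∀ k, M.Disp (C.t k) (pairM (ia k) (ib k)) := fun k =>
    ⟨M.T.D_le_C (M.A_le_D (C.t_mem k)), fun y => by rw [C.t_im k, lmul_pairM]⟩
  have h := (((disp_F (M.T.vv_mem_F (x 0) (x 1))).mul
    ((((disp_F (C.p_mem 0)).pow (x 2)).mul ((disp_F (C.p_mem 1)).pow (x 3))).mul
      ((disp_F (C.p_mem 2)).pow (x 4)))).mul
    ((((hw 0).pow (x 5)).mul ((hw 1).pow (x 6))).mul ((hw 2).pow (x 7)))).mul
    ((((ht 0).pow (x 8)).mul ((ht 1).pow (x 9))).mul ((ht 2).pow (x 10)))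
  convert h using 1
  · rfl
  · funext i j
    fin_cases i <;> fin_cases j <;> simp [skew, pairM, jx, ia, ib]

theorem el_mem_A (C : Coord M) (x : V11) : C.el x ∈ M.A := by
  have hp : ∀ k, C.p k ∈ M.Lt := fun k => ⟨C.p_mem k, by rw [C.p_co]; exact inL_eps _⟩
  have hw : ∀ k, C.w k ∈ M.A := fun k =>
    mul_mem (M.conj_v (M.Lt_le_A (hp k))) (inv_mem (M.Lt_le_A (hp k)))
  have hv : M.T.vv (x 0) (x 1) ∈ M.A :=
    M.Lt_le_A ⟨M.T.vv_mem_F _ _, by rw [M.T.co_vv]; exact inL_smul _ (inL_eps 0)⟩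
  exact mul_mem (mul_mem (mul_mem hv
    (mul_mem (mul_mem (pow_mem (M.Lt_le_A (hp 0)) _) (pow_mem (M.Lt_le_A (hp 1)) _))
      (pow_mem (M.Lt_le_A (hp 2)) _)))
    (mul_mem (mul_mem (pow_mem (hw 0) _) (pow_mem (hw 1) _)) (pow_mem (hw 2) _)))
    (mul_mem (mul_mem (pow_mem (C.t_mem 0) _) (pow_mem (C.t_mem 1) _)) (pow_mem (C.t_mem 2) _))

theorem el_emb (C : Coord M) (l : Fin 5 → ZMod 2) :
    C.el (emb l) = M.T.vv (l 0) (l 1) * (C.p 0 ^ (l 2).val * C.p 1 ^ (l 3).val * C.p 2 ^ (l 4).val) := by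
  simp [Coord.el, emb]

theorem el_emb_F (C : Coord M) (l : Fin 5 → ZMod 2) :
    C.el (emb l) ∈ M.T.S.F ∧ M.T.S.co (C.el (emb l)) = ∑ i : Fin 4, l i.succ • eps i := by
  have hp : ∀ (k : Fin 3) (e : ZMod 2), C.p k ^ e.val ∈ M.T.S.F ∧
      M.T.S.co (C.p k ^ e.val) = e • eps (jx k) := fun k e => by
    rcases bit e with rfl | rfl
    · rw [ZMod.val_zero, pow_zero, zero_smul]; exact ⟨one_mem _, M.T.S.co_one⟩
    · rw [show (1 : ZMod 2).val = 1 from rfl, pow_one, one_smul]; exact ⟨C.p_mem k, C.p_co k⟩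
  have h23 := mul_mem (mul_mem (hp 0 (l 2)).1 (hp 1 (l 3)).1) (hp 2 (l 4)).1
  rw [el_emb]
  refine ⟨mul_mem (M.T.vv_mem_F _ _) h23, ?_⟩
  rw [M.T.S.co_mul _ (M.T.vv_mem_F _ _) _ h23,
    M.T.S.co_mul _ (mul_mem (hp 0 (l 2)).1 (hp 1 (l 3)).1) _ (hp 2 (l 4)).1,
    M.T.S.co_mul _ (hp 0 (l 2)).1 _ (hp 1 (l 3)).1, (hp 0 _).2, (hp 1 _).2, (hp 2 _).2, M.T.co_vv,
    Fin.sum_univ_four]
  show _ + (l 2 • eps 1 + l 3 • eps 2 + l 4 • eps 3) = l 1 • eps 0 + l 2 • eps 1 + l 3 • eps 2 + l 4 • eps 3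
  abel

theorem el_emb_z (C : Coord M) (l : Fin 5 → ZMod 2) (e : ZMod 2) :
    C.el (emb l + e • e0) = C.el (emb l) * M.T.S.zp e := by
  have e1 : emb l + e • e0 = emb (Function.update l 0 (l 0 + e)) := by
    funext i
    fin_cases i <;> simp [emb, e0]
  rw [e1, el_emb, el_emb]
  simp only [Function.update_self, Function.update_of_ne (show (1 : Fin 5) ≠ 0 by decide),
    Function.update_of_ne (show (2 : Fin 5) ≠ 0 by decide),
    Function.update_of_ne (show (3 : Fin 5) ≠ 0 by decide),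
    Function.update_of_ne (show (4 : Fin 5) ≠ 0 by decide)]
  have hF : C.p 0 ^ (l 2).val * C.p 1 ^ (l 3).val * C.p 2 ^ (l 4).val ∈ M.T.S.F :=
    mul_mem (mul_mem (pow_mem (C.p_mem 0) _) (pow_mem (C.p_mem 1) _)) (pow_mem (C.p_mem 2) _)
  rw [mul_assoc (M.T.vv (l 0) (l 1)), M.T.S.zp_comm e (M.T.S.mem_C.1 (M.T.S.F_le_C hF)),
    show M.T.S.zp e = M.T.vv e 0 by rw [Frame.vv, M.T.bp_zero, mul_one],
    ← mul_assoc (M.T.vv (l 0) (l 1)) (M.T.vv e 0), M.T.vv_mul, add_zero]

end Loc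

variable {G : Type*} [Group G] [Finite G] {M : Loc G}

/-- The transvections on the singular subspace in the normaliser, on coordinates. -/
theorem exists_levi (C : Coord M) (r q : Fin 4) (hrq : r ≠ q) :
    ∃ n : G, n ∈ Subgroup.normalizer (M.A : Set G) ∧
      (∀ l : Fin 5 → ZMod 2, ∃ e : ZMod 2, n * C.el (emb l) * n⁻¹ =
        C.el (emb (Function.update l r.succ (l r.succ + l q.succ)) + e • e0)) ∧
      ∀ x, n * C.el x * n⁻¹ ∈ M.A ∧
        ∀ y, C.el y = n * C.el x * n⁻¹ → skew y = skewT r q (skew x) := by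
  obtain ⟨ω, hω, e⟩ := exists_levOm hrq
  obtain ⟨c, hc, him⟩ := M.T.S.exists_rho hω
  have him' : M.T.im hc = ω := him
  have hi : M.T.im (inv_mem hc) = ω := by
    have h1 : M.T.im (inv_mem hc) * M.T.im hc = 1 := by
      rw [← M.T.im_mul, M.im_congr _ (M.T.S.F_le_C (one_mem _)) (inv_mul_cancel c), M.im_F (one_mem _)]
    rw [him'] at h1
    have h2 : ω * ω = 1 := ap_ext fun x => by rw [ap_mul, e, e, lev_lev hrq, ap_one]
    exact mul_right_cancel (h1.trans h2.symm)
  have hst : ∀ x, InL x → InL (lev r q x) := fun x hx i => by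
    rw [lev_inr, hx i, hx r]; simp
  have hst1 : ∀ x, InL x → InL (ap (M.T.im hc) x) := fun x hx => by rw [him', e]; exact hst x hx
  have hst2 : ∀ x, InL x → InL (ap (M.T.im (inv_mem hc)) x) := fun x hx => by
    rw [hi, e]; exact hst x hx
  refine ⟨c, Subgroup.mem_normalizer_iff.2 fun a => ⟨fun ha => M.conj_A hc hst1 ha, fun ha => ?_⟩,
    fun l => ?_, fun x => ⟨M.conj_A hc hst1 (Loc.el_mem_A C x), fun y hy => ?_⟩⟩
  · have := M.conj_A (inv_mem hc) hst2 ha
    rwa [show c⁻¹ * (c * a * c⁻¹) * c⁻¹⁻¹ = a by group] at this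
  · obtain ⟨hF, hco⟩ := Loc.el_emb_F C l
    obtain ⟨hF', hco'⟩ := Loc.el_emb_F C (Function.update l r.succ (l r.succ + l q.succ))
    obtain ⟨a, ha⟩ := M.T.S.exists_zp hF' (M.T.S.norm hc hF) (by
      rw [M.T.co_conj hc hF, him', e, hco, hco']
      funext j
      rcases j with i | i
      · rw [lev_inl]
        simp only [Finset.sum_apply, Pi.smul_apply, eps, Pi.single_apply, Sum.inl.injEq,
          smul_eq_mul, mul_ite, mul_one, mul_zero, Finset.sum_ite_eq, Finset.mem_univ, if_true,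
          Function.update_apply, Fin.succ_inj]
        by_cases hir : i = r <;> simp [hir]
      · rw [lev_inr]
        simp [eps, Finset.sum_apply])
    exact ⟨a, by rw [ha, Loc.el_emb_z]⟩
  · exact (hy ▸ Loc.el_disp C y : M.Disp (c * C.el x * c⁻¹) (skew y)).unique
      ((Loc.el_disp C x).conj hc hrq fun x => by rw [him', e])

end Cfsg.Agent.H41.CoLocal
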