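import Cfsg.Agent.H41.CoLocal.Code
import Mathlib.LinearAlgebra.Matrix.Transvection
import Mathlib.LinearAlgebra.Matrix.ToLin
import Mathlib.LinearAlgebra.Matrix.NonsingularInverse
import Mathlib.GroupTheory.QuotientGroup.Basic

/-!
Linear groups on the coordinate model with the two orbits and enough elements at the base point are
the automorphism group of the code.
-/

set_option autoImplicit false
set_option maxRecDepth 20000

namespace Cfsg.Agent.H41.CoLocal

open Cfsg Cfsg.Agent.H12 Cfsg.Agent.H13
open scoped Pointwise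

attribute [local irreducible] cmb

theorem actW_mul (σ τ : Equiv.Perm GolayPt) (v : GolayPt → ZMod 2) :
    actW (σ * τ) v = actW σ (actW τ v) := rfl

theorem actW_add (σ : Equiv.Perm GolayPt) (v w : GolayPt → ZMod 2) :
    actW σ (v + w) = actW σ v + actW σ w := rfl

/-- A code automorphism on the code. -/
noncomputable def codeAct (τ : ↥M24) : ↥golayCode →ₗ[ZMod 2] ↥golayCode where
  toFun w := ⟨actW τ.1 w.1, actW_mem τ.2 w.2⟩
  map_add' _ _ := rfl
  map_smul' _ _ := rfl

/-- The linear map of the model induced by a code automorphism. -/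
noncomputable def indMap (τ : ↥M24) : V11 →ₗ[ZMod 2] V11 :=
  (LinearMap.fst (ZMod 2) V11 (ZMod 2)).comp
    ((codeEquiv.symm.toLinearMap.comp (codeAct τ)).comp
      (codeEquiv.toLinearMap.comp (LinearMap.inl (ZMod 2) V11 (ZMod 2))))

theorem indMap_spec (τ : ↥M24) (x : V11) :
    Eqv (toWord (indMap τ x)) (actW τ.1 (toWord x)) := by
  obtain ⟨a, ha⟩ : ∃ a, codeEquiv.symm (codeAct τ (codeEquiv (x, 0))) = a := ⟨_, rfl⟩
  have h1 : indMap τ x = a.1 := congrArg Prod.fst ha
  have h2 : codeAct τ (codeEquiv (x, 0)) = pairWord a := by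
    rw [← ha, ← codeEquiv_apply, LinearEquiv.apply_symm_apply]
  rw [h1]
  refine (eqv_pairWord a.1 a.2).symm.trans (Or.inl ?_)
  rw [Prod.mk.eta, ← h2]
  show actW τ.1 (pairWord (x, 0) : GolayPt → ZMod 2) = _
  rw [coe_pairWord, zero_smul, add_zero]

theorem indMap_unique {τ : ↥M24} {x y : V11} (h : Eqv (toWord y) (actW τ.1 (toWord x))) :
    indMap τ x = y :=
  eq_of_eqv ((indMap_spec τ x).trans h.symm)

theorem indMap_mul (σ τ : ↥M24) (x : V11) : indMap (σ * τ) x = indMap σ (indMap τ x) := by
  refine indMap_unique ((indMap_spec σ _).trans ?_)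
  rw [Subgroup.coe_mul, actW_mul]
  exact (indMap_spec τ x).act σ.1

theorem indMap_one (x : V11) : indMap 1 x = x := indMap_unique (Or.inl rfl)

attribute [local irreducible] indMap

/-- The linear automorphism of the model induced by a code automorphism. -/
noncomputable def ind : ↥M24 →* (V11 ≃ₗ[ZMod 2] V11) where
  toFun τ := LinearEquiv.ofLinear (indMap τ) (indMap τ⁻¹)
    (LinearMap.ext fun x => by
      show indMap τ (indMap τ⁻¹ x) = x
      rw [← indMap_mul, mul_inv_cancel, indMap_one])
    (LinearMap.ext fun x => by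
      show indMap τ⁻¹ (indMap τ x) = x
      rw [← indMap_mul, inv_mul_cancel, indMap_one])
  map_one' := LinearEquiv.ext indMap_one
  map_mul' σ τ := LinearEquiv.ext (indMap_mul σ τ)

theorem ind_spec (τ : ↥M24) (x : V11) :
    Eqv (toWord (ind τ x)) (actW τ.1 (toWord x)) := indMap_spec τ x

theorem actW_word_octad {τ : Equiv.Perm GolayPt} {m : ℕ} (hm : isOctad m = true)
    (h : Eqv (actW τ (word m)) (word m)) : actW τ (word m) = word m := by
  rw [isOctad, Bool.and_eq_true, beq_iff_eq] at hm
  rcases h with h | h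
  · exact h
  · exfalso
    have hc : (support₂ (actW τ (word m))).card = (support₂ (word m + oneW)).card :=
      congrArg (fun w => (support₂ w).card) h
    rw [actW_support, Finset.card_smul_finset, support_word, card_fin, hm.2] at hc
    have h' : (support₂ (word m + oneW)).card = 16 := by
      rw [card_support_add_one, support_word, card_fin, hm.2]
    omega

theorem sep_isOctad {m : ℕ} (hm : m ∈ sepMasks) :
    isOctad m = true ∧ 5 ≤ pop (m &&& (allMask ^^^ oMask)) := by
  have := List.all_eq_true.mp sep_chk.1 m hm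
  rw [Bool.and_eq_true, decide_eq_true_eq] at this
  exact this

theorem ind_injective : Function.Injective ind := by
  rw [injective_iff_map_eq_one]
  intro τ h
  refine Subtype.ext (eq_one_of_sep fun m hm => ?_)
  have ho := (sep_isOctad hm).1
  refine actW_word_octad ho ?_
  rw [isOctad, Bool.and_eq_true] at ho
  obtain ⟨x, hx⟩ := exists_eqv_toWord ((word_mem_iff (isCode_lt ho.1)).mpr ho.1)
  have h1 := ind_spec τ x
  rw [h] at h1
  exact ((hx.symm.act τ.1).trans h1.symm).trans hx

theorem cmb_e0 : cmb e0 = oMask := by unfold cmb; decide +kernel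

/-- The five-dimensional part, as a linear map. -/
def embL : (Fin 5 → ZMod 2) →ₗ[ZMod 2] V11 where
  toFun := emb
  map_add' a b := by funext i; fin_cases i <;> (first | rfl | (simp [emb] <;> rfl))
  map_smul' c a := by funext i; fin_cases i <;> (first | rfl | (simp [emb] <;> rfl))

/-- The first five coordinates. -/
def prj : V11 →ₗ[ZMod 2] (Fin 5 → ZMod 2) where
  toFun x i := x ⟨i.val, by omega⟩
  map_add' _ _ := rfl
  map_smul' _ _ := rfl

theorem prj_emb (l : Fin 5 → ZMod 2) : prj (emb l) = l := by
  funext i; fin_cases i <;> rfl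

theorem inSub_emb (l : Fin 5 → ZMod 2) : inSub (emb l) = true :=
  decide_eq_true ⟨rfl, rfl, rfl, rfl, rfl, rfl⟩

theorem eq_emb_of_inSub {x : V11} (h : inSub x = true) : x = emb (prj x) := by
  obtain ⟨h5, h6, h7, h8, h9, h10⟩ := of_decide_eq_true h
  funext i
  fin_cases i <;> first | rfl | assumption

/-- A vector whose word is constant on the base octad lies in the five-dimensional part. -/
theorem inSub_iff (x : V11) :
    inSub x = true ↔ ∃ e : ZMod 2, ∀ p ∈ fin oMask, toWord x p = e := by
  rw [(vec_spec x).2.2.2]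
  have key : ∀ p : GolayPt, toWord x p = if (cmb x).testBit (idx p) then 1 else 0 := fun p => rfl
  constructor
  · rintro (h | h)
    · refine ⟨0, fun p hp => ?_⟩
      rw [mem_fin] at hp
      have hb := congrArg (fun n => n.testBit (idx p)) h
      simp [hp] at hb
      simp [key, hb]
    · refine ⟨1, fun p hp => ?_⟩
      rw [mem_fin] at hp
      have hb := congrArg (fun n => n.testBit (idx p)) h
      simp [hp] at hb
      simp [key, hb]
  · rintro ⟨e, he⟩
    have hb : ∀ n, oMask.testBit n = true → ((cmb x).testBit n = true ↔ e = 1) := by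
      intro n hn
      have hlt : n < 24 := by
        by_contra hge
        rw [Nat.testBit_lt_two_pow (lt_of_lt_of_le (by norm_num [oMask] : oMask < 2 ^ 24)
          (Nat.pow_le_pow_right (by norm_num) (not_lt.mp hge)))] at hn
        exact Bool.false_ne_true hn
      have h' := he (pt n) (by rw [mem_fin, idx_pt hlt]; exact hn)
      rw [key, idx_pt hlt] at h'
      rw [← h']
      cases (cmb x).testBit n <;> simp
    rcases (show ∀ a : ZMod 2, a = 0 ∨ a = 1 by decide) e with rfl | rfl
    · refine Or.inl (Nat.eq_of_testBit_eq fun n => ?_)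
      rw [Nat.testBit_and, Nat.zero_testBit]
      cases hn : oMask.testBit n with
      | false => simp
      | true =>
        have := hb n hn
        cases h : (cmb x).testBit n <;> simp_all
    · refine Or.inr (Nat.eq_of_testBit_eq fun n => ?_)
      rw [Nat.testBit_and]
      cases hn : oMask.testBit n with
      | false => simp
      | true => simp [(hb n hn).mpr rfl]

/-- A code automorphism fixing the base vector fixes the base octad. -/
theorem smul_oMask {τ : ↥M24} (h : ind τ e0 = e0) :
    actW τ.1 (word oMask) = word oMask := by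
  refine actW_word_octad (by decide +kernel) ?_
  have h1 := ind_spec τ e0
  rw [h, toWord_apply, cmb_e0] at h1
  exact h1.symm

/-- Such an automorphism preserves the five-dimensional part. -/
theorem inSub_ind {τ : ↥M24} (h : ind τ e0 = e0) (l : Fin 5 → ZMod 2) :
    inSub (ind τ (emb l)) = true := by
  obtain ⟨e, he⟩ := (inSub_iff _).mp (inSub_emb l)
  have hmem : ∀ p ∈ fin oMask, τ.1.symm p ∈ fin oMask := by
    intro p hp
    have h' := congrFun (smul_oMask h) p
    rw [actW, word_eq_iff_testBit] at h'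
    rw [mem_fin] at hp ⊢
    rw [h', hp]
  refine (inSub_iff _).mpr ?_
  rcases ind_spec τ (emb l) with h1 | h1
  · exact ⟨e, fun p hp => by rw [h1]; exact he _ (hmem p hp)⟩
  · exact ⟨e + 1, fun p hp => by
      rw [h1]; show toWord (emb l) (τ.1.symm p) + 1 = e + 1; rw [he _ (hmem p hp)]⟩

/-- An automorphism fixing the five-dimensional part pointwise is trivial. -/
theorem eq_one_of_fix {τ : ↥M24} (h : ∀ l, ind τ (emb l) = emb l) : τ = 1 := by
  have he : emb ![1, 0, 0, 0, 0] = e0 := rfl
  have h0 : ind τ e0 = e0 := by rw [← he]; exact h _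
  have ho := smul_oMask h0
  -- the words of the part are fixed
  have hw : ∀ l p, toWord (emb l) (τ.1.symm p) = toWord (emb l) p := by
    intro l p
    obtain ⟨e, hc⟩ := (inSub_iff _).mp (inSub_emb l)
    have h1 := ind_spec τ (emb l)
    rw [h l] at h1
    rcases h1 with h1 | h1
    · exact (congrFun h1 p).symm
    · exfalso
      obtain ⟨q, hq⟩ : ∃ q, q ∈ fin oMask := ⟨pt 0, by decide +kernel⟩
      have hq' : τ.1.symm q ∈ fin oMask := by
        have h' := congrFun ho q
        rw [actW, word_eq_iff_testBit] at h'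
        rw [mem_fin] at hq ⊢
        rw [h', hq]
      have h' := congrFun h1 q
      simp only [Pi.add_apply, actW] at h'
      rw [hc q hq, hc _ hq'] at h'
      exact (show ∀ z : ZMod 2, z ≠ z + 1 by decide) e h'
  -- the points outside the base octad are fixed
  have hfix : ∀ p, p ∉ fin oMask → τ.1 p = p := by
    intro p hp
    by_contra hne
    have hij : idx (τ.1 p) ≠ idx p := fun e => hne (by simpa [pt_idx] using congrArg pt e)
    have hp' : oMask.testBit (idx (τ.1 p)) = false := by
      have h' := congrFun ho (τ.1 p)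
      rw [actW, Equiv.symm_apply_apply, word_eq_iff_testBit] at h'
      rw [← h', ← Bool.not_eq_true]
      exact fun e => hp (mem_fin.mpr e)
    have hp'' : oMask.testBit (idx p) = false := by
      rw [← Bool.not_eq_true]; exact fun e => hp (mem_fin.mpr e)
    have hs := List.all_eq_true.mp (List.all_eq_true.mp sep_chk.2.2 _
      (List.mem_range.mpr (idx_lt (τ.1 p)))) _ (List.mem_range.mpr (idx_lt p))
    simp only [hp', hp'', Bool.or_false, Bool.or_eq_true, beq_iff_eq, List.any_eq_true] at hs
    obtain ⟨c, hc, hd⟩ := hs.resolve_left hij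
    have hsub : inSub (ofCode c) = true := by
      have := List.all_eq_true.mp
        (show ((List.range 32).all fun c => inSub (ofCode c)) = true by decide +kernel) c hc
      exact this
    have e := hw (prj (ofCode c)) (τ.1 p)
    rw [← eq_emb_of_inSub hsub, Equiv.symm_apply_apply, toWord_apply, word_eq_iff_testBit] at e
    simp [e] at hd
  refine Subtype.ext (eq_one_of_sep fun m hm => ?_)
  obtain ⟨hoct, h5⟩ := sep_isOctad hm
  have hmem : fin m ∈ octads := by
    rw [isOctad, Bool.and_eq_true, beq_iff_eq] at hoct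
    exact ⟨⟨word m, (word_mem_iff (isCode_lt hoct.1)).mpr hoct.1, support_word m⟩,
      by rw [card_fin, hoct.2]⟩
  have hsub : fin m \ fin oMask ⊆ τ.1 • fin m ∩ fin m := by
    intro p hp
    rw [Finset.mem_sdiff] at hp
    refine Finset.mem_inter.mpr ⟨?_, hp.1⟩
    rw [← hfix p hp.2]
    exact Finset.smul_mem_smul_finset hp.1
  have hcard : 5 ≤ (τ.1 • fin m ∩ fin m).card := by
    refine le_trans ?_ (Finset.card_le_card hsub)
    rwa [← fin_sdiff, card_fin]
  refine word_injective_support ?_
  rw [actW_support, support_word]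
  exact octad_unique (smul_mem_octads τ.2 |>.mpr hmem) hmem hcard

theorem eq_one_or_zero (a : ZMod 2) : a = 0 ∨ a = 1 :=
  (show ∀ a : ZMod 2, a = 0 ∨ a = 1 by decide) a

theorem emb_cons_add (a c : ZMod 2) (v : Fin 4 → ZMod 2) :
    emb (Fin.cons (a + c) v) = emb (Fin.cons a v) + c • e0 := by
  funext i; fin_cases i <;> (first | rfl | (simp [emb, e0] <;> rfl))

/-- **Recognition of the quotient.** -/
theorem exists_m24_equiv {N : Type*} [Group N] [Finite N] (s : N →* (V11 ≃ₗ[ZMod 2] V11))
    (hO : ∀ n x, oct (s n x) = oct x)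
    (htrans : ∀ x, oct x = true → ∃ n, s n e0 = x)
    (hshift : ∀ h : Fin 4 → ZMod 2, ∃ n, ∀ l : Fin 5 → ZMod 2,
      s n (emb l) = emb l + (∑ k, h k * l k.succ) • e0)
    (hlevi : ∀ r q : Fin 4, r ≠ q → ∃ n, ∀ l : Fin 5 → ZMod 2, ∃ eps : ZMod 2,
      s n (emb l) = emb (Function.update l r.succ (l r.succ + l q.succ)) + eps • e0) :
    Nonempty (N ⧸ s.ker ≃* ↥Cfsg.M24) ∧
    ∀ x y, x ≠ 0 → y ≠ 0 → oct x = oct y → ∃ n, s n x = y := by
  have hle : ∀ n, ∃ τ, ind τ = s n := by
    intro n
    let xn : ↥golayCode ≃ₗ[ZMod 2] ↥golayCode :=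
      (codeEquiv.symm.trans ((s n).prodCongr (LinearEquiv.refl (ZMod 2) (ZMod 2)))).trans codeEquiv
    have hxn : ∀ x e, xn (pairWord (x, e)) = pairWord (s n x, e) := by
      intro x e
      show codeEquiv (((s n).prodCongr (LinearEquiv.refl (ZMod 2) (ZMod 2)))
        (codeEquiv.symm (pairWord (x, e)))) = _
      rw [← codeEquiv_apply, LinearEquiv.symm_apply_apply]
      rfl
    have horb : ∀ c : ↥golayCode, ∃ σ ∈ M24, Eqv ((xn c : ↥golayCode) : GolayPt → ZMod 2)
        (actW σ (c : GolayPt → ZMod 2)) := by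
      intro c
      obtain ⟨⟨x, e⟩, rfl⟩ := pairWord_bijective.2 c
      rw [hxn]
      obtain ⟨σ, hσ, h⟩ : ∃ σ ∈ M24, Eqv (toWord (s n x)) (actW σ (toWord x)) := by
        by_cases hx : x = 0
        · exact ⟨1, Subgroup.one_mem _, Or.inl (by rw [hx, map_zero, map_zero]; rfl)⟩
        · exact exists_rel hx (fun e => hx ((s n).map_eq_zero_iff.mp e)) (hO n x).symm
      exact ⟨σ, hσ, ((eqv_pairWord _ e).trans h).trans ((eqv_pairWord x e).act σ).symm⟩
    have h1 : ∀ e : ↥golayCode, (e : GolayPt → ZMod 2) = (fun _ => (1 : ZMod 2)) → xn e = e := by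
      intro e he
      have : e = pairWord (0, 1) := Subtype.ext (by
        rw [he, coe_pairWord, one_smul, map_zero, zero_add])
      rw [this, hxn, map_zero]
    obtain ⟨σ, hσ, h⟩ := exists_induced_code xn horb h1
    refine ⟨⟨σ, hσ⟩, LinearEquiv.ext fun x => eq_of_eqv ?_⟩
    have h' := h (pairWord (x, 0))
    rw [hxn] at h'
    have h2 : Eqv (toWord (s n x)) (actW σ (toWord x)) :=
      ((eqv_pairWord (s n x) 0).symm.trans h').trans ((eqv_pairWord x 0).act σ)
    exact (ind_spec ⟨σ, hσ⟩ x).trans h2.symm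
  -- realised matrices
  let Real : Matrix (Fin 4) (Fin 4) (ZMod 2) → Prop := fun A =>
    ∃ n, ∀ l : Fin 5 → ZMod 2, ∃ eps, s n (emb l) = emb (Fin.cons eps (A.mulVec (Fin.tail l)))
  have hone : Real 1 := ⟨1, fun l => ⟨l 0, by
    rw [Matrix.one_mulVec, Fin.cons_self_tail, map_one]; rfl⟩⟩
  have hmul : ∀ A B, Real A → Real B → Real (A * B) := by
    rintro A B ⟨n, hn⟩ ⟨m, hm⟩
    refine ⟨n * m, fun l => ?_⟩
    obtain ⟨e1, he1⟩ := hm l
    obtain ⟨e2, he2⟩ := hn (Fin.cons e1 (B.mulVec (Fin.tail l)))
    refine ⟨e2, ?_⟩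
    rw [map_mul]
    show s n (s m (emb l)) = _
    rw [he1, he2, Fin.tail_cons, Matrix.mulVec_mulVec]
  have htv : ∀ T : Matrix.TransvectionStruct (Fin 4) (ZMod 2), Real T.toMatrix := by
    rintro ⟨r, q, hrq, c⟩
    rcases eq_one_or_zero c with rfl | rfl
    · simpa [Matrix.TransvectionStruct.toMatrix] using hone
    · obtain ⟨n, hn⟩ := hlevi r q hrq
      refine ⟨n, fun l => ?_⟩
      obtain ⟨eps, he⟩ := hn l
      refine ⟨l 0 + eps, ?_⟩
      rw [he, emb_cons_add]
      congr 2
      funext j
      refine Fin.cases ?_ (fun k => ?_) j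
      · rw [Function.update_of_ne (Fin.succ_ne_zero r).symm]
        rfl
      · simp only [Fin.cons_succ, Matrix.TransvectionStruct.toMatrix, Matrix.transvection,
          Matrix.add_mulVec, Matrix.one_mulVec, Pi.add_apply, Matrix.single_mulVec, Fin.tail,
          one_mul]
        by_cases hk : k = r
        · subst hk
          simp [Fin.tail]
        · rw [Function.update_of_ne (fun e => hk (Fin.succ_injective _ e)),
            Function.update_of_ne hk]
          simp [Fin.tail]
  have hreal : ∀ A : Matrix (Fin 4) (Fin 4) (ZMod 2), A.det ≠ 0 → Real A := by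
    intro A hA
    obtain ⟨L, L', D, rfl⟩ := Matrix.Pivot.exists_list_transvec_mul_diagonal_mul_list_transvec A
    have hlist : ∀ L : List (Matrix.TransvectionStruct (Fin 4) (ZMod 2)),
        Real (L.map Matrix.TransvectionStruct.toMatrix).prod := by
      intro L
      induction L with
      | nil => simpa using hone
      | cons T L ih =>
        rw [List.map_cons, List.prod_cons]
        exact hmul _ _ (htv T) ih
    have hD : Matrix.diagonal D = 1 := by
      rw [Matrix.det_mul, Matrix.det_mul, Matrix.det_diagonal] at hA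
      have hp : ∏ i, D i ≠ 0 := right_ne_zero_of_mul (left_ne_zero_of_mul hA)
      rw [← Matrix.diagonal_one]
      congr 1
      funext i
      exact (eq_one_or_zero (D i)).resolve_left (Finset.prod_ne_zero_iff.mp hp i (Finset.mem_univ i))
    rw [hD, mul_one]
    exact hmul _ _ (hlist L) (hlist L')
  -- the stabiliser of the base vector
  have hstab : ∀ τ : ↥M24, ind τ e0 = e0 → ∃ n, s n = ind τ := by
    intro τ h0
    let g : (Fin 5 → ZMod 2) →ₗ[ZMod 2] (Fin 5 → ZMod 2) :=
      prj.comp ((ind τ : V11 ≃ₗ[ZMod 2] V11).toLinearMap.comp embL)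
    have hg : ∀ l, ind τ (emb l) = emb (g l) := fun l => eq_emb_of_inSub (inSub_ind h0 l)
    let f : (Fin 4 → ZMod 2) →ₗ[ZMod 2] (Fin 4 → ZMod 2) :=
      { toFun := fun v => Fin.tail (g (Fin.cons 0 v))
        map_add' := fun a b => by
          rw [show (Fin.cons 0 (a + b) : Fin 5 → ZMod 2) = Fin.cons 0 a + Fin.cons 0 b by
            funext j; refine Fin.cases ?_ (fun k => ?_) j <;> simp, map_add]
          rfl
        map_smul' := fun c a => by
          rw [show (Fin.cons 0 (c • a) : Fin 5 → ZMod 2) = c • Fin.cons 0 a by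
            funext j; refine Fin.cases ?_ (fun k => ?_) j <;> simp, map_smul]
          rfl }
    have hgu : ∀ a : ZMod 2, g (Fin.cons a 0) = Fin.cons a 0 := by
      intro a
      have he : emb (Fin.cons a (0 : Fin 4 → ZMod 2)) = a • e0 := by
        funext i; fin_cases i <;> (first | rfl | (simp [emb, e0] <;> rfl))
      have := hg (Fin.cons a 0)
      rw [he, map_smul, h0, ← he] at this
      have h' := congrArg prj this
      rwa [prj_emb, prj_emb, eq_comm] at h'
    have htail : ∀ l, Fin.tail (g l) = f (Fin.tail l) := by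
      intro l
      have hl : l = Fin.cons (l 0) 0 + Fin.cons 0 (Fin.tail l) := by
        funext j; refine Fin.cases ?_ (fun k => ?_) j <;> simp [Fin.tail]
      conv_lhs => rw [hl, map_add, hgu]
      funext k
      show (Fin.cons (l 0) (0 : Fin 4 → ZMod 2) : Fin 5 → ZMod 2) k.succ + _ = _
      rw [Fin.cons_succ, Pi.zero_apply, zero_add]
      rfl
    have hf : Function.Injective f := by
      rw [injective_iff_map_eq_zero]
      intro v hv
      have hv' : g (Fin.cons 0 v) = Fin.cons (g (Fin.cons 0 v) 0) 0 := by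
        rw [← hv]; exact (Fin.cons_self_tail _).symm
      rw [← hgu] at hv'
      have hinj : Function.Injective g := by
        intro a b hab
        have := congrArg emb hab
        rw [← hg, ← hg] at this
        have h' := congrArg prj ((ind τ).injective this)
        rwa [prj_emb, prj_emb] at h'
      have := congrArg Fin.tail (hinj hv')
      simpa using this
    have hdet : (LinearMap.toMatrix' f).det ≠ 0 := by
      rw [← isUnit_iff_ne_zero, ← Matrix.isUnit_iff_isUnit_det,
        ← Matrix.mulVec_injective_iff_isUnit]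
      intro a b hab
      rw [LinearMap.toMatrix'_mulVec, LinearMap.toMatrix'_mulVec] at hab
      exact hf hab
    obtain ⟨n, hn⟩ := hreal _ hdet
    obtain ⟨τ1, hτ1⟩ := hle n
    have hfix : ∀ l, ∃ e, ind (τ1⁻¹ * τ) (emb l) = emb (Fin.cons e (Fin.tail l)) := by
      intro l
      obtain ⟨eps, he⟩ := hn l
      rw [LinearMap.toMatrix'_mulVec, ← htail] at he
      refine ⟨l 0 + (g l 0 + eps), ?_⟩
      rw [map_mul, map_inv, hτ1]
      show (s n).symm (ind τ (emb l)) = _
      rw [LinearEquiv.symm_apply_eq, hg, emb_cons_add, Fin.cons_self_tail, map_add, map_smul, he]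
      have hse : s n e0 = e0 := by
        obtain ⟨e', he'⟩ := hn ![1, 0, 0, 0, 0]
        rw [show emb ![1, 0, 0, 0, 0] = e0 from rfl,
          show Fin.tail (![1, 0, 0, 0, 0] : Fin 5 → ZMod 2) = 0 by funext k; fin_cases k <;> rfl,
          Matrix.mulVec_zero] at he'
        rcases eq_one_or_zero e' with rfl | rfl
        · exfalso
          have h0' : emb (Fin.cons (0 : ZMod 2) (0 : Fin 4 → ZMod 2)) = 0 := by
            funext i; fin_cases i <;> (first | rfl | (simp [emb] <;> rfl))
          rw [h0', LinearEquiv.map_eq_zero_iff] at he'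
          exact absurd (congrFun he' 0) (by decide)
        · rw [he']
          funext i; fin_cases i <;> (first | rfl | (simp [emb, e0] <;> rfl))
      rw [hse, ← emb_cons_add, ← add_assoc, add_comm eps (g l 0), add_assoc,
        show eps + eps = 0 from (show ∀ z : ZMod 2, z + z = 0 by decide) eps, add_zero,
        Fin.cons_self_tail]
    choose phi hphi using hfix
    let g1 : (Fin 5 → ZMod 2) →ₗ[ZMod 2] ZMod 2 :=
      (LinearMap.proj (0 : Fin 5)).comp
        (prj.comp ((ind (τ1⁻¹ * τ) : V11 ≃ₗ[ZMod 2] V11).toLinearMap.comp embL))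
    have hg1 : ∀ l, g1 l = phi l := fun l => by
      show prj (ind (τ1⁻¹ * τ) (emb l)) 0 = _
      rw [hphi, prj_emb]
      rfl
    obtain ⟨n2, hn2⟩ := hshift fun k => g1 (Pi.single k.succ 1)
    obtain ⟨τ2, hτ2⟩ := hle n2
    have h0' : ind (τ1⁻¹ * τ) e0 = e0 := by
      rw [map_mul, map_inv, hτ1]
      show (s n).symm (ind τ e0) = e0
      rw [h0, LinearEquiv.symm_apply_eq]
      obtain ⟨e', he'⟩ := hn ![1, 0, 0, 0, 0]
      rw [show emb ![1, 0, 0, 0, 0] = e0 from rfl,
        show Fin.tail (![1, 0, 0, 0, 0] : Fin 5 → ZMod 2) = 0 by funext k; fin_cases k <;> rfl,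
        Matrix.mulVec_zero] at he'
      rw [he']
      rcases eq_one_or_zero e' with rfl | rfl
      · exfalso
        rw [show emb (Fin.cons (0 : ZMod 2) (0 : Fin 4 → ZMod 2)) = 0 by
          funext i; fin_cases i <;> (first | rfl | (simp [emb] <;> rfl)), LinearEquiv.map_eq_zero_iff] at he'
        exact absurd (congrFun he' 0) (by decide)
      · funext i; fin_cases i <;> (first | rfl | (simp [emb, e0] <;> rfl))
    have hphi' : ∀ l, phi l = l 0 + ∑ k : Fin 4, g1 (Pi.single k.succ 1) * l k.succ := by
      intro l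
      rw [← hg1]
      conv_lhs => rw [pi_eq_sum_univ' l]
      rw [map_sum, Fin.sum_univ_succ]
      congr 1
      · rw [map_smul, smul_eq_mul]
        have h1 : g1 (Pi.single 0 1) = 1 := by
          show prj (ind (τ1⁻¹ * τ) (emb (Pi.single 0 1))) 0 = 1
          rw [show emb (Pi.single 0 1) = e0 by funext i; fin_cases i <;> (first | rfl | (simp [emb, e0] <;> rfl)), h0']
          rfl
        rw [h1, mul_one]
      · refine Finset.sum_congr rfl fun k _ => ?_
        rw [map_smul, smul_eq_mul, mul_comm]
    have : τ2⁻¹ * (τ1⁻¹ * τ) = 1 := eq_one_of_fix fun l => by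
      rw [map_mul, map_inv, hτ2]
      show (s n2).symm (ind (τ1⁻¹ * τ) (emb l)) = _
      rw [LinearEquiv.symm_apply_eq, hn2, hphi, hphi', emb_cons_add, Fin.cons_self_tail]
    refine ⟨n * n2, ?_⟩
    rw [map_mul, ← hτ1, ← hτ2, ← map_mul]
    congr 1
    have h2 := inv_mul_eq_one.mp this
    rw [h2, mul_inv_cancel_left]
  have hsur : ∀ τ : ↥M24, ∃ n, s n = ind τ := by
    intro τ
    have hoct : oct (ind τ e0) = true := by
      rw [(vec_spec _).2.1, octT_act (ind_spec τ e0), cmb_e0]
      decide +kernel
    obtain ⟨n, hn⟩ := htrans _ hoct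
    obtain ⟨τ1, hτ1⟩ := hle n
    obtain ⟨m, hm⟩ := hstab (τ1⁻¹ * τ) (by
      rw [map_mul, map_inv, hτ1]
      show (s n).symm (ind τ e0) = e0
      rw [LinearEquiv.symm_apply_eq, hn])
    exact ⟨n * m, by rw [map_mul, hm, ← hτ1, ← map_mul, mul_inv_cancel_left]⟩
  have hrange : s.range = ind.range := by
    ext x
    constructor
    · rintro ⟨n, rfl⟩; exact hle n
    · rintro ⟨τ, rfl⟩; exact hsur τ
  refine ⟨⟨(QuotientGroup.quotientKerEquivRange s).trans
    ((MulEquiv.subgroupCongr hrange).trans (MonoidHom.ofInjective ind_injective).symm)⟩, ?_⟩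
  intro x y hx hy hxy
  obtain ⟨σ, hσ, h⟩ := exists_rel hx hy hxy
  obtain ⟨n, hn⟩ := hsur ⟨σ, hσ⟩
  exact ⟨n, by rw [hn]; exact eq_of_eqv ((ind_spec ⟨σ, hσ⟩ x).trans h.symm)⟩

end Cfsg.Agent.H41.CoLocal
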