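import Cfsg.Agent.H41.CoLocal.Siegel
import Mathlib.LinearAlgebra.Pi
import Mathlib.Algebra.Module.Equiv.Basic
import Mathlib.Algebra.Group.Hom.Defs
import Mathlib.Tactic.FinCases

/-!
The vectors of the kind of the central involution form one orbit.
-/

set_option autoImplicit false

namespace Cfsg.Agent.H41.CoLocal

/-- The six entries of a skew matrix. -/
def skBits (S : Fin 4 → Fin 4 → ZMod 2) : Fin 6 → ZMod 2 :=
  ![S 0 1, S 0 2, S 0 3, S 2 3, S 1 3, S 1 2]

/-- The skew matrix with six given entries. -/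
def skMat (b : Fin 6 → ZMod 2) : Fin 4 → Fin 4 → ZMod 2 :=
  skew ![0, 0, 0, 0, 0, b 0, b 1, b 2, b 3, b 4, b 5]

/-- The Pfaffian. -/
def skPf (b : Fin 6 → ZMod 2) : ZMod 2 := b 0 * b 3 + b 1 * b 4 + b 2 * b 5

/-- The number of transvections needed to reach the standard matrix. -/
def skDist (b : Fin 6 → ZMod 2) : ℕ :=
  [0, 0, 2, 1, 2, 1, 3, 2, 4, 0, 3, 0, 3, 0, 4, 0, 2, 1, 0, 0, 3, 2, 0, 0, 3, 0, 0, 2, 4, 0, 0, 3,
   2, 1, 3, 2, 0, 0, 0, 0, 3, 0, 4, 0, 0, 2, 0, 3, 3, 2, 0, 0, 0, 0, 4, 3, 4, 0, 0, 3, 0, 3, 4,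
   0].getD ((b 0).val + 2 * (b 1).val + 4 * (b 2).val + 8 * (b 3).val + 16 * (b 4).val +
    32 * (b 5).val) 0

theorem sk_step : ∀ b : Fin 6 → ZMod 2, b ≠ 0 → skPf b = 0 →
    (b 3 = 0 ∧ b 4 = 0 ∧ b 5 = 0) ∨ ∃ r q : Fin 4, r ≠ q ∧
      skBits (skewT r q (skMat b)) ≠ 0 ∧ skPf (skBits (skewT r q (skMat b))) = 0 ∧
      skDist (skBits (skewT r q (skMat b))) < skDist b := by
  decide +kernel

/-- The measure for the vectors of length four. -/
def vecDist (l : Fin 4 → ZMod 2) : ℕ :=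
  (if l 0 = 1 then 0 else 5) + (l 1).val + (l 2).val + (l 3).val

theorem vec_step : ∀ l : Fin 4 → ZMod 2, l ≠ 0 → l ≠ ![1, 0, 0, 0] → ∃ r q : Fin 4, r ≠ q ∧
    Function.update l r (l r + l q) ≠ 0 ∧ vecDist (Function.update l r (l r + l q)) < vecDist l := by
  decide +kernel

theorem skMat_bits (x : V11) : skMat (skBits (skew x)) = skew x := by
  funext i j; fin_cases i <;> fin_cases j <;> rfl

theorem skBits_skew (x : V11) : skBits (skew x) = ![x 5, x 6, x 7, x 8, x 9, x 10] := rfl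

theorem skPf_skew (x : V11) :
    skPf (skBits (skew x)) = x 5 * x 8 + x 6 * x 9 + x 7 * x 10 := rfl

theorem zt (a : ZMod 2) : a = 0 ∨ a = 1 := (show ∀ a : ZMod 2, a = 0 ∨ a = 1 by decide) a

/-- **The orbit of the central involution.** -/
theorem htrans_of {N : Type*} [Group N] (s : N →* (V11 ≃ₗ[ZMod 2] V11))
    (hO : ∀ n x, oct (s n x) = oct x) (hu : ∃ n, ∀ x, s n x = uMap x)
    (hv : ∃ n, ∀ x, s n x = vMap x)
    (hlev : ∀ r q : Fin 4, r ≠ q → ∃ n : N,
      (∀ l : Fin 5 → ZMod 2, ∃ e : ZMod 2,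
        s n (emb l) = emb (Function.update l r.succ (l r.succ + l q.succ)) + e • e0) ∧
      (∀ x, skew (s n x) = skewT r q (skew x))) :
    ∀ x, oct x = true → ∃ n, s n e0 = x := by
  let Reach : V11 → V11 → Prop := fun x y => ∃ n, s n x = y
  have trans' : ∀ {x y z}, Reach x y → Reach y z → Reach x z := by
    rintro x y z ⟨m, rfl⟩ ⟨n, rfl⟩
    exact ⟨n * m, by rw [map_mul]; rfl⟩
  have octR : ∀ {x y}, Reach x y → oct x = true → oct y = true := by
    rintro x y ⟨n, rfl⟩ h
    rwa [hO]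
  obtain ⟨nu, hnu⟩ := hu
  obtain ⟨nv, hnv⟩ := hv
  have rU : ∀ x, Reach x (uMap x) := fun x => ⟨nu, hnu x⟩
  have rV : ∀ x, Reach x (vMap x) := fun x => ⟨nv, hnv x⟩
  -- first make the Pfaffian vanish
  have stepA : ∀ x, ∃ y, Reach x y ∧ y 5 * y 8 + y 6 * y 9 + y 7 * y 10 = 0 := by
    intro x
    have key : ∀ c d a : Fin 3 → ZMod 2, c 0 * d 0 + c 1 * d 1 + c 2 * d 2 = 1 →
        (c 0 + a 0) * d 0 + (c 1 + a 1) * d 1 + (c 2 + a 2) * d 2 = 0 ∨
        (c 0 + (a 0 + c 0)) * d 0 + (c 1 + (a 1 + c 1)) * d 1 + (c 2 + (a 2 + c 2)) * d 2 = 0 := by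
      decide +kernel
    rcases zt (x 5 * x 8 + x 6 * x 9 + x 7 * x 10) with h | h
    · exact ⟨x, ⟨1, by rw [map_one]; rfl⟩, h⟩
    · rcases key ![x 5, x 6, x 7] ![x 8, x 9, x 10] ![x 2, x 3, x 4] h with h' | h'
      · exact ⟨vMap x, rV x, h'⟩
      · exact ⟨vMap (uMap x), trans' (rU x) (rV _), h'⟩
  -- then the lifts of the planes
  have stepB : ∀ k x, skDist (skBits (skew x)) ≤ k → skBits (skew x) ≠ 0 →
      skPf (skBits (skew x)) = 0 → ∃ y, Reach x y ∧ y 8 = 0 ∧ y 9 = 0 ∧ y 10 = 0 := by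
    intro k
    induction k with
    | zero =>
      intro x hk hne hpf
      rcases sk_step _ hne hpf with h | ⟨r, q, -, -, -, hlt⟩
      · exact ⟨x, ⟨1, by rw [map_one]; rfl⟩, h⟩
      · omega
    | succ k ih =>
      intro x hk hne hpf
      rcases sk_step _ hne hpf with h | ⟨r, q, hrq, hne', hpf', hlt⟩
      · exact ⟨x, ⟨1, by rw [map_one]; rfl⟩, h⟩
      · obtain ⟨n, -, hn⟩ := hlev r q hrq
        have e : skew (s n x) = skewT r q (skMat (skBits (skew x))) := by rw [skMat_bits, hn]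
        obtain ⟨y, hy, h⟩ := ih (s n x) (by rw [e]; omega) (by rw [e]; exact hne')
          (by rw [e]; exact hpf')
        exact ⟨y, trans' ⟨n, rfl⟩ hy, h⟩
  -- then into the five-dimensional part
  have stepC : ∀ x, oct x = true → ∃ l, l ≠ 0 ∧ Reach x (emb l) := by
    intro x hx
    obtain ⟨y, hy, hpf⟩ := stepA x
    obtain ⟨z, hz, h8, h9, h10⟩ : ∃ z, Reach y z ∧ z 8 = 0 ∧ z 9 = 0 ∧ z 10 = 0 := by
      by_cases hne : skBits (skew y) = 0
      · exact ⟨y, ⟨1, by rw [map_one]; rfl⟩, congrFun hne 3, congrFun hne 4, congrFun hne 5⟩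
      · exact stepB _ y le_rfl hne hpf
    have hoct := octR (trans' hy hz) hx
    obtain ⟨w, hw, hw'⟩ : ∃ w, Reach z w ∧ (w 5 = 0 ∧ w 6 = 0 ∧ w 7 = 0 ∧ w 8 = 0 ∧ w 9 = 0 ∧
        w 10 = 0) := by
      have hcase : (z 2 = 0 ∧ z 3 = 0 ∧ z 4 = 0) ∨ (z 5 = 0 ∧ z 6 = 0 ∧ z 7 = 0) ∨
          (z 2 = z 5 ∧ z 3 = z 6 ∧ z 4 = z 7) := by
        have hne : z ≠ 0 := fun e => by rw [e] at hoct; simp [oct] at hoct
        unfold oct at hoct
        rw [if_neg hne, if_pos ⟨h8, h9, h10⟩] at hoct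
        exact of_decide_eq_true hoct
      have self : ∀ a : ZMod 2, a + a = 0 := by decide
      rcases hcase with ⟨a, b, c⟩ | ⟨a, b, c⟩ | ⟨a, b, c⟩
      · refine ⟨vMap (uMap z), trans' (rU z) (rV _), ?_⟩
        refine ⟨?_, ?_, ?_, h8, h9, h10⟩
        · show z 5 + (z 2 + z 5) = 0; rw [a, zero_add, self]
        · show z 6 + (z 3 + z 6) = 0; rw [b, zero_add, self]
        · show z 7 + (z 4 + z 7) = 0; rw [c, zero_add, self]
      · exact ⟨z, ⟨1, by rw [map_one]; rfl⟩, a, b, c, h8, h9, h10⟩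
      · refine ⟨vMap z, rV z, ?_⟩
        refine ⟨?_, ?_, ?_, h8, h9, h10⟩
        · show z 5 + z 2 = 0; rw [a, self]
        · show z 6 + z 3 = 0; rw [b, self]
        · show z 7 + z 4 = 0; rw [c, self]
    have he : w = emb ![w 0, w 1, w 2, w 3, w 4] := by
      obtain ⟨e5, e6, e7, e8, e9, e10⟩ := hw'
      funext i; fin_cases i <;> first | rfl | assumption
    refine ⟨![w 0, w 1, w 2, w 3, w 4], fun h => ?_, he ▸ trans' (trans' hy hz) hw⟩
    have h0 := octR hw hoct
    rw [he, h] at h0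
    exact absurd h0 (by decide +kernel)
  have rb : Reach (emb ![1, 1, 0, 0, 0]) e0 := by
    have := rV (emb ![1, 1, 0, 0, 0])
    rwa [show vMap (emb ![1, 1, 0, 0, 0]) = e0 by decide +kernel] at this
  have stepD : ∀ k (l : Fin 5 → ZMod 2), vecDist (fun i => l i.succ) ≤ k → l ≠ 0 →
      Reach (emb l) e0 := by
    intro k
    induction k using Nat.strong_induction_on with
    | _ k ih =>
      intro l hk hl
      by_cases h0 : (fun i => l i.succ) = (0 : Fin 4 → ZMod 2)
      · refine ⟨1, ?_⟩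
        have : l = ![1, 0, 0, 0, 0] := by
          have key : ∀ l : Fin 5 → ZMod 2, l ≠ 0 → (fun i => l i.succ) = (0 : Fin 4 → ZMod 2) →
              l = ![1, 0, 0, 0, 0] := by decide +kernel
          exact key l hl h0
        rw [map_one, this]
        rfl
      · by_cases h1 : (fun i => l i.succ) = ![1, 0, 0, 0]
        · have hl' : l = ![l 0, 1, 0, 0, 0] := by
            funext i
            refine Fin.cases rfl (fun j => ?_) i
            rw [show l j.succ = (![1, 0, 0, 0] : Fin 4 → ZMod 2) j from congrFun h1 j]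
            fin_cases j <;> rfl
          rcases zt (l 0) with e | e <;> rw [e] at hl' <;> rw [hl']
          · have := rU (emb ![0, 1, 0, 0, 0])
            rw [show uMap (emb ![0, 1, 0, 0, 0]) = emb ![1, 1, 0, 0, 0] by decide +kernel] at this
            exact trans' this rb
          · exact rb
        · obtain ⟨r, q, hrq, hne, hlt⟩ := vec_step _ h0 h1
          obtain ⟨n, hn, -⟩ := hlev r q hrq
          obtain ⟨e, he⟩ := hn l
          have htail : ∀ c, (fun i : Fin 4 =>
              Function.update (Function.update l r.succ (l r.succ + l q.succ)) 0 c i.succ) =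
              Function.update (fun i => l i.succ) r ((fun i => l i.succ) r + (fun i => l i.succ) q) := by
            intro c
            funext i
            rw [Function.update_of_ne (Fin.succ_ne_zero i)]
            by_cases hi : i = r
            · subst hi; simp
            · rw [Function.update_of_ne (fun e => hi (Fin.succ_injective _ e)),
                Function.update_of_ne hi]
          have hem : s n (emb l) = emb (Function.update
              (Function.update l r.succ (l r.succ + l q.succ)) 0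
              (Function.update l r.succ (l r.succ + l q.succ) 0 + e)) := by
            rw [he]
            funext i
            fin_cases i <;> simp [emb, e0] <;> rfl
          refine trans' ⟨n, hem⟩ (ih (k - 1) (by omega) _
            (by rw [htail]; exact Nat.le_sub_one_of_lt (lt_of_lt_of_le hlt hk)) fun hz => hne ?_)
          rw [← htail (Function.update l r.succ (l r.succ + l q.succ) 0 + e), hz]
          rfl
  intro x hx
  obtain ⟨l, hl, hxl⟩ := stepC x hx
  obtain ⟨n, hn⟩ := trans' hxl (stepD _ l le_rfl hl)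
  refine ⟨n⁻¹, ?_⟩
  rw [map_inv, ← hn]
  exact (s n).symm_apply_apply x

end Cfsg.Agent.H41.CoLocal
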