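import Cfsg.Agent.H41.CoLocal.Elem
import Cfsg.Agent.H41.CoLocal.Levi
import Cfsg.Agent.H41.CoLocal.Recognition
import Cfsg.Agent.H41.CoLocal.Transit

/-! The normalizer of the subgroup of order `2^11`. -/

set_option autoImplicit false
set_option linter.unusedSimpArgs false
set_option linter.unusedSectionVars false

namespace Cfsg.Agent.H41.CoLocal

open Cfsg.Agent Cfsg.Agent.H41.CoType
open Cfsg.Agent.H18 (SingPt OrthPair)

theorem emb_cq : ∀ (k : Fin 3) (l : Fin 5 → ZMod 2), emb (cq k (emb l)) = l k.succ.succ • e0 := by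
  decide +kernel

theorem emb_cu : ∀ l : Fin 5 → ZMod 2, emb (cu (emb l)) = l 1 • e0 := by decide +kernel

namespace Coord

variable {G : Type*} [Group G] [Finite G] {M : Loc G} (C : Coord M)

include C in
theorem F_norm {g : G} (hg : g ∈ M.T.S.F) : g ∈ Subgroup.normalizer (M.A : Set G) := by
  have h : ∀ {g : G}, g ∈ M.T.S.F → ∀ a ∈ M.A, g * a * g⁻¹ ∈ M.A := fun {g} hg a ha =>
    M.conj_A (M.T.S.F_le_C hg) (fun x hx => by
      rw [show M.T.im (M.T.S.F_le_C hg) = 1 from (M.T.S.rho_eq_one _).2 hg, ap_one]; exact hx) ha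
  refine Subgroup.mem_normalizer_iff.2 fun a => ⟨fun ha => h hg a ha, fun ha => ?_⟩
  have := h (inv_mem hg) _ ha
  simpa [mul_assoc] using this

/-- The action of the normalizer on the coordinates. -/
noncomputable def act (n : ↥(Subgroup.normalizer (M.A : Set G))) (x : V11) : V11 :=
  C.equivA.symm ⟨(n : G) * C.el x * (n : G)⁻¹, (Subgroup.mem_normalizer_iff.1 n.2 _).1 (C.el_mem x)⟩

theorem el_act (n : ↥(Subgroup.normalizer (M.A : Set G))) (x : V11) :
    C.el (C.act n x) = (n : G) * C.el x * (n : G)⁻¹ :=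
  congrArg Subtype.val (C.equivA.apply_symm_apply
    ⟨(n : G) * C.el x * (n : G)⁻¹, (Subgroup.mem_normalizer_iff.1 n.2 _).1 (C.el_mem x)⟩)

theorem act_mul (n m : ↥(Subgroup.normalizer (M.A : Set G))) (x : V11) :
    C.act (n * m) x = C.act n (C.act m x) :=
  C.el_inj (by rw [el_act, el_act, el_act, Subgroup.coe_mul]; group)

theorem act_one (x : V11) : C.act 1 x = x := C.el_inj (by rw [el_act]; simp)

theorem act_add (n : ↥(Subgroup.normalizer (M.A : Set G))) (x y : V11) :
    C.act n (x + y) = C.act n x + C.act n y :=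
  C.el_inj (by rw [el_act, C.el_add, C.el_add, el_act, el_act, conj_mul])

/-- The action as a homomorphism. -/
noncomputable def rep : ↥(Subgroup.normalizer (M.A : Set G)) →* (V11 ≃ₗ[ZMod 2] V11) where
  toFun n :=
    { toFun := C.act n
      map_add' := C.act_add n
      map_smul' := fun a x => by
        rcases bit a with rfl | rfl
        · rw [zero_smul, RingHom.id_apply, zero_smul]
          exact C.el_inj (by rw [el_act, el_zero]; simp)
        · rw [one_smul, RingHom.id_apply, one_smul]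
      invFun := C.act n⁻¹
      left_inv := fun x => by rw [← act_mul, inv_mul_cancel, act_one]
      right_inv := fun x => by rw [← act_mul, mul_inv_cancel, act_one] }
  map_one' := LinearEquiv.ext C.act_one
  map_mul' n m := LinearEquiv.ext (C.act_mul n m)

theorem el_rep (n : ↥(Subgroup.normalizer (M.A : Set G))) (x : V11) :
    C.el (C.rep n x) = (n : G) * C.el x * (n : G)⁻¹ := C.el_act n x

theorem ker_rep : C.rep.ker = M.A.subgroupOf (Subgroup.normalizer (M.A : Set G)) := by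
  ext n
  rw [MonoidHom.mem_ker, Subgroup.mem_subgroupOf]
  constructor
  · intro h
    suffices (n : G) ∈ Subgroup.centralizer (M.A : Set G) from C.centralizer_A.le this
    intro a ha
    obtain ⟨x, rfl⟩ := C.el_surj ha
    have e := C.el_rep n x
    rw [h] at e
    exact mul_inv_eq_iff_eq_mul.1 e.symm |>.symm
  · intro h
    refine LinearEquiv.ext fun x => C.el_inj ?_
    rw [C.el_rep, M.elem_comm_A h (C.el_mem x), mul_inv_cancel_right]
    rfl

theorem rep_u : ∃ n, ∀ x, C.rep n x = uMap x :=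
  ⟨⟨_, C.u_norm⟩, fun x => C.el_inj (by rw [el_rep, el_uMap])⟩

theorem rep_v : ∃ n, ∀ x, C.rep n x = vMap x :=
  ⟨⟨_, C.v_norm⟩, fun x => C.el_inj (by rw [el_rep, el_vMap])⟩

theorem rep_levi (r q : Fin 4) (h : r ≠ q) : ∃ n,
    (∀ l : Fin 5 → ZMod 2, ∃ e : ZMod 2,
      C.rep n (emb l) = emb (Function.update l r.succ (l r.succ + l q.succ)) + e • e0) ∧
    (∀ x, skew (C.rep n x) = skewT r q (skew x)) := by
  obtain ⟨n, hn, h1, h2⟩ := exists_levi C r q h
  refine ⟨⟨n, hn⟩, fun l => ?_, fun x => (h2 x).2 _ (C.el_rep ⟨n, hn⟩ x)⟩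
  obtain ⟨e, he⟩ := h1 l
  exact ⟨e, C.el_inj (by rw [el_rep]; exact he)⟩

theorem rep_shift (h : Fin 4 → ZMod 2) : ∃ n, ∀ l : Fin 5 → ZMod 2,
    C.rep n (emb l) = emb l + (∑ k, h k * l k.succ) • e0 := by
  classical
  let Ok : (Fin 4 → ZMod 2) → Prop := fun h => ∃ n, ∀ l : Fin 5 → ZMod 2,
    C.rep n (emb l) = emb l + (∑ k, h k * l k.succ) • e0
  have h0 : Ok 0 := ⟨1, fun l => by simp⟩
  have hadd : ∀ f g, Ok f → Ok g → Ok (f + g) := by
    rintro f g ⟨n, hn⟩ ⟨m, hm⟩
    refine ⟨n * m, fun l => ?_⟩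
    have he : C.rep n e0 = e0 := by
      have := hn ![1, 0, 0, 0, 0]
      simpa [emb, e0, Fin.sum_univ_four] using this
    rw [map_mul]
    show C.rep n (C.rep m (emb l)) = _
    rw [hm, map_add, map_smul, he, hn]
    simp only [Pi.add_apply, add_mul, Finset.sum_add_distrib, add_smul]
    abel
  have hsingle : ∀ i : Fin 4, Ok (Pi.single i 1) := by
    intro i
    refine Fin.cases ?_ (fun k => ?_) i
    · refine ⟨⟨_, C.u_norm⟩, fun l => C.el_inj ?_⟩
      rw [el_rep, ← el_uMap, ← uMap_eq, emb_cu]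
      simp [Pi.single_apply]
    · refine ⟨⟨_, C.F_norm (C.q_mem k)⟩, fun l => C.el_inj ?_⟩
      rw [el_rep, q_conj, emb_cq]
      simp [Pi.single_apply]
  have key : ∀ s : Finset (Fin 4), Ok (∑ i ∈ s, h i • Pi.single i 1) := by
    intro s
    induction s using Finset.induction with
    | empty => simpa using h0
    | insert i s his ih =>
      rw [Finset.sum_insert his]
      refine hadd _ _ ?_ ih
      rcases bit (h i) with e | e <;> rw [e]
      · simpa using h0
      · simpa using hsingle i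
  have := key Finset.univ
  rwa [← pi_eq_sum_univ' h] at this

variable (hoct : ∀ x, oct x = true ↔ IsConj M.T.z (C.el x))

include hoct in
theorem oct_rep (n : ↥(Subgroup.normalizer (M.A : Set G))) (x : V11) : oct (C.rep n x) = oct x := by
  have h : oct (C.rep n x) = true ↔ oct x = true := by
    rw [hoct, hoct, C.el_rep]
    have e : IsConj (C.el x) ((n : G) * C.el x * (n : G)⁻¹) := isConj_iff.2 ⟨n, rfl⟩
    exact ⟨fun h => h.trans e.symm, fun h => h.trans e⟩
  exact Bool.eq_iff_iff.2 h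

include hoct in
/-- The quotient and the two orbits. -/
theorem recognition :
    Nonempty (↥(Subgroup.normalizer (M.A : Set G)) ⧸ C.rep.ker ≃* ↥Cfsg.M24) ∧
    ∀ x y, x ≠ 0 → y ≠ 0 → oct x = oct y → ∃ n, C.rep n x = y :=
  exists_m24_equiv C.rep (C.oct_rep hoct)
    (htrans_of C.rep (C.oct_rep hoct) C.rep_u C.rep_v C.rep_levi) C.rep_shift
    fun r q h => by
      obtain ⟨n, h1, -⟩ := C.rep_levi r q h
      exact ⟨n, h1⟩

include hoct in
theorem card_normalizer :
    Nat.card ↥(Subgroup.normalizer (M.A : Set G)) = 2 ^ 11 * 244823040 := by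
  obtain ⟨⟨φ⟩, -⟩ := C.recognition hoct
  rw [Subgroup.card_eq_card_quotient_mul_card_subgroup C.rep.ker, Nat.card_congr φ.toEquiv,
    H11.card_M24, C.ker_rep,
    Nat.card_congr (Subgroup.subgroupOfEquivOfLe
      (show M.A ≤ Subgroup.normalizer (M.A : Set G) from Subgroup.le_normalizer)).toEquiv, C.card_A,
    mul_comm]

include hoct in
theorem normalizer_orbits : ∃ a ∈ M.A, ∃ b ∈ M.A, a ≠ 1 ∧ b ≠ 1 ∧
    (∀ n ∈ Subgroup.normalizer (M.A : Set G), n * a * n⁻¹ ≠ b) ∧
    ∀ c ∈ M.A, c ≠ 1 → ∃ n ∈ Subgroup.normalizer (M.A : Set G), n * c * n⁻¹ = a ∨ n * c * n⁻¹ = b := by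
  obtain ⟨x0, hx0, hf⟩ : ∃ x : V11, x ≠ 0 ∧ oct x = false :=
    ⟨![0, 0, 1, 0, 0, 0, 1, 0, 0, 0, 0], by decide +kernel, by decide +kernel⟩
  have he : oct e0 = true := by decide +kernel
  have he0 : e0 ≠ 0 := by decide +kernel
  have hne : ∀ {x}, x ≠ 0 → C.el x ≠ 1 := fun hx e => hx (C.el_eq_one e)
  refine ⟨C.el e0, C.el_mem _, C.el x0, C.el_mem _, hne he0, hne hx0, fun n hn e => ?_,
    fun c hc hc1 => ?_⟩
  · have h1 := C.el_inj ((C.el_rep ⟨n, hn⟩ e0).trans e)
    have h2 := C.oct_rep hoct ⟨n, hn⟩ e0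
    rw [h1, hf, he] at h2
    exact Bool.false_ne_true h2
  · obtain ⟨x, rfl⟩ := C.el_surj hc
    have hx : x ≠ 0 := fun e => hc1 (e ▸ C.el_zero)
    obtain ⟨-, horb⟩ := C.recognition hoct
    cases h : oct x
    · obtain ⟨n, hn⟩ := horb x x0 hx hx0 (h.trans hf.symm)
      exact ⟨n, n.2, Or.inr (by rw [← C.el_rep, hn])⟩
    · obtain ⟨n, hn⟩ := horb x e0 hx he0 (h.trans he.symm)
      exact ⟨n, n.2, Or.inl (by rw [← C.el_rep, hn])⟩

end Coord

end Cfsg.Agent.H41.CoLocal
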