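import Cfsg.Agent.H41.CoLocal.Base

/-! The elementary abelian subgroup of order `2^11` attached to a family of maximal singular subspaces. -/

set_option autoImplicit false
set_option linter.unusedSimpArgs false
set_option linter.unusedSectionVars false

namespace Cfsg.Agent.H41.CoLocal

open Cfsg.Agent Cfsg.Agent.H41.CoType
open Cfsg.Agent.H18 (SingPt OrthPair)

/-- Membership in the standard maximal singular subspace. -/
def InL (x : F8) : Prop := ∀ i, x (.inr i) = 0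

theorem inL_add {x y : F8} (hx : InL x) (hy : InL y) : InL (x + y) := fun i => by
  rw [Pi.add_apply, hx i, hy i, add_zero]

theorem inL_smul {x : F8} (a : ZMod 2) (hx : InL x) : InL (a • x) := fun i => by
  rw [Pi.smul_apply, hx i, smul_zero]

theorem inL_eps (j : Fin 4) : InL (eps j) := fun i => by simp [eps]

theorem inL_zero : InL 0 := fun _ => rfl

theorem inL_pr {x : F8} (hx : InL x) : InL (pr x) := fun i => by simp [pr, hx i]

theorem B_inL {x y : F8} (hx : InL x) (hy : InL y) : B8 x y = 0 := by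
  simp only [B8]
  exact Finset.sum_eq_zero fun i _ => by rw [hx i, hy i]; ring

theorem q_inL {x : F8} (hx : InL x) : q8 x = 0 := by
  simp only [q8]
  exact Finset.sum_eq_zero fun i _ => by rw [hx i]; ring

theorem inL_iff_B {x : F8} : InL x ↔ ∀ i, B8 (eps i) x = 0 := by
  simp only [InL, B_eps]

theorem inL_decomp {x : F8} (hx : InL x) : x = ∑ i, x (.inl i) • eps i := by
  funext j
  rcases j with i | i <;> simp [eps, Finset.sum_apply, Pi.single_apply, hx i]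

/-- The isometry of a permutation of the four hyperbolic pairs. -/
def permV (σ : Equiv.Perm (Fin 4)) (x : F8) : F8 :=
  Sum.elim (fun i => x (.inl (σ.symm i))) (fun i => x (.inr (σ.symm i)))

theorem exists_permO (σ : Equiv.Perm (Fin 4)) : ∃ ω : O8, ∀ x, ap ω x = permV σ x := by
  let e : F8 ≃ₗ[ZMod 2] F8 :=
    { toFun := permV σ
      map_add' := fun x y => by funext j; rcases j with i | i <;> rfl
      map_smul' := fun a x => by funext j; rcases j with i | i <;> rfl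
      invFun := permV σ.symm
      left_inv := fun x => by funext j; rcases j with i | i <;> simp [permV]
      right_inv := fun x => by funext j; rcases j with i | i <;> simp [permV] }
  refine ⟨⟨e, ?_⟩, fun x => rfl⟩
  intro x
  show Q8 (permV σ x) = Q8 x
  rw [coe_Q8, coe_Q8]
  exact Equiv.sum_comp σ.symm fun i => x (.inl i) * x (.inr i)

theorem index_Om : Om.index = 2 :=
  H5.commutator_index_two (by decide) nondeg std_four ⟨eps 0 + eta 0, by rw [coe_Q8]; decide +kernel⟩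

theorem mem_Om_of_cube {ω : O8} (h : ω * ω * ω = 1) : ω ∈ Om := by
  have h2 : (ω * ω) * (ω * ω) ∈ Om := Subgroup.mul_self_mem_of_index_two index_Om _
  rwa [show (ω * ω) * (ω * ω) = (ω * ω * ω) * ω by group, h, one_mul] at h2

theorem mem_Om_perm (σ : Equiv.Perm (Fin 4)) (hσ : Equiv.Perm.sign σ = 1) :
    ∃ ω : O8, ω ∈ Om ∧ ∀ x, ap ω x = permV σ x := by
  suffices h : σ ∈ Subgroup.closure {π : Equiv.Perm (Fin 4) | π.IsThreeCycle} →
      ∃ ω : O8, ω ∈ Om ∧ ∀ x, ap ω x = permV σ x from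
    h (by rw [Equiv.Perm.closure_three_cycles_eq_alternating]
          exact Equiv.Perm.mem_alternatingGroup.2 hσ)
  intro h
  clear hσ
  induction h using Subgroup.closure_induction with
  | mem π hπ =>
    obtain ⟨ω, hω⟩ := exists_permO π
    refine ⟨ω, mem_Om_of_cube (ap_ext fun x => ?_), hω⟩
    have h3 : π * π * π = 1 := by
      have := pow_orderOf_eq_one π
      rwa [Equiv.Perm.IsThreeCycle.orderOf hπ, pow_three'] at this
    rw [ap_mul, ap_mul, hω, hω, hω, ap_one]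
    funext j
    have h3' : ∀ i, π.symm (π.symm (π.symm i)) = i := fun i => by
      rw [Equiv.symm_apply_eq, Equiv.symm_apply_eq, Equiv.symm_apply_eq]
      exact (Equiv.Perm.congr_fun h3 i).symm
    rcases j with i | i <;> simp [permV, h3']
  | one => exact ⟨1, one_mem _, fun x => by rw [ap_one]; funext j; rcases j with i | i <;> rfl⟩
  | mul π π' _ _ h h' =>
    obtain ⟨ω, hω, e⟩ := h
    obtain ⟨ω', hω', e'⟩ := h'
    exact ⟨ω * ω', mul_mem hω hω', fun x => by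
      rw [ap_mul, e', e]; funext j; rcases j with i | i <;> rfl⟩
  | inv π _ h =>
    obtain ⟨ω, hω, e⟩ := h
    refine ⟨ω⁻¹, inv_mem hω, fun x => ap_inj ω ?_⟩
    rw [← ap_mul, mul_inv_cancel, ap_one, e]
    funext j; rcases j with i | i <;> simp [permV, Equiv.Perm.inv_def]

/-- The data of a frame with a seed adapted to the family. -/
structure Loc (G : Type*) [Group G] [Finite G] where
  T : Frame G
  s : Seed T
  hfam : T.ph (T.v * s.t * T.v⁻¹ * s.t⁻¹) (.inr 3) = 0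

/-- Every group of Conway type has such data. -/
theorem exists_loc {G : Type*} [Group G] [Finite G] (S : Setting G) :
    ∃ M : Loc G, M.T.S.F = S.F ∧ M.T.S.z = S.z := by
  obtain ⟨T, h1, h2, s, hs⟩ := exists_base S
  exact ⟨⟨T, s, hs⟩, h1, h2⟩

namespace Loc

variable {G : Type*} [Group G] [Finite G] (M : Loc G)

/-- The preimage of the singular subspace. -/
def Lt : Subgroup G where
  carrier := {x | x ∈ M.T.S.F ∧ InL (M.T.S.co x)}
  one_mem' := ⟨one_mem _, by rw [M.T.S.co_one]; exact inL_zero⟩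
  mul_mem' := fun {x y} hx hy =>
    ⟨mul_mem hx.1 hy.1, by rw [M.T.S.co_mul _ hx.1 _ hy.1]; exact inL_add hx.2 hy.2⟩
  inv_mem' := fun {x} hx => ⟨inv_mem hx.1, by rw [M.T.S.co_inv hx.1]; exact hx.2⟩

theorem mem_Lt {x : G} : x ∈ M.Lt ↔ x ∈ M.T.S.F ∧ InL (M.T.S.co x) := Iff.rfl

/-- The subgroup. -/
abbrev A : Subgroup G := Subgroup.centralizer (M.Lt : Set G)

theorem comm_Lt {a x : G} (ha : a ∈ M.A) (hx : x ∈ M.Lt) : a * x = x * a := (ha x hx).symm

theorem z_mem : M.T.z ∈ M.Lt := ⟨M.T.S.pt.mem, by rw [M.T.S.co_z]; exact inL_zero⟩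

theorem b_mem : M.T.b ∈ M.Lt := ⟨M.T.b_mem, by rw [M.T.hb]; exact inL_eps 0⟩

theorem A_le_D {a : G} (ha : a ∈ M.A) : a ∈ M.T.D :=
  M.T.mem_D.2 ⟨M.comm_Lt ha M.z_mem, M.comm_Lt ha M.b_mem⟩

theorem Lt_le_P {x : G} (hx : x ∈ M.Lt) : x ∈ M.T.P := M.T.mem_P.2 ⟨hx.1, B_inL (inL_eps 0) hx.2⟩

theorem Lt_le_A {x : G} (hx : x ∈ M.Lt) : x ∈ M.A := fun y hy =>
  (M.T.S.commute_iff hy.1 hx.1).2 (B_inL hy.2 hx.2)

theorem A_inter_F {x : G} (hx : x ∈ M.A) (hxF : x ∈ M.T.S.F) : x ∈ M.Lt := by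
  refine ⟨hxF, inL_iff_B.2 fun i => ?_⟩
  obtain ⟨y, hy, hyi⟩ := M.T.S.co_surj (eps i)
  rw [← hyi]
  exact (M.T.S.commute_iff hy hxF).1 (hx y ⟨hy, hyi ▸ inL_eps i⟩)

theorem fix_L {a : G} (ha : a ∈ M.A) {y : F8} (hy : InL y) :
    ap (M.T.im (M.T.D_le_C (M.A_le_D ha))) y = y := by
  obtain ⟨x, hx, rfl⟩ := M.T.S.co_surj y
  rw [← M.T.co_conj _ hx, M.comm_Lt ha ⟨hx, hy⟩, mul_inv_cancel_right]

/-- Elements of the radical with classes in the singular subspace. -/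
theorem isCl_mem_A {r : G} {a c : F8} (h : M.T.IsCl r a c) (ha : InL a) (hc : InL c) : r ∈ M.A := by
  intro x hx
  have h1 := M.T.comm_R h (M.T.isCl_P (M.Lt_le_P hx))
  have hcl : InL (M.T.cl x) := inL_pr hx.2
  rw [B_inL ha hcl, B_inL hcl hc, B_zero_right,
    B_zero_right, add_zero, add_zero, M.T.vv_zero, one_mul] at h1
  exact h1.symm

/-- The classes of radical elements of the subgroup lie in the singular subspace. -/
theorem isCl_inL {r : G} {a c : F8} (hr : r ∈ M.A) (h : M.T.IsCl r a c) : InL a ∧ InL c := by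
  obtain ⟨hpa, hpc⟩ := M.T.isCl_pr h
  have key : ∀ i, B8 (eps i) a = 0 ∧ B8 (eps i) c = 0 := by
    intro i
    obtain ⟨x, hx, hxi⟩ := M.T.S.co_surj (eps i)
    have hxL : x ∈ M.Lt := ⟨hx, hxi ▸ inL_eps i⟩
    have h1 := M.T.comm_R h (M.T.isCl_P (M.Lt_le_P hxL))
    rw [B_zero_right, B_zero_right, M.comm_Lt hr hxL, eq_comm, mul_eq_right, ← M.T.vv_zero] at h1
    obtain ⟨e1, e2⟩ := M.T.vv_inj h1
    have hcl : M.T.cl x = pr (eps i) := by rw [Frame.cl, hxi]
    rw [zero_add, zero_add, hcl] at e2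
    rw [add_zero, hcl, e2, add_zero] at e1
    have hp : ∀ {y : F8}, pr y = y → B8 (eps i) y = B8 (pr (eps i)) y := fun {y} hy => by
      conv_rhs => rw [← hy, B_pr (by rw [B_eps]; simp [eps]) (by rw [← hy, B_eps_pr]), ]
    exact ⟨by rw [hp hpa, B_comm]; exact e1, by rw [hp hpc]; exact e2⟩
  exact ⟨inL_iff_B.2 fun i => (key i).1, inL_iff_B.2 fun i => (key i).2⟩

/-- The radical part is abelian. -/
theorem comm_RA {x y : G} (hx : x ∈ M.A) (hxR : x ∈ M.T.R) (hy : y ∈ M.A) (hyR : y ∈ M.T.R) :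
    x * y = y * x := by
  obtain ⟨a, c, h⟩ := M.T.exists_isCl hxR
  obtain ⟨a', c', h'⟩ := M.T.exists_isCl hyR
  obtain ⟨ha, hc⟩ := M.isCl_inL hx h
  obtain ⟨ha', hc'⟩ := M.isCl_inL hy h'
  rw [M.T.comm_R h h', B_inL ha ha', B_inL ha hc', B_inL ha' hc, B_inL hc hc', add_zero, add_zero,
    M.T.vv_zero, one_mul]

/-- Elements of `C` stabilizing the singular subspace normalize the subgroup. -/
theorem conj_Lt {c : G} (hc : c ∈ M.T.S.C) (h : ∀ x, InL x → InL (ap (M.T.im hc) x)) {x : G}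
    (hx : x ∈ M.Lt) : c * x * c⁻¹ ∈ M.Lt :=
  ⟨M.T.S.norm hc hx.1, by rw [M.T.co_conj hc hx.1]; exact h _ hx.2⟩

theorem conj_Lt' {c : G} (hc : c ∈ M.T.S.C) (h : ∀ x, InL x → InL (ap (M.T.im hc) x)) {x : G}
    (hx : x ∈ M.Lt) : c⁻¹ * x * c ∈ M.Lt := by
  let f : M.Lt → M.Lt := fun y => ⟨c * y * c⁻¹, M.conj_Lt hc h y.2⟩
  have hf : Function.Injective f := fun y y' e =>
    Subtype.ext (mul_left_cancel (mul_right_cancel (congrArg Subtype.val e)))
  obtain ⟨y, hy⟩ := (Finite.injective_iff_surjective.1 hf) ⟨x, hx⟩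
  have e : c * y * c⁻¹ = x := congrArg Subtype.val hy
  rw [← e, show c⁻¹ * (c * (y : G) * c⁻¹) * c = y by group]
  exact y.2

theorem conj_A {c : G} (hc : c ∈ M.T.S.C) (h : ∀ x, InL x → InL (ap (M.T.im hc) x)) {a : G}
    (ha : a ∈ M.A) : c * a * c⁻¹ ∈ M.A := fun x hx => by
  have e := M.comm_Lt ha (M.conj_Lt' hc h hx)
  calc x * (c * a * c⁻¹) = c * ((c⁻¹ * x * c) * a) * c⁻¹ := by group
    _ = c * (a * (c⁻¹ * x * c)) * c⁻¹ := by rw [e]
    _ = _ := by group

theorem conj_u {a : G} (ha : a ∈ M.A) : M.T.u * a * M.T.u⁻¹ ∈ M.A :=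
  M.conj_A (M.T.S.F_le_C M.T.hu) (fun x hx => by
    rw [show M.T.im (M.T.S.F_le_C M.T.hu) = 1 from (M.T.S.rho_eq_one _).2 M.T.hu, ap_one]; exact hx) ha

/-- The cyclic permutation of the last three pairs. -/
def cyc : Equiv.Perm (Fin 4) := Equiv.swap 1 2 * Equiv.swap 2 3

theorem exists_cyc : ∃ d, ∃ hd : d ∈ M.T.D,
    (∀ x, ap (M.T.im (M.T.D_le_C hd)) x = permV cyc x) ∧ M.T.u * d = d * M.T.u := by
  obtain ⟨ω, hω, e⟩ := mem_Om_perm cyc (by decide +kernel)
  obtain ⟨d, hd, him⟩ := M.T.exists_D hω (by rw [e]; decide +kernel)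
  have hdu : d * M.T.u * d⁻¹ ∈ M.T.S.F := M.T.S.norm (M.T.D_le_C hd) M.T.hu
  obtain ⟨i, hi⟩ := M.T.S.exists_zp M.T.hu hdu (by
    rw [M.T.co_conj (M.T.D_le_C hd) M.T.hu, him, e, M.T.hcu]; decide +kernel)
  have hbF := M.T.bp_mem i
  have hbv : M.T.vv 0 i = M.T.bp i := by rw [Frame.vv, Setting.zp_zero, one_mul]
  have hbD : M.T.bp i ∈ M.T.D := hbv ▸ M.T.P_le_D (M.T.four_le_P (M.T.vv_mem 0 i))
  refine ⟨M.T.bp i * d, mul_mem hbD hd, fun x => ?_, ?_⟩
  · rw [show M.T.im (M.T.D_le_C (mul_mem hbD hd)) = M.T.im (mul_mem (M.T.S.F_le_C hbF) (M.T.D_le_C hd))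
      from rfl, M.T.im_mul (M.T.S.F_le_C hbF) (M.T.D_le_C hd),
      show M.T.im (M.T.S.F_le_C hbF) = 1 from (M.T.S.rho_eq_one _).2 hbF, one_mul, him, e]
  · have hub : M.T.u * M.T.bp i = M.T.vv i i * M.T.u := by
      have := M.T.u_vv 0 i
      rw [zero_add, hbv] at this
      rw [← this]; group
    calc M.T.u * (M.T.bp i * d) = M.T.vv i i * (M.T.u * d) := by rw [← mul_assoc, hub]; group
      _ = M.T.vv i i * (M.T.u * M.T.S.zp i * M.T.S.zp i * d) := by
        rw [mul_assoc M.T.u, ← M.T.S.zp_add, two0, Setting.zp_zero, mul_one]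
      _ = M.T.vv i i * (d * M.T.u * d⁻¹ * M.T.S.zp i * d) := by rw [hi]
      _ = M.T.vv i i * (d * M.T.u * d⁻¹) * (M.T.S.zp i * d) := by group
      _ = M.T.vv i i * (d * M.T.u * d⁻¹) * (d * M.T.S.zp i) := by
        rw [M.T.S.zp_comm i (M.T.mem_D.1 hd).1]
      _ = (M.T.vv i i * d) * M.T.u * M.T.S.zp i := by group
      _ = (M.T.vv i i * d) * M.T.S.zp i * M.T.u := by
        rw [mul_assoc, M.T.S.zp_comm i (M.T.S.mem_C.1 (M.T.S.F_le_C M.T.hu))]; group
      _ = (M.T.vv i i * M.T.vv i 0) * d * M.T.u := by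
        rw [show M.T.S.zp i = M.T.vv i 0 by rw [Frame.vv, M.T.bp_zero, mul_one], mul_assoc _ d,
          M.T.vv_comm hd]
        group
      _ = M.T.bp i * d * M.T.u := by rw [M.T.vv_mul, two0, add_zero, hbv]

/-- The chosen cyclic element. -/
noncomputable def d : G := M.exists_cyc.choose

theorem d_mem : M.d ∈ M.T.D := M.exists_cyc.choose_spec.choose

theorem d_im (x : F8) : ap (M.T.im (M.T.D_le_C M.d_mem)) x = permV cyc x :=
  M.exists_cyc.choose_spec.choose_spec.1 x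

theorem d_comm_u : M.T.u * M.d = M.d * M.T.u := M.exists_cyc.choose_spec.choose_spec.2

/-- The exponent of the cyclic element giving a plane. -/
def expo : Fin 3 → ℕ := ![1, 2, 0]

/-- The power of the cyclic element giving a plane. -/
noncomputable def dk (k : Fin 3) : G := M.d ^ expo k

/-- The involutions of plane type: the plane omitting one of the three indices. -/
noncomputable def tS (k : Fin 3) : G := M.dk k * M.s.t * (M.dk k)⁻¹

/-- The two indices of a plane. -/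
def ia : Fin 3 → Fin 4 := ![2, 3, 1]

/-- The two indices of a plane. -/
def ib : Fin 3 → Fin 4 := ![3, 1, 2]

theorem permV_ia : ∀ k : Fin 3, permV (cyc ^ expo k) (eps 1) = eps (ia k) := by decide +kernel

theorem permV_ib : ∀ k : Fin 3, permV (cyc ^ expo k) (eps 2) = eps (ib k) := by decide +kernel

/-- An even permutation moving an index to zero. -/
def pj (j : Fin 4) : Equiv.Perm (Fin 4) :=
  Equiv.swap 0 j * Equiv.swap (if j = 1 then 2 else 1) (if j = 3 then 2 else 3)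

theorem pj_sign : ∀ j : Fin 4, j ≠ 0 → Equiv.Perm.sign (pj j) = 1 := by decide +kernel

theorem pj_symm : ∀ j : Fin 4, j ≠ 0 → ∀ i, (pj j).symm ((pj j).symm i) = i := by decide +kernel

theorem pj_eps : ∀ j : Fin 4, j ≠ 0 → permV (pj j) (eps j) = eps 0 := by decide +kernel

theorem share_idx : ∀ k l : Fin 3, ∃ j : Fin 4,
    j ≠ 0 ∧ (j = ia k ∨ j = ib k) ∧ (j = ia l ∨ j = ib l) := by decide +kernel

theorem dk_mem (k : Fin 3) : M.dk k ∈ M.T.D := pow_mem M.d_mem _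

theorem dk_im (k : Fin 3) (x : F8) :
    ap (M.T.im (M.T.D_le_C (M.dk_mem k))) x = permV (cyc ^ expo k) x := by
  have key : ∀ n : ℕ, ∀ x, ap (M.T.S.ρ ⟨M.d, M.T.D_le_C M.d_mem⟩ ^ n) x = permV (cyc ^ n) x := by
    intro n
    induction n with
    | zero => intro x; rw [pow_zero, pow_zero, ap_one]; funext j; rcases j with i | i <;> rfl
    | succ n ih =>
      intro x
      rw [pow_succ', pow_succ', ap_mul, ih,
        show ap (M.T.S.ρ ⟨M.d, M.T.D_le_C M.d_mem⟩) (permV (cyc ^ n) x) = permV cyc (permV (cyc ^ n) x)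
        from M.d_im _]
      funext j; rcases j with i | i <;> rfl
  rw [← key, ← map_pow]
  rfl

theorem dk_stab (k : Fin 3) (x : F8) (hx : InL x) : InL (ap (M.T.im (M.T.D_le_C (M.dk_mem k))) x) := by
  intro i
  rw [M.dk_im]
  exact hx _

theorem tS_mem_D (k : Fin 3) : M.tS k ∈ M.T.D :=
  mul_mem (mul_mem (M.dk_mem k) M.s.hD) (inv_mem (M.dk_mem k))

theorem tS_tt (k : Fin 3) : M.tS k * M.tS k = 1 := by
  rw [tS, show M.dk k * M.s.t * (M.dk k)⁻¹ * (M.dk k * M.s.t * (M.dk k)⁻¹) =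
    M.dk k * (M.s.t * M.s.t) * (M.dk k)⁻¹ by group, M.s.tt, mul_one, mul_inv_cancel]

theorem tS_u (k : Fin 3) : M.T.u * M.tS k * M.T.u⁻¹ = M.tS k := by
  have hc : Commute M.T.u (M.dk k) := Commute.pow_right M.d_comm_u _
  calc M.T.u * M.tS k * M.T.u⁻¹
      = (M.T.u * M.dk k) * M.s.t * (M.T.u * M.dk k)⁻¹ := by rw [tS]; group
    _ = M.dk k * (M.T.u * M.s.t * M.T.u⁻¹) * (M.dk k)⁻¹ := by rw [hc.eq]; group
    _ = _ := by rw [M.s.hu]; rfl

theorem tS_im (k : Fin 3) (y : F8) :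
    ap (M.T.im (M.T.D_le_C (M.tS_mem_D k))) y + y =
      B8 (eps (ib k)) y • eps (ia k) + B8 (eps (ia k)) y • eps (ib k) := by
  set ω := M.T.im (M.T.D_le_C (M.dk_mem k)) with hω
  have e1 : M.T.im (M.T.D_le_C (M.tS_mem_D k)) * ω = ω * M.T.im (M.T.D_le_C M.s.hD) := by
    rw [hω, ← M.T.im_mul, ← M.T.im_mul]
    congr 1
    rw [tS]; group
  obtain ⟨y', rfl⟩ := (ω : F8 ≃ₗ[ZMod 2] F8).surjective y
  change ap _ (ap ω y') + ap ω y' = B8 (eps (ib k)) (ap ω y') • _ + B8 (eps (ia k)) (ap ω y') • _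
  rw [← ap_mul, e1, ap_mul, ← ap_add, M.s.him, ap_add, ap_smul, ap_smul]
  have ea : ap ω (eps 1) = eps (ia k) := by rw [hω, M.dk_im]; exact permV_ia k
  have eb : ap ω (eps 2) = eps (ib k) := by rw [hω, M.dk_im]; exact permV_ib k
  rw [← ea, ← eb, ap_B, ap_B]

theorem tS_mem (k : Fin 3) : M.tS k ∈ M.A := by
  refine M.conj_A _ (M.dk_stab k) (fun x hx => ?_)
  exact (M.s.hP x (M.Lt_le_P hx) (B_inL (inL_eps 1) hx.2) (B_inL (inL_eps 2) hx.2)).symm

theorem s_comm_w {w : G} (hw : w ∈ M.T.P') (hL : InL (M.T.ph w)) : M.s.t * w = w * M.s.t := by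
  have hY : InY (M.T.ph w) := ⟨M.T.ph_pr w, B_inL (inL_eps 1) hL, B_inL (inL_eps 2) hL⟩
  have h := M.s.hw w hw hY
  have hκ : InL (M.T.ph (M.T.v * M.s.t * M.T.v⁻¹ * M.s.t⁻¹)) := by
    obtain ⟨hp, h1, h2⟩ := M.s.hκY
    intro i
    fin_cases i
    · rw [← hp]; simp [pr]
    · rw [B_eps] at h1; exact h1
    · rw [B_eps] at h2; exact h2
    · exact M.hfam
  rw [B_inL hκ hL, M.T.vv_zero, one_mul] at h
  exact mul_inv_eq_iff_eq_mul.1 h

theorem tS_comm_RA (k : Fin 3) {r : G} (hr : r ∈ M.A) (hrR : r ∈ M.T.R) : M.tS k * r = r * M.tS k := by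
  obtain ⟨r', hr'⟩ : ∃ r', r' = (M.dk k)⁻¹ * r * M.dk k := ⟨_, rfl⟩
  have hd := M.dk_mem k
  have hdi : ∀ x, InL x → InL (ap (M.T.im (M.T.D_le_C hd)) x) := M.dk_stab k
  obtain ⟨a, c, hcl⟩ := M.T.exists_isCl hrR
  have hcl' := M.T.isCl_conj (inv_mem hd) hcl
  rw [inv_inv] at hcl'
  rw [← hr'] at hcl'
  have hr'A : r' ∈ M.A := by
    intro x hx
    have e := M.comm_Lt hr (M.conj_Lt (M.T.D_le_C hd) hdi hx)
    rw [hr']
    calc x * ((M.dk k)⁻¹ * r * M.dk k) = (M.dk k)⁻¹ * ((M.dk k * x * (M.dk k)⁻¹) * r) * M.dk k := by group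
      _ = (M.dk k)⁻¹ * (r * (M.dk k * x * (M.dk k)⁻¹)) * M.dk k := by rw [e]
      _ = _ := by group
  obtain ⟨p, hp, w, hw, hpw, hpa, hwc⟩ := hcl'
  obtain ⟨ha', hc'⟩ := M.isCl_inL hr'A ⟨p, hp, w, hw, hpw, hpa, hwc⟩
  have h1 : M.s.t * p = p * M.s.t := by
    refine M.s.hP p hp ?_ ?_
    · have := B_inL (inL_eps 1) (hpa ▸ ha' : InL (M.T.cl p))
      rw [B_eps] at this ⊢
      simpa [Frame.cl, pr] using this
    · have := B_inL (inL_eps 2) (hpa ▸ ha' : InL (M.T.cl p))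
      rw [B_eps] at this ⊢
      simpa [Frame.cl, pr] using this
  have h2 : M.s.t * w = w * M.s.t := M.s_comm_w hw (hwc ▸ hc')
  have h3 : M.s.t * r' = r' * M.s.t := by
    rw [hpw, ← mul_assoc, h1, mul_assoc, h2, mul_assoc]
  have e : r = M.dk k * r' * (M.dk k)⁻¹ := by rw [hr']; group
  rw [e, tS]
  calc M.dk k * M.s.t * (M.dk k)⁻¹ * (M.dk k * r' * (M.dk k)⁻¹)
      = M.dk k * (M.s.t * r') * (M.dk k)⁻¹ := by group
    _ = _ := by rw [h3]; group

theorem tS_comm (k l : Fin 3) : M.tS k * M.tS l = M.tS l * M.tS k := by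
  obtain ⟨j, hj0, hjk, hjl⟩ := share_idx k l
  obtain ⟨ω, hω, e⟩ := mem_Om_perm (pj j) (pj_sign j hj0)
  set π := pj j with hπ
  have hππ : ∀ x, permV π (permV π x) = x := by
    intro x
    funext i
    rcases i with i | i <;> simp [permV, hπ, pj_symm j hj0]
  have hπe : permV π (eps j) = eps 0 := pj_eps j hj0
  obtain ⟨c, hc, him⟩ := M.T.S.exists_rho hω
  have hst : ∀ x, InL x → InL (ap (M.T.im hc) x) := fun x hx i => by
    rw [show M.T.im hc = ω from him, e]; exact hx _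
  have key : ∀ m, (j = ia m ∨ j = ib m) → c * M.tS m * c⁻¹ ∈ M.T.R := by
    intro m hm
    have hA := M.conj_A hc hst (M.tS_mem m)
    refine M.T.mem_R_of_trivial (M.A_le_D hA) fun y hy => ?_
    obtain ⟨y', rfl⟩ : ∃ y', permV π y' = y := ⟨permV π y, hππ y⟩
    have hy' : B8 (eps j) y' = 0 := by
      rw [← hπe, ← e, ← e, ap_B] at hy
      exact hy
    have e1 : M.T.im (M.T.D_le_C (M.A_le_D hA)) * ω = ω * M.T.im (M.T.D_le_C (M.tS_mem_D m)) := by
      rw [← him, show M.T.S.ρ ⟨c, hc⟩ = M.T.im hc from rfl, ← M.T.im_mul, ← M.T.im_mul]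
      congr 1
      group
    have h2 : ∃ k0 : ZMod 2, ap (M.T.im (M.T.D_le_C (M.tS_mem_D m))) y' + y' = k0 • eps j := by
      rw [M.tS_im m]
      rcases hm with rfl | rfl <;> rw [hy', zero_smul]
      · exact ⟨_, add_zero _⟩
      · exact ⟨_, zero_add _⟩
    obtain ⟨k0, hk0⟩ := h2
    rw [← e, ← ap_mul, e1, ap_mul,
      show ap (M.T.im (M.T.D_le_C (M.tS_mem_D m))) y' = k0 • eps j + y' by
        rw [← hk0, add_assoc, two8, add_zero],
      ap_add, ap_smul, e, e, hπe, pr_add]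
    rcases bit k0 with rfl | rfl <;> simp [pr_zero, pr_eps]
  have := M.comm_RA (M.conj_A hc hst (M.tS_mem k)) (key k hjk) (M.conj_A hc hst (M.tS_mem l)) (key l hjl)
  refine mul_left_cancel (a := c) (mul_right_cancel (b := c⁻¹) ?_)
  calc c * (M.tS k * M.tS l) * c⁻¹ = c * M.tS k * c⁻¹ * (c * M.tS l * c⁻¹) := by group
    _ = _ := by rw [this]; group

theorem exists_decomp {a : G} (ha : a ∈ M.A) : ∃ s0 s1 s2 : ZMod 2, ∃ r ∈ M.A, r ∈ M.T.R ∧
    a = M.tS 0 ^ s0.val * M.tS 1 ^ s1.val * M.tS 2 ^ s2.val * r := by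
  classical
  set ω := M.T.im (M.T.D_le_C (M.A_le_D ha)) with hω
  let δ : F8 → F8 := fun y => ap ω y + y
  have hL : ∀ {y}, InL y → δ y = 0 := fun {y} hy => by show _ + _ = _; rw [hω, M.fix_L ha hy, two8]
  have hδL : ∀ y, InL (δ y) := fun y => inL_iff_B.2 fun i => by
    show B8 _ (_ + _) = 0
    rw [B_add_right]
    conv_lhs => arg 1; rw [show eps i = ap ω (eps i) from (M.fix_L ha (inL_eps i)).symm, ap_B]
    exact two0 _
  have hsum : ∀ y, ap ω y = δ y + y := fun y => by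
    show _ = _ + _ + _; rw [add_assoc, two8, add_zero]
  obtain ⟨δl, hδl⟩ : ∃ δl : F8 →ₗ[ZMod 2] F8, ∀ y, δ y = δl y :=
    ⟨(ω : F8 ≃ₗ[ZMod 2] F8).toLinearMap + LinearMap.id, fun _ => rfl⟩
  clear_value δ
  have hskew : ∀ y y', B8 (δ y) y' + B8 y (δ y') = 0 := by
    intro y y'
    have h := ap_B ω y y'
    rw [hsum, hsum, B_add_left, B_add_right, B_add_right, B_inL (hδL y) (hδL y'), zero_add] at h
    linear_combination h
  have halt : ∀ y, q8 y = 0 → B8 (δ y) y = 0 := by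
    intro y hy
    have h := ap_q ω y
    rw [hsum, q_add, q_inL (hδL y), zero_add, hy, zero_add] at h
    exact h
  let m : Fin 4 → Fin 4 → ZMod 2 := fun j i => δ (eta i) (.inl j)
  have hm : ∀ i j, B8 (δ (eta i)) (eta j) = m j i := fun i j => by
    rw [B_comm, B_eta]
  have hsym : ∀ i j, m i j = m j i := fun i j => by
    have h := hskew (eta i) (eta j)
    rw [hm, B_eta] at h
    show δ (eta j) (.inl i) = _
    linear_combination h - two0 (m j i)
  have hdiag : ∀ i, m i i = 0 := fun i => by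
    rw [← hm]; exact halt _ (by revert i; decide +kernel)
  have hdec : ∀ y, δ y = ∑ i, y (.inr i) • δ (eta i) := fun y => by
    have e : y = ∑ i, y (.inl i) • eps i + ∑ i, y (.inr i) • eta i := by
      funext j
      rcases j with i | i <;> simp [eps, eta, Finset.sum_apply, Pi.single_apply]
    rw [hδl]
    conv_lhs => rw [e]
    rw [map_add, map_sum, map_sum]
    simp only [map_smul]
    rw [show ∑ i, y (.inl i) • δl (eps i) = 0 from Finset.sum_eq_zero fun i _ => by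
      rw [← hδl, hL (inL_eps i), smul_zero], zero_add]
    simp only [hδl]
  obtain ⟨s, hs⟩ : ∃ s : Fin 3 → ZMod 2, s = fun k => m (ia k) (ib k) := ⟨_, rfl⟩
  refine ⟨s 0, s 1, s 2, (M.tS 0 ^ (s 0).val * M.tS 1 ^ (s 1).val * M.tS 2 ^ (s 2).val)⁻¹ * a,
    mul_mem (inv_mem (mul_mem (mul_mem (pow_mem (M.tS_mem 0) _) (pow_mem (M.tS_mem 1) _))
      (pow_mem (M.tS_mem 2) _))) ha, ?_, (mul_inv_cancel_left _ _).symm⟩
  set t := M.tS 0 ^ (s 0).val * M.tS 1 ^ (s 1).val * M.tS 2 ^ (s 2).val with ht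
  have htA : t ∈ M.A :=
    mul_mem (mul_mem (pow_mem (M.tS_mem 0) _) (pow_mem (M.tS_mem 1) _)) (pow_mem (M.tS_mem 2) _)
  have hd := mul_mem (inv_mem htA) ha
  refine M.T.mem_R_of_trivial (M.A_le_D hd) fun y hy => ?_
  let τ : Fin 3 → O8 := fun k => M.T.im (M.T.D_le_C (M.tS_mem_D k))
  let Δ : Fin 3 → F8 → F8 := fun k y => B8 (eps (ib k)) y • eps (ia k) + B8 (eps (ia k)) y • eps (ib k)
  have hΔL : ∀ k y, InL (Δ k y) := fun k y => inL_add (inL_smul _ (inL_eps _)) (inL_smul _ (inL_eps _))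
  have hΔadd : ∀ k y l, InL l → Δ k (y + l) = Δ k y := fun k y l hl => by
    simp only [Δ, B_add_right, B_inL (inL_eps _) hl, add_zero]
  have hτ : ∀ k (c : ZMod 2) y, ap (τ k ^ c.val) y = y + c • Δ k y := fun k c y => by
    rcases bit c with rfl | rfl
    · simp [ap_one]
    · rw [show (1 : ZMod 2).val = 1 from rfl, pow_one, one_smul,
        show Δ k y = ap (τ k) y + y from (M.tS_im k y).symm, add_comm (ap (τ k) y), ← add_assoc,
        two8, zero_add]
  have himt : M.T.im (M.T.D_le_C (M.A_le_D htA)) = τ 0 ^ (s 0).val * τ 1 ^ (s 1).val * τ 2 ^ (s 2).val := by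
    simp only [τ, Frame.im, ← map_pow, ← map_mul]
    rfl
  obtain ⟨E, hE⟩ : ∃ E, E = s 0 • Δ 0 y + s 1 • Δ 1 y + s 2 • Δ 2 y := ⟨_, rfl⟩
  have hty : ap (M.T.im (M.T.D_le_C (M.A_le_D htA))) y = y + E := by
    rw [himt, ap_mul, ap_mul, hτ 2, hτ 1, hΔadd 1 _ _ (inL_smul _ (hΔL _ _)), hτ 0,
      hΔadd 0 _ _ (inL_smul _ (hΔL _ _)), hΔadd 0 _ _ (inL_smul _ (hΔL _ _)), hE]
    abel
  have hEL : InL E := hE ▸ inL_add (inL_add (inL_smul _ (hΔL _ _)) (inL_smul _ (hΔL _ _)))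
    (inL_smul _ (hΔL _ _))
  have hpr0 : pr (E + δ y) = 0 := by
    rw [B_eps] at hy
    have hd' : δ y = y (.inr 1) • δ (eta 1) + y (.inr 2) • δ (eta 2) + y (.inr 3) • δ (eta 3) := by
      rw [hdec, Fin.sum_univ_four, hy, zero_smul, zero_add]
    funext j
    rcases j with j | j
    · have key : ∀ a b c : ZMod 2, ∀ i : Fin 4, i ≠ 0 →
          (s 0 • Δ 0 y + s 1 • Δ 1 y + s 2 • Δ 2 y) (.inl i) +
            (y (.inr 1) * m i 1 + y (.inr 2) * m i 2 + y (.inr 3) * m i 3) = 0 := by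
        intro a b c i hi
        simp only [Δ, B_eps]
        simp only [Pi.add_apply, Pi.smul_apply, hs, ia, ib, eps, smul_eq_mul]
        fin_cases i
        · exact absurd rfl hi
        · simp [hsym 2 1, hsym 3 1, hsym 3 2, hdiag]; ring_nf; simp [show (2 : ZMod 2) = 0 from rfl]
        · simp [hsym 2 1, hsym 3 1, hsym 3 2, hdiag]; ring_nf; simp [show (2 : ZMod 2) = 0 from rfl]
        · simp [hsym 2 1, hsym 3 1, hsym 3 2, hdiag]; ring_nf; simp [show (2 : ZMod 2) = 0 from rfl]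
      by_cases hj : j = 0
      · subst hj; simp [pr]
      · have := key 0 0 0 j hj
        simp only [Pi.zero_apply, pr]
        simpa [hj, hE, hd', m, Pi.add_apply, Pi.smul_apply] using this
    · simp [pr, hEL j, hδL y j]
  have hyE : ap (M.T.im (M.T.D_le_C (M.A_le_D hd))) y = y + (E + δ y) := by
    refine ap_inj (M.T.im (M.T.D_le_C (M.A_le_D htA))) ?_
    rw [← ap_mul, show M.T.im (M.T.D_le_C (M.A_le_D htA)) * M.T.im (M.T.D_le_C (M.A_le_D hd)) = ω by
      rw [← M.T.im_mul, hω]; congr 1; rw [mul_inv_cancel_left],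
      ap_add, hty, M.fix_L htA (inL_add hEL (hδL y)), hsum]
    rw [show y + E + (E + δ y) = y + (E + E) + δ y by abel, two8, add_zero, add_comm]
  rw [hyE, pr_add, hpr0, add_zero]

end Loc

end Cfsg.Agent.H41.CoLocal
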