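import Cfsg.Agent.H41.CoLocal.Coord

/-! Existence of the normalised generators. -/

set_option autoImplicit false
set_option linter.unusedSimpArgs false
set_option linter.unusedSectionVars false

namespace Cfsg.Agent.H41.CoLocal

open Cfsg.Agent Cfsg.Agent.H41.CoType
open Cfsg.Agent.H18 (SingPt OrthPair)

/-- The displacement of the involution of plane type omitting one index. -/
def plane (k : Fin 3) (y : F8) : F8 :=
  B8 (eps (Loc.ib k)) y • eps (Loc.ia k) + B8 (eps (Loc.ia k)) y • eps (Loc.ib k)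

theorem inL_plane (k : Fin 3) (y : F8) : InL (plane k y) :=
  inL_add (inL_smul _ (inL_eps _)) (inL_smul _ (inL_eps _))

theorem plane_add_inL (k : Fin 3) (y : F8) {l : F8} (hl : InL l) : plane k (y + l) = plane k y := by
  simp only [plane, B_add_right, B_inL (inL_eps _) hl, add_zero]

theorem plane_eta_self : ∀ k : Fin 3, plane k (eta (jx k)) = 0 := by decide +kernel

theorem plane_eta_next : ∀ k : Fin 3, plane k (eta (jx (k + 1))) = eps (jx (k + 2)) := by decide +kernel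

theorem plane_eta_prev : ∀ k : Fin 3, plane k (eta (jx (k + 2))) = eps (jx (k + 1)) := by decide +kernel

theorem plane_two_span (y : F8) : ∃ i j : ZMod 2, plane 2 y = i • eps 1 + j • eps 2 :=
  ⟨_, _, rfl⟩

theorem B_plane_two (y : F8) : B8 (eta 0) (plane 2 y) = 0 ∧ B8 (plane 2 y) (eta 3) = 0 ∧
    B8 (eps 0) (plane 2 y) = 0 := by
  obtain ⟨i, j, h⟩ := plane_two_span y
  rw [h]
  clear h
  revert i j
  decide +kernel

/-- An element of order seven permuting the seven planes. -/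
def g7 (x : F8) : F8 :=
  Sum.elim ![x (.inl 0), x (.inl 1) + x (.inl 3), x (.inl 1), x (.inl 2)]
    ![x (.inr 0), x (.inr 3), x (.inr 1) + x (.inr 3), x (.inr 2)]

/-- Powers of the element of order seven. -/
def g7pow : ℕ → F8 → F8
  | 0, x => x
  | n + 1, x => g7 (g7pow n x)

theorem g7_add : ∀ x y : F8, g7 (x + y) = g7 x + g7 y := by
  intro x y
  funext j
  rcases j with i | i <;> fin_cases i <;> simp [g7] <;> ring

theorem g7_smul (a : ZMod 2) (x : F8) : g7 (a • x) = a • g7 x := by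
  funext j
  rcases j with i | i <;> fin_cases i <;> simp [g7] <;> ring

theorem g7_seven : ∀ x : F8, g7pow 7 x = x := by decide +kernel

theorem g7_q : ∀ x : F8, q8 (g7 x) = q8 x := by decide +kernel

theorem exists_g7 (n : ℕ) : ∃ ω : O8, ω ∈ Om ∧ ∀ x, ap ω x = g7pow n x := by
  let e : F8 ≃ₗ[ZMod 2] F8 :=
    { toFun := g7
      map_add' := g7_add
      map_smul' := g7_smul
      invFun := g7pow 6
      left_inv := fun x => g7_seven x
      right_inv := fun x => g7_seven x }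
  obtain ⟨g, hg⟩ : ∃ g : O8, ∀ x, ap g x = g7 x := ⟨⟨e, fun x => by
    show Q8 (g7 x) = Q8 x
    rw [coe_Q8, coe_Q8, g7_q]⟩, fun x => rfl⟩
  have key : ∀ n x, ap (g ^ n) x = g7pow n x := by
    intro n
    induction n with
    | zero => intro x; rw [pow_zero, ap_one]; rfl
    | succ n ih => intro x; rw [pow_succ', ap_mul, ih, hg]; rfl
  refine ⟨g ^ n, ?_, key n⟩
  refine pow_mem ?_ n
  have h7 : g ^ 7 = 1 := ap_ext fun x => by rw [key, g7_seven, ap_one]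
  have h2 := Subgroup.mul_self_mem_of_index_two index_Om (g ^ 4)
  rwa [← pow_add, show 4 + 4 = 7 + 1 from rfl, pow_succ, h7, one_mul] at h2

namespace Loc

variable {G : Type*} [Group G] [Finite G] (M : Loc G)

theorem A_comm {a c : G} (ha : a ∈ M.A) (hc : c ∈ M.A) : a * c = c * a := by
  obtain ⟨s0, s1, s2, r, hr, hrR, rfl⟩ := M.exists_decomp ha
  obtain ⟨s0', s1', s2', r', hr', hrR', rfl⟩ := M.exists_decomp hc
  have ht : ∀ k l, Commute (M.tS k) (M.tS l) := fun k l => M.tS_comm k l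
  have h1 : ∀ k, Commute (M.tS k) r := fun k => M.tS_comm_RA k hr hrR
  have h2 : ∀ k, Commute (M.tS k) r' := fun k => M.tS_comm_RA k hr' hrR'
  have hp : ∀ (k : Fin 3) (n : ℕ),
      Commute (M.tS k ^ n) (M.tS 0 ^ s0'.val * M.tS 1 ^ s1'.val * M.tS 2 ^ s2'.val * r') := fun k n =>
    (((((ht k 0).pow_right _).mul_right ((ht k 1).pow_right _)).mul_right ((ht k 2).pow_right _)).mul_right
      (h2 k)).pow_left n
  have hr0 : Commute r (M.tS 0 ^ s0'.val * M.tS 1 ^ s1'.val * M.tS 2 ^ s2'.val * r') :=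
    ((((h1 0).symm.pow_right _).mul_right ((h1 1).symm.pow_right _)).mul_right
      ((h1 2).symm.pow_right _)).mul_right (M.comm_RA hr hrR hr' hrR')
  exact (((hp 0 _).mul_left (hp 1 _)).mul_left (hp 2 _)).mul_left hr0

theorem vv_comm_A {a : G} (ha : a ∈ M.A) (i j : ZMod 2) : a * M.T.vv i j = M.T.vv i j * a :=
  M.T.vv_comm (M.A_le_D ha) i j

theorem v_sq : ∃ i, M.T.v * M.T.v = M.T.vv 0 i := by
  rcases M.T.o.h'.pair (M.T.o.h'.sq M.T.hv) with e | e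
  · exact ⟨0, by rw [M.T.vv_zero]; exact e⟩
  · exact ⟨1, by rw [Frame.vv, Setting.zp_zero, one_mul, M.T.bp_one]; exact e⟩

theorem v_twice {x : G} (hx : x ∈ M.T.D) : M.T.v * (M.T.v * x * M.T.v⁻¹) * M.T.v⁻¹ = x := by
  obtain ⟨i, hi⟩ := M.v_sq
  calc M.T.v * (M.T.v * x * M.T.v⁻¹) * M.T.v⁻¹ = (M.T.v * M.T.v) * x * (M.T.v * M.T.v)⁻¹ := by group
    _ = _ := by rw [hi, ← M.T.vv_comm hx, mul_inv_cancel_right]

theorem conj_v {a : G} (ha : a ∈ M.A) : M.T.v * a * M.T.v⁻¹ ∈ M.A := by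
  intro x hx
  have hc : M.T.IsCl (M.T.v * x * M.T.v⁻¹) (M.T.cl x) (M.T.cl x + 0) :=
    M.T.isCl_conj_v (M.T.isCl_P (M.Lt_le_P hx))
  rw [add_zero] at hc
  have hxA := M.isCl_mem_A hc (inL_pr hx.2) (inL_pr hx.2)
  have h := M.A_comm ha hxA
  have e := M.v_twice (M.A_le_D (M.Lt_le_A hx))
  calc x * (M.T.v * a * M.T.v⁻¹)
      = M.T.v * ((M.T.v * x * M.T.v⁻¹) * a) * M.T.v⁻¹ := by
        (conv_lhs => rw [← e]); group
    _ = M.T.v * (a * (M.T.v * x * M.T.v⁻¹)) * M.T.v⁻¹ := by rw [h]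
    _ = M.T.v * a * M.T.v⁻¹ * (M.T.v * (M.T.v * x * M.T.v⁻¹) * M.T.v⁻¹) := by group
    _ = _ := by rw [e]

theorem kappa_mem {t : G} (ht : t ∈ M.T.D) : M.T.v * t * M.T.v⁻¹ * t⁻¹ ∈ M.T.P' := by
  refine ⟨?_, Subgroup.mem_centralizer_singleton_iff.2
    (M.T.mem_D.1 (mul_mem (M.T.o.conj_CV (M.T.o.X_le_normalizer M.T.v_mem_X) ht) (inv_mem ht))).1⟩
  rw [show M.T.v * t * M.T.v⁻¹ * t⁻¹ = M.T.v * (t * M.T.v⁻¹ * t⁻¹) by group]
  exact mul_mem M.T.hv (M.T.o.CV_norm_F' ht (inv_mem M.T.hv))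

theorem comm_u_of_co {x : G} (hx : x ∈ M.T.S.F) (h : B8 (eta 0) (M.T.S.co x) = 0) :
    M.T.u * x * M.T.u⁻¹ = x :=
  mul_inv_eq_iff_eq_mul.2 ((M.T.S.commute_iff M.T.hu hx).2 (by rw [M.T.hcu]; exact h))

theorem im_congr {c c' : G} (hc : c ∈ M.T.S.C) (hc' : c' ∈ M.T.S.C) (h : c = c') :
    M.T.im hc = M.T.im hc' := by subst h; rfl

theorem im_F {x : G} (hx : x ∈ M.T.S.F) : M.T.im (M.T.S.F_le_C hx) = 1 := (M.T.S.rho_eq_one _).2 hx

theorem exists_norm_t (k : Fin 3) : ∃ t, ∃ hA : t ∈ M.A, t * t = 1 ∧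
    (∀ y, ap (M.T.im (M.T.D_le_C (M.A_le_D hA))) y + y = plane k y) ∧
    M.T.u * t * M.T.u⁻¹ = t ∧ M.T.v * t * M.T.v⁻¹ = t := by
  obtain ⟨κ, hκ⟩ : ∃ κ, κ = M.T.v * M.tS k * M.T.v⁻¹ * (M.tS k)⁻¹ := ⟨_, rfl⟩
  have hκP : κ ∈ M.T.P' := hκ ▸ M.kappa_mem (M.tS_mem_D k)
  have hκA : κ ∈ M.A := hκ ▸ mul_mem (M.conj_v (M.tS_mem k)) (inv_mem (M.tS_mem k))
  have hκL : InL (M.T.ph κ) := (M.isCl_inL hκA (M.T.isCl_P' hκP)).2
  obtain ⟨p, hp, hpc⟩ := M.T.S.co_surj (M.T.ph κ)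
  have hpL : p ∈ M.Lt := ⟨hp, hpc ▸ hκL⟩
  have hpA := M.Lt_le_A hpL
  have hpu : M.T.u * p * M.T.u⁻¹ = p := M.comm_u_of_co hp (by rw [hpc, ← M.T.ph_pr, B_eta_pr])
  have hcl : M.T.cl p = M.T.ph κ := by rw [Frame.cl, hpc, M.T.ph_pr]
  obtain ⟨i, j, hij⟩ : ∃ i j, M.T.v * p * M.T.v⁻¹ * p⁻¹ = M.T.vv i j * κ := by
    refine M.T.isCl_eq (M.T.isCl_P' hκP) ?_
    have := M.T.isCl_P' (M.T.vp_mem (M.Lt_le_P hpL))
    rwa [M.T.ph_vp (M.Lt_le_P hpL), hcl] at this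
  have hκ2 : κ * κ = 1 := by rw [M.T.sq_P' hκP, q_inL hκL, M.T.bp_zero]
  have hvt : M.T.v * M.tS k * M.T.v⁻¹ = κ * M.tS k := by rw [hκ]; group
  have hvp : M.T.v * p * M.T.v⁻¹ = M.T.vv i j * κ * p := by rw [← hij]; group
  have hvtp : M.T.v * (M.tS k * p) * M.T.v⁻¹ = M.T.vv i j * (M.tS k * p) := by
    calc M.T.v * (M.tS k * p) * M.T.v⁻¹
        = (M.T.v * M.tS k * M.T.v⁻¹) * (M.T.v * p * M.T.v⁻¹) := by group
      _ = κ * (M.tS k * M.T.vv i j) * κ * p := by rw [hvt, hvp]; group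
      _ = (κ * M.T.vv i j) * (M.tS k * κ) * p := by rw [M.vv_comm_A (M.tS_mem k)]; group
      _ = M.T.vv i j * (κ * κ) * (M.tS k * p) := by
        rw [M.vv_comm_A hκA, M.A_comm (M.tS_mem k) hκA]; group
      _ = _ := by rw [hκ2, mul_one]
  have htpA : M.tS k * p ∈ M.A := mul_mem (M.tS_mem k) hpA
  have hi : i = 0 := by
    have h := M.v_twice (M.A_le_D htpA)
    rw [hvtp, show M.T.v * (M.T.vv i j * (M.tS k * p)) * M.T.v⁻¹ =
      (M.T.v * M.T.vv i j * M.T.v⁻¹) * (M.T.v * (M.tS k * p) * M.T.v⁻¹) by group, hvtp, M.T.v_vv,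
      ← mul_assoc, M.T.vv_mul, mul_eq_right, ← M.T.vv_zero] at h
    have := (M.T.vv_inj h).2
    linear_combination this - two0 j
  subst hi
  have hzF := M.T.vv_mem_F j 0
  have hzA : M.T.vv j 0 ∈ M.A :=
    M.Lt_le_A ⟨hzF, by rw [M.T.co_vv, zero_smul]; exact inL_zero⟩
  have hA : M.tS k * p * M.T.vv j 0 ∈ M.A := mul_mem htpA hzA
  have hF : p * M.T.vv j 0 ∈ M.T.S.F := mul_mem hp hzF
  refine ⟨M.tS k * p * M.T.vv j 0, hA, ?_, fun y => ?_, ?_, ?_⟩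
  · have e1 : p * p = 1 := (M.T.S.sq_iff p hp).2 (by rw [hpc]; exact q_inL hκL)
    calc M.tS k * p * M.T.vv j 0 * (M.tS k * p * M.T.vv j 0)
        = M.tS k * p * (M.tS k * p) * (M.T.vv j 0 * M.T.vv j 0) := by
          rw [mul_assoc (M.tS k * p) (M.T.vv j 0), ← mul_assoc (M.T.vv j 0), ← M.vv_comm_A htpA]; group
      _ = M.tS k * (p * M.tS k) * p := by rw [M.T.vv_mul, two0, add_zero, M.T.vv_zero]; group
      _ = M.tS k * M.tS k * (p * p) := by rw [M.A_comm hpA (M.tS_mem k)]; group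
      _ = 1 := by rw [M.tS_tt, e1, one_mul]
  · have e : M.T.im (M.T.D_le_C (M.A_le_D hA)) = M.T.im (M.T.D_le_C (M.tS_mem_D k)) := by
      rw [show M.T.im (M.T.D_le_C (M.A_le_D hA)) =
          M.T.im (mul_mem (M.T.D_le_C (M.tS_mem_D k)) (M.T.S.F_le_C hF)) from
        M.im_congr _ _ (mul_assoc _ _ _),
        M.T.im_mul (M.T.D_le_C (M.tS_mem_D k)) (M.T.S.F_le_C hF), M.im_F hF, mul_one]
    rw [e]; exact M.tS_im k y
  · calc M.T.u * (M.tS k * p * M.T.vv j 0) * M.T.u⁻¹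
        = (M.T.u * M.tS k * M.T.u⁻¹) * (M.T.u * p * M.T.u⁻¹) * (M.T.u * M.T.vv j 0 * M.T.u⁻¹) := by group
      _ = _ := by rw [M.tS_u, hpu, M.T.u_vv, add_zero]
  · calc M.T.v * (M.tS k * p * M.T.vv j 0) * M.T.v⁻¹
        = (M.T.v * (M.tS k * p) * M.T.v⁻¹) * (M.T.v * M.T.vv j 0 * M.T.v⁻¹) := by group
      _ = (M.tS k * p) * (M.T.vv 0 j * M.T.vv j (j + 0)) := by
        rw [hvtp, M.T.v_vv, ← M.vv_comm_A htpA]; group
      _ = _ := by rw [M.T.vv_mul, zero_add, add_zero, two0]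

/-- A lift commuting with the first translation. -/
theorem exists_D_u {ω : O8} (hω : ω ∈ Om) (he : ap ω (eps 0) = eps 0) (hu : ap ω (eta 0) = eta 0) :
    ∃ d, ∃ hd : d ∈ M.T.D, M.T.im (M.T.D_le_C hd) = ω ∧ M.T.u * d = d * M.T.u := by
  obtain ⟨d, hd, him⟩ := M.T.exists_D hω he
  obtain ⟨i, hi⟩ := M.T.S.exists_zp M.T.hu (M.T.S.norm (M.T.D_le_C hd) M.T.hu) (by
    rw [M.T.co_conj (M.T.D_le_C hd) M.T.hu, him, M.T.hcu, hu])
  have hbF := M.T.bp_mem i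
  have hbv : M.T.vv 0 i = M.T.bp i := by rw [Frame.vv, Setting.zp_zero, one_mul]
  have hbD : M.T.bp i ∈ M.T.D := hbv ▸ M.T.P_le_D (M.T.four_le_P (M.T.vv_mem 0 i))
  refine ⟨M.T.bp i * d, mul_mem hbD hd, ?_, ?_⟩
  · rw [show M.T.im (M.T.D_le_C (mul_mem hbD hd)) = M.T.im (mul_mem (M.T.S.F_le_C hbF) (M.T.D_le_C hd))
      from rfl, M.T.im_mul (M.T.S.F_le_C hbF) (M.T.D_le_C hd), M.im_F hbF, one_mul, him]
  · have hub : M.T.u * M.T.bp i * M.T.u⁻¹ = M.T.vv i i := by rw [← hbv, M.T.u_vv, zero_add]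
    have hdu : d * M.T.u * d⁻¹ = M.T.u * M.T.vv i 0 := by
      rw [hi, show M.T.vv i 0 = M.T.S.zp i by rw [Frame.vv, M.T.bp_zero, mul_one]]
    have hud : M.T.u * d = M.T.vv i 0 * d * M.T.u := by
      have hz : M.T.u * M.T.vv i 0 = M.T.vv i 0 * M.T.u := by
        rw [← mul_inv_eq_iff_eq_mul, M.T.u_vv, add_zero]
      calc M.T.u * d = (M.T.vv i 0 * M.T.vv i 0) * M.T.u * d := by
            rw [M.T.vv_mul, two0, add_zero, M.T.vv_zero, one_mul]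
        _ = M.T.vv i 0 * (M.T.u * M.T.vv i 0) * d := by rw [hz]; group
        _ = _ := by rw [← hdu]; group
    calc M.T.u * (M.T.bp i * d) = (M.T.u * M.T.bp i * M.T.u⁻¹) * (M.T.u * d) := by group
      _ = (M.T.vv i i * M.T.vv i 0) * d * M.T.u := by rw [hub, hud]; group
      _ = M.T.bp i * d * M.T.u := by rw [M.T.vv_mul, two0, add_zero, hbv]

/-- The commutator in the centre is the same for all conjugate planes. -/
theorem transport {t : G} (ht : t ∈ M.A)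
    (htim : ∀ y, ap (M.T.im (M.T.D_le_C (M.A_le_D ht))) y + y = plane 2 y)
    (htu : M.T.u * t * M.T.u⁻¹ = t) (htv : M.T.v * t * M.T.v⁻¹ = t) {q : G} (hq : q ∈ M.T.S.F)
    (hqc : M.T.S.co q = eta 3) {γ : ZMod 2} (htq : t * q * t⁻¹ = M.T.S.zp γ * q)
    {ω : O8} (hω : ω ∈ Om) (he : ap ω (eps 0) = eps 0) (hu : ap ω (eta 0) = eta 0)
    (hstab : ∀ x, InL x → InL (ap ω x)) {t' : G} (ht' : t' ∈ M.A)
    (him : ∀ y, ap (M.T.im (M.T.D_le_C (M.A_le_D ht'))) (ap ω y) + ap ω y = ap ω (plane 2 y))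
    (ht'u : M.T.u * t' * M.T.u⁻¹ = t') (ht'v : M.T.v * t' * M.T.v⁻¹ = t') {q' : G}
    (hq' : q' ∈ M.T.S.F) (hq'c : M.T.S.co q' = ap ω (eta 3)) :
    t' * q' * t'⁻¹ = M.T.S.zp γ * q' := by
  obtain ⟨d, hd, hdim, hdu⟩ := M.exists_D_u hω he hu
  have hst : ∀ x, InL x → InL (ap (M.T.im (M.T.D_le_C hd)) x) := fun x hx => hdim ▸ hstab x hx
  obtain ⟨s, hs⟩ : ∃ s, s = d * t * d⁻¹ := ⟨_, rfl⟩
  have hsA : s ∈ M.A := hs ▸ M.conj_A (M.T.D_le_C hd) hst ht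
  have hsim : M.T.im (M.T.D_le_C (M.A_le_D hsA)) * ω = ω * M.T.im (M.T.D_le_C (M.A_le_D ht)) := by
    rw [← hdim, ← M.T.im_mul, ← M.T.im_mul]
    congr 1
    rw [hs]; group
  have heq : M.T.im (M.T.D_le_C (M.A_le_D hsA)) = M.T.im (M.T.D_le_C (M.A_le_D ht')) := by
    refine ap_ext fun y => ?_
    obtain ⟨y', rfl⟩ := (ω : F8 ≃ₗ[ZMod 2] F8).surjective y
    change ap _ (ap ω y') = ap _ (ap ω y')
    rw [← ap_mul, hsim, ap_mul, show ap (M.T.im (M.T.D_le_C (M.A_le_D ht))) y' = plane 2 y' + y' by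
      rw [← htim, add_assoc, two8, add_zero], ap_add, ← him, add_assoc, two8, add_zero]
  obtain ⟨x, hx⟩ : ∃ x, x = s⁻¹ * t' := ⟨_, rfl⟩
  have hxA : x ∈ M.A := hx ▸ mul_mem (inv_mem hsA) ht'
  have hxF : x ∈ M.T.S.F := by
    refine (M.T.S.rho_eq_one (M.T.D_le_C (M.A_le_D hxA))).1 ?_
    show M.T.im _ = 1
    refine mul_left_cancel (a := M.T.im (M.T.D_le_C (M.A_le_D hsA))) ?_
    rw [← M.T.im_mul, mul_one, heq]
    congr 1
    rw [hx, mul_inv_cancel_left]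
  have hxL := M.A_inter_F hxA hxF
  have ht's : t' = s * x := by rw [hx, mul_inv_cancel_left]
  have hsu : M.T.u * s * M.T.u⁻¹ = s := by
    calc M.T.u * s * M.T.u⁻¹ = (M.T.u * d) * t * (M.T.u * d)⁻¹ := by rw [hs]; group
      _ = d * (M.T.u * t * M.T.u⁻¹) * d⁻¹ := by rw [hdu]; group
      _ = _ := by rw [htu, hs]
  have hxu : B8 (eta 0) (M.T.S.co x) = 0 := by
    have h : M.T.u * x * M.T.u⁻¹ = x := by
      calc M.T.u * x * M.T.u⁻¹ = (M.T.u * s * M.T.u⁻¹)⁻¹ * (M.T.u * t' * M.T.u⁻¹) := by rw [hx]; group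
        _ = x := by rw [hsu, ht'u, hx]
    rw [← M.T.hcu]
    exact (M.T.S.commute_iff M.T.hu hxF).1 (mul_inv_eq_iff_eq_mul.1 h)
  -- the class of the displacement of `s`
  obtain ⟨r, hr⟩ : ∃ r, r = M.T.v⁻¹ * (d⁻¹ * M.T.v * d) := ⟨_, rfl⟩
  have hrD : r ∈ M.T.D := by
    rw [hr, show M.T.v⁻¹ * (d⁻¹ * M.T.v * d) = (M.T.v⁻¹ * d⁻¹ * M.T.v⁻¹⁻¹) * d by group]
    exact mul_mem (M.T.o.conj_CV (M.T.o.X_le_normalizer (inv_mem M.T.v_mem_X)) (inv_mem hd)) hd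
  have hrP : r ∈ M.T.P' := by
    refine ⟨hr ▸ (OrthPair.F' M.T.S.F M.T.g).mul_mem ((OrthPair.F' M.T.S.F M.T.g).inv_mem M.T.hv)
      (by simpa using M.T.o.CV_norm_F' (inv_mem hd) M.T.hv),
      Subgroup.mem_centralizer_singleton_iff.2 (M.T.mem_D.1 hrD).1⟩
  obtain ⟨e, hee⟩ : ∃ e, e = M.T.ph r + pr (ap (M.T.im (M.T.D_le_C (M.A_le_D ht))) (M.T.ph r)) := ⟨_, rfl⟩
  have hep : ∃ y, e = pr (plane 2 y) := ⟨M.T.ph r, by
    rw [hee, ← htim, pr_add, M.T.ph_pr, add_comm]⟩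
  have hcls : M.T.IsCl (M.T.v * s * M.T.v⁻¹ * s⁻¹) (pr (ap ω 0)) (pr (ap ω e)) := by
    have hv'' : M.T.v * r = d⁻¹ * M.T.v * d := by rw [hr, mul_inv_cancel_left]
    have e1 : M.T.v * s * M.T.v⁻¹ * s⁻¹ =
        d * (M.T.v * (r * (t * r⁻¹ * t⁻¹)) * M.T.v⁻¹) * d⁻¹ := by
      calc M.T.v * s * M.T.v⁻¹ * s⁻¹
          = d * ((d⁻¹ * M.T.v * d) * t * (d⁻¹ * M.T.v * d)⁻¹ * t⁻¹) * d⁻¹ := by rw [hs]; group
        _ = d * ((M.T.v * r) * t * (M.T.v * r)⁻¹ * (M.T.v * t * M.T.v⁻¹)⁻¹) * d⁻¹ := by rw [hv'', htv]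
        _ = _ := by group
    have h1 := M.T.isCl_mul (M.T.isCl_P' hrP)
      (M.T.isCl_conj (M.A_le_D ht) (M.T.isCl_inv (M.T.isCl_P' hrP)))
    rw [ap_zero, pr_zero, zero_add, ← hee] at h1
    have h2 := M.T.isCl_conj_v h1
    rw [zero_add] at h2
    have h3 := M.T.isCl_conj hd h2
    rwa [hdim, ← e1] at h3
  have hxv : M.T.v * s * M.T.v⁻¹ * s⁻¹ = (M.T.v * x * M.T.v⁻¹ * x⁻¹)⁻¹ := by
    have h := ht'v
    rw [ht's] at h
    have h' : (M.T.v * s * M.T.v⁻¹) * (M.T.v * x * M.T.v⁻¹) = s * x := by rw [← h]; group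
    have hc := M.A_comm (inv_mem hsA) (mul_mem hxA (inv_mem (M.conj_v hxA)))
    rw [eq_mul_inv_of_mul_eq h']
    calc s * x * (M.T.v * x * M.T.v⁻¹)⁻¹ * s⁻¹ = s * ((x * (M.T.v * x * M.T.v⁻¹)⁻¹) * s⁻¹) := by group
      _ = s * (s⁻¹ * (x * (M.T.v * x * M.T.v⁻¹)⁻¹)) := by rw [hc]
      _ = _ := by group
  have hxcl := M.T.isCl_inv (M.T.isCl_P' (M.T.vp_mem (M.Lt_le_P hxL)))
  rw [M.T.ph_vp (M.Lt_le_P hxL), ← hxv] at hxcl
  have hclx : M.T.cl x = pr (ap ω e) := (M.T.isCl_uniq hxcl hcls).2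
  have hB : B8 (M.T.S.co x) (M.T.S.co q') = 0 := by
    obtain ⟨y, hy⟩ := hep
    obtain ⟨b0, b3, be⟩ := B_plane_two y
    have hpe : pr (plane 2 y) = plane 2 y := by
      obtain ⟨i, j, h⟩ := plane_two_span y
      rw [h]; clear h; revert i j; decide +kernel
    rw [hpe] at hy
    have hpr : ∀ z : F8, InL z → B8 (eta 0) z = 0 → pr z = z := fun z hz h => by
      rw [B_eta] at h
      funext i
      rcases i with i | i
      · by_cases hi : i = 0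
        · subst hi; simp [pr, h]
        · simp [pr, hi]
      · simp [pr, hz i]
    have hwL : InL (ap ω e) := hstab _ (hy ▸ inL_plane 2 y)
    have hw0 : B8 (eta 0) (ap ω e) = 0 := by rw [← hu, ap_B, hy]; exact b0
    have hcox : M.T.S.co x = ap ω e := by
      rw [← hpr _ hxL.2 hxu, ← hpr _ hwL hw0]; exact hclx
    rw [hcox, hq'c, ap_B, hy]; exact b3
  have hxq : x * q' = q' * x := (M.T.S.commute_iff hxF hq').2 hB
  obtain ⟨i, hi⟩ := M.T.S.exists_zp (M.T.S.norm (M.T.D_le_C hd) hq) hq' (by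
    rw [M.T.co_conj (M.T.D_le_C hd) hq, hdim, hqc, hq'c])
  have hz : ∀ (a : ZMod 2) {c : G}, c ∈ M.T.D → c * M.T.S.zp a = M.T.S.zp a * c := fun a c hc =>
    M.T.S.zp_comm a (M.T.mem_D.1 hc).1
  calc t' * q' * t'⁻¹ = s * (x * q' * x⁻¹) * s⁻¹ := by rw [ht's]; group
    _ = s * q' * s⁻¹ := by rw [hxq, mul_inv_cancel_right]
    _ = (s * (d * q * d⁻¹) * s⁻¹) * M.T.S.zp i := by
      rw [hi]
      calc s * (d * q * d⁻¹ * M.T.S.zp i) * s⁻¹ = s * (d * q * d⁻¹) * (M.T.S.zp i * s⁻¹) := by group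
        _ = _ := by rw [← hz i (inv_mem (M.A_le_D hsA))]; group
    _ = d * (t * q * t⁻¹) * d⁻¹ * M.T.S.zp i := by rw [hs]; group
    _ = M.T.S.zp γ * (d * q * d⁻¹ * M.T.S.zp i) := by
      rw [htq, ← mul_assoc, hz γ hd]; group
    _ = _ := by rw [← hi]

theorem im_prod {a c : G} (ha : a ∈ M.A) (hc : c ∈ M.A) {f g : F8 → F8}
    (hf : ∀ y, ap (M.T.im (M.T.D_le_C (M.A_le_D ha))) y + y = f y)
    (hg : ∀ y, ap (M.T.im (M.T.D_le_C (M.A_le_D hc))) y + y = g y)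
    (hL : ∀ y, InL (g y)) (hfl : ∀ y l, InL l → f (y + l) = f y) (y : F8) :
    ap (M.T.im (M.T.D_le_C (M.A_le_D (mul_mem ha hc)))) y + y = f y + g y := by
  have e : ap (M.T.im (M.T.D_le_C (M.A_le_D hc))) y = y + g y := by
    rw [← hg, add_comm (ap _ _), ← add_assoc, two8, zero_add]
  rw [show M.T.im (M.T.D_le_C (M.A_le_D (mul_mem ha hc))) =
      M.T.im (mul_mem (M.T.D_le_C (M.A_le_D ha)) (M.T.D_le_C (M.A_le_D hc))) from rfl,
    M.T.im_mul (M.T.D_le_C (M.A_le_D ha)) (M.T.D_le_C (M.A_le_D hc)), ap_mul, e,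
    show ap (M.T.im (M.T.D_le_C (M.A_le_D ha))) (y + g y) = f (y + g y) + (y + g y) by
      rw [← hf, add_assoc, two8, add_zero], hfl _ _ (hL y),
    show f y + (y + g y) + y = f y + g y + (y + y) by abel, two8, add_zero]

theorem eq_of_plane {t : G} (ht : t ∈ M.A) {f : F8 → F8}
    (hf : ∀ y, ap (M.T.im (M.T.D_le_C (M.A_le_D ht))) y + y = f y) (y : F8) :
    ap (M.T.im (M.T.D_le_C (M.A_le_D ht))) y = y + f y := by
  rw [← hf, add_comm (ap _ _), ← add_assoc, two8, zero_add]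

end Loc

/-- The powers giving the single planes. -/
def n1 : Fin 3 → ℕ := ![5, 6, 0]

/-- The powers giving the sums of two planes. -/
def n2 : Fin 3 → ℕ := ![1, 2, 4]

theorem g7pow_fix : ∀ n : Fin 7, g7pow n (eps 0) = eps 0 ∧ g7pow n (eta 0) = eta 0 := by decide +kernel

theorem inL_g7pow (n : ℕ) (x : F8) (hx : InL x) : InL (g7pow n x) := by
  induction n with
  | zero => exact hx
  | succ n ih =>
    intro i
    show g7 (g7pow n x) (.inr i) = 0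
    fin_cases i <;> simp [g7, ih 0, ih 1, ih 2, ih 3]

theorem plane_n1 : ∀ (k : Fin 3) (y : F8), plane k (g7pow (n1 k) y) = g7pow (n1 k) (plane 2 y) := by
  decide +kernel

theorem plane_n2 : ∀ (k : Fin 3) (y : F8),
    plane k (g7pow (n2 k) y) + plane (k + 1) (g7pow (n2 k) y) = g7pow (n2 k) (plane 2 y) := by
  decide +kernel

theorem plane_n3 : ∀ y : F8,
    plane 0 (g7pow 3 y) + (plane 1 (g7pow 3 y) + plane 2 (g7pow 3 y)) = g7pow 3 (plane 2 y) := by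
  decide +kernel

theorem g7_eta_n1 : ∀ k : Fin 3, g7pow (n1 k) (eta 3) = eta (jx k) := by decide +kernel

theorem g7_eta_n2 : ∀ k : Fin 3, g7pow (n2 k) (eta 3) = eta (jx k) + eta (jx (k + 1)) := by
  decide +kernel

theorem g7_eta_n3 : g7pow 3 (eta 3) = eta (jx 0) + eta (jx 1) + eta (jx 2) := by decide +kernel

theorem n_lt : ∀ k : Fin 3, n1 k < 7 ∧ n2 k < 7 := by decide +kernel

theorem jx_ne : ∀ k : Fin 3, jx k ≠ 0 := by decide +kernel

theorem B_jx : ∀ k l : Fin 3, B8 (eps (jx k)) (eta (jx l)) = (if k = l then 1 else 0) ∧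
    B8 (eta 0) (eps (jx k)) = 0 ∧ B8 (eps 0) (eta (jx k)) = 0 ∧ pr (eps (jx k)) = eps (jx k) ∧
    pr (eta (jx k)) = eta (jx k) ∧ B8 (eps (jx k)) (eps (jx l)) = 0 ∧ q8 (eps (jx k)) = 0 := by
  decide +kernel

/-- The normalised generators exist. -/
theorem exists_coord {G : Type*} [Group G] [Finite G] (M : Loc G) : Nonempty (Coord M) := by
  classical
  choose t htA htsq htim htu htv using M.exists_norm_t
  choose p0 hp0 hp0c using fun k : Fin 3 => M.T.S.co_surj (eps (jx k))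
  choose q hq hqc using fun k : Fin 3 => M.T.S.co_surj (eta (jx k))
  have hzc : ∀ (a : ZMod 2) {c : G}, c ∈ M.T.S.C → c * M.T.S.zp a = M.T.S.zp a * c := fun a c hc =>
    M.T.S.zp_comm a (M.T.S.mem_C.1 hc)
  have htC : ∀ k, t k ∈ M.T.S.C := fun k => M.T.D_le_C (M.A_le_D (htA k))
  have htco : ∀ k {x : G}, x ∈ M.T.S.F →
      M.T.S.co (t k * x * (t k)⁻¹) = M.T.S.co x + plane k (M.T.S.co x) := fun k x hx => by
    rw [M.T.co_conj (htC k) hx]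
    exact M.eq_of_plane (htA k) (htim k) _
  have hcl : ∀ k {x y : G}, x ∈ M.T.S.F → y ∈ M.T.S.F →
      M.T.S.co x + plane k (M.T.S.co x) = M.T.S.co y → ∃ i, t k * x * (t k)⁻¹ = M.T.S.zp i * y := by
    intro k x y hx hy h
    obtain ⟨i, hi⟩ := M.T.S.exists_zp hy (M.T.S.norm (htC k) hx) (by rw [htco k hx, h])
    exact ⟨i, by rw [hi, hzc i (M.T.S.F_le_C hy)]⟩
  have hp0L : ∀ k, p0 k ∈ M.Lt := fun k => ⟨hp0 k, hp0c k ▸ inL_eps _⟩
  have htp : ∀ k l, t k * p0 l * (t k)⁻¹ = p0 l := fun k l => by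
    rw [M.comm_Lt (htA k) (hp0L l), mul_inv_cancel_right]
  -- the sign of the diagonal commutators
  obtain ⟨γ, hγ⟩ := hcl 2 (hq 2) (hq 2) (by rw [hqc, plane_eta_self, add_zero])
  have key : ∀ (n : ℕ), n < 7 → ∀ {t' : G} (ht' : t' ∈ M.A) {q' : G},
      (∀ y, ap (M.T.im (M.T.D_le_C (M.A_le_D ht'))) (g7pow n y) + g7pow n y = g7pow n (plane 2 y)) →
      M.T.u * t' * M.T.u⁻¹ = t' → M.T.v * t' * M.T.v⁻¹ = t' → q' ∈ M.T.S.F →
      M.T.S.co q' = g7pow n (eta 3) → t' * q' * t'⁻¹ = M.T.S.zp γ * q' := by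
    intro n hn t' ht' q' him h1 h2 h3 h4
    obtain ⟨ω, hω, e⟩ := exists_g7 n
    refine M.transport (htA 2) (htim 2) (htu 2) (htv 2) (hq 2) (hqc 2) hγ hω
      (by rw [e]; exact (g7pow_fix ⟨n, hn⟩).1) (by rw [e]; exact (g7pow_fix ⟨n, hn⟩).2)
      (fun x hx => by rw [e]; exact inL_g7pow n x hx) ht' (fun y => by rw [e, e]; exact him y) h1 h2 h3
      (by rw [e, h4])
  have hdiag : ∀ k, t k * q k * (t k)⁻¹ = M.T.S.zp γ * q k := fun k =>
    key (n1 k) (n_lt k).1 (htA k) (fun y => by rw [htim k, plane_n1]) (htu k) (htv k) (hq k)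
      (by rw [hqc, g7_eta_n1])
  have hnext : ∀ k, ∃ a, t k * q (k + 1) * (t k)⁻¹ = M.T.S.zp a * (p0 (k + 2) * q (k + 1)) :=
    fun k => hcl k (hq _) (mul_mem (hp0 _) (hq _)) (by
      rw [hqc, M.T.S.co_mul _ (hp0 _) _ (hq _), hp0c, hqc, plane_eta_next, add_comm])
  choose av hav using hnext
  have hprev : ∀ k, ∃ c, t k * q (k + 2) * (t k)⁻¹ = M.T.S.zp c * (p0 (k + 1) * q (k + 2)) :=
    fun k => hcl k (hq _) (mul_mem (hp0 _) (hq _)) (by
      rw [hqc, M.T.S.co_mul _ (hp0 _) _ (hq _), hp0c, hqc, plane_eta_prev, add_comm])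
  choose cv hcv using hprev
  have hz2 : ∀ (a : ZMod 2) {x : G}, x ∈ M.T.S.F → x * M.T.S.zp a = M.T.S.zp a * x := fun a x hx =>
    hzc a (M.T.S.F_le_C hx)
  have hconj : ∀ k (a : ZMod 2), t k * M.T.S.zp a * (t k)⁻¹ = M.T.S.zp a := fun k a => by
    rw [hzc a (htC k), mul_inv_cancel_right]
  have hpp : ∀ k l, p0 k * p0 l = p0 l * p0 k := fun k l =>
    (M.T.S.commute_iff (hp0 k) (hp0 l)).2 (by rw [hp0c, hp0c]; exact (B_jx k l).2.2.2.2.2.1)
  have hp2 : ∀ k, p0 k * p0 k = 1 := fun k =>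
    (M.T.S.sq_iff _ (hp0 k)).2 (by rw [hp0c]; exact (B_jx k k).2.2.2.2.2.2)
  have hpq : ∀ k l, k ≠ l → p0 k * q l = q l * p0 k := fun k l h =>
    (M.T.S.commute_iff (hp0 k) (hq l)).2 (by rw [hp0c, hqc, (B_jx k l).1, if_neg h])
  have hqp : ∀ k, q k * p0 k = M.T.S.zp 1 * (p0 k * q k) := fun k => by
    rw [M.T.S.comm (hq k) (hp0 k), hqc, hp0c, B_comm, (B_jx k k).1, if_pos rfl]
  have zz : ∀ (a c : ZMod 2) (x : G), M.T.S.zp a * (M.T.S.zp c * x) = M.T.S.zp (a + c) * x :=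
    fun a c x => by rw [← mul_assoc, ← M.T.S.zp_add]
  have hne2 : ∀ k : Fin 3, k + 2 ≠ k := by decide
  have hsum : ∀ k, av k + cv (k + 1) = γ := by
    intro k
    have i1 : k + 1 + 2 = k := by revert k; decide
    have i2 : k + 1 + 1 = k + 2 := by revert k; decide
    have h1 := hcv (k + 1)
    rw [i1, i2] at h1
    have himk : ∀ y, ap (M.T.im (M.T.D_le_C (M.A_le_D (mul_mem (htA k) (htA (k + 1)))))) y + y =
        plane k y + plane (k + 1) y :=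
      M.im_prod (htA k) (htA (k + 1)) (htim k) (htim (k + 1)) (fun y => inL_plane _ y)
        (fun y l hl => plane_add_inL k y hl)
    have h := key (n2 k) (n_lt k).2 (mul_mem (htA k) (htA (k + 1))) (fun y => by rw [himk, plane_n2])
      (by rw [← conj_mul, htu, htu]) (by rw [← conj_mul, htv, htv]) (mul_mem (hq k) (hq (k + 1)))
      (by rw [M.T.S.co_mul _ (hq k) _ (hq _), hqc, hqc, g7_eta_n2])
    have e : t k * t (k + 1) * (q k * q (k + 1)) * (t k * t (k + 1))⁻¹ =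
        M.T.S.zp (av k + cv (k + 1)) * (q k * q (k + 1)) := by
      calc t k * t (k + 1) * (q k * q (k + 1)) * (t k * t (k + 1))⁻¹
          = t k * ((t (k + 1) * q k * (t (k + 1))⁻¹) * (t (k + 1) * q (k + 1) * (t (k + 1))⁻¹)) * (t k)⁻¹ := by
            group
        _ = (t k * M.T.S.zp (cv (k + 1)) * (t k)⁻¹) * (t k * p0 (k + 2) * (t k)⁻¹) * (t k * q k * (t k)⁻¹) *
            ((t k * M.T.S.zp γ * (t k)⁻¹) * (t k * q (k + 1) * (t k)⁻¹)) := by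
            rw [h1, hdiag (k + 1)]; group
        _ = M.T.S.zp (cv (k + 1)) * p0 (k + 2) * (M.T.S.zp γ * q k) *
            (M.T.S.zp γ * (M.T.S.zp (av k) * (p0 (k + 2) * q (k + 1)))) := by
            rw [hconj, hconj, htp, hdiag k, hav k]
        _ = M.T.S.zp (cv (k + 1)) * ((p0 (k + 2) * M.T.S.zp γ) * (q k * M.T.S.zp (γ + av k)) *
            (p0 (k + 2) * q (k + 1))) := by rw [zz]; group
        _ = M.T.S.zp (cv (k + 1) + (γ + (γ + av k))) * (p0 (k + 2) * (q k * p0 (k + 2)) * q (k + 1)) := by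
            rw [hz2 γ (hp0 _), hz2 _ (hq k),
              show M.T.S.zp γ * p0 (k + 2) * (M.T.S.zp (γ + av k) * q k) =
                M.T.S.zp γ * (p0 (k + 2) * M.T.S.zp (γ + av k)) * q k by group,
              hz2 _ (hp0 _)]
            simp only [M.T.S.zp_add, mul_assoc]
        _ = _ := by
            rw [← hpq (k + 2) k (hne2 k), ← mul_assoc (p0 (k + 2)), hp2, one_mul]
            congr 2
            linear_combination two0 γ
    exact M.T.S.zp_inj (mul_right_cancel (e.symm.trans h))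
  have hγ1 : γ = 1 := by
    have hp12 : ∀ y, ap (M.T.im (M.T.D_le_C (M.A_le_D (mul_mem (htA 1) (htA 2))))) y + y =
        plane 1 y + plane 2 y :=
      M.im_prod (htA 1) (htA 2) (htim 1) (htim 2) (fun y => inL_plane _ y)
        (fun y l hl => plane_add_inL 1 y hl)
    have hp3 := M.im_prod (htA 0) (mul_mem (htA 1) (htA 2)) (htim 0) hp12
      (fun y => inL_add (inL_plane _ _) (inL_plane _ _)) (fun y l hl => plane_add_inL 0 y hl)
    have h := key 3 (by norm_num) (mul_mem (htA 0) (mul_mem (htA 1) (htA 2)))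
      (fun y => by rw [hp3, plane_n3])
      (by rw [← conj_mul, ← conj_mul, htu, htu, htu]) (by rw [← conj_mul, ← conj_mul, htv, htv, htv])
      (mul_mem (mul_mem (hq 0) (hq 1)) (hq 2))
      (by rw [M.T.S.co_mul _ (mul_mem (hq 0) (hq 1)) _ (hq 2), M.T.S.co_mul _ (hq 0) _ (hq 1),
        hqc, hqc, hqc, g7_eta_n3])
    have a0 : t 0 * q 1 * (t 0)⁻¹ = M.T.S.zp (av 0) * (p0 2 * q 1) := hav 0
    have a1 : t 1 * q 2 * (t 1)⁻¹ = M.T.S.zp (av 1) * (p0 0 * q 2) := hav 1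
    have a2 : t 2 * q 0 * (t 2)⁻¹ = M.T.S.zp (av 2) * (p0 1 * q 0) := hav 2
    have b0 : t 0 * q 2 * (t 0)⁻¹ = M.T.S.zp (cv 0) * (p0 1 * q 2) := hcv 0
    have b1 : t 1 * q 0 * (t 1)⁻¹ = M.T.S.zp (cv 1) * (p0 2 * q 0) := hcv 1
    have b2 : t 2 * q 1 * (t 2)⁻¹ = M.T.S.zp (cv 2) * (p0 0 * q 1) := hcv 2
    obtain ⟨T, hT⟩ : ∃ T, T = t 0 * (t 1 * t 2) := ⟨_, rfl⟩
    have hT1 : ∀ (A1 : ZMod 2) (x y : G) (k : Fin 3), t k * (M.T.S.zp A1 * (x * y)) * (t k)⁻¹ =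
        M.T.S.zp A1 * ((t k * x * (t k)⁻¹) * (t k * y * (t k)⁻¹)) := fun A1 x y k => by
      rw [← conj_mul, ← conj_mul, hconj]
    have hT0 : ∀ (A : ZMod 2) (x : G) (k : Fin 3), t k * (M.T.S.zp A * x) * (t k)⁻¹ =
        M.T.S.zp A * (t k * x * (t k)⁻¹) := fun A x k => by rw [← conj_mul, hconj]
    have z1 : ∀ (A : ZMod 2) {x : G}, x ∈ M.T.S.F → ∀ y, x * (M.T.S.zp A * y) = M.T.S.zp A * (x * y) :=
      fun A x hx y => by rw [← mul_assoc, hz2 A hx, mul_assoc]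
    have e0 : T * q 0 * T⁻¹ = M.T.S.zp (av 2 + cv 1 + γ) * (p0 1 * (p0 2 * q 0)) := by
      calc T * q 0 * T⁻¹ = t 0 * (t 1 * (t 2 * q 0 * (t 2)⁻¹) * (t 1)⁻¹) * (t 0)⁻¹ := by rw [hT]; group
        _ = t 0 * (M.T.S.zp (av 2 + cv 1) * ((p0 1 * p0 2) * q 0)) * (t 0)⁻¹ := by
          rw [a2, hT1, htp, b1, z1 _ (hp0 1), zz, mul_assoc (p0 1)]
        _ = _ := by
          rw [hT1, hdiag, ← conj_mul, htp, htp, z1 _ (mul_mem (hp0 1) (hp0 2)), zz, mul_assoc (p0 1)]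
    have e1 : T * q 1 * T⁻¹ = M.T.S.zp (cv 2 + γ + av 0) * (p0 0 * (p0 2 * q 1)) := by
      calc T * q 1 * T⁻¹ = t 0 * (t 1 * (t 2 * q 1 * (t 2)⁻¹) * (t 1)⁻¹) * (t 0)⁻¹ := by rw [hT]; group
        _ = t 0 * (M.T.S.zp (cv 2 + γ) * (p0 0 * q 1)) * (t 0)⁻¹ := by
          rw [b2, hT1, htp, hdiag, z1 _ (hp0 0), zz]
        _ = _ := by rw [hT1, a0, htp, z1 _ (hp0 0), zz]
    have e2 : T * q 2 * T⁻¹ = M.T.S.zp (γ + av 1 + cv 0) * (p0 0 * (p0 1 * q 2)) := by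
      calc T * q 2 * T⁻¹ = t 0 * (t 1 * (t 2 * q 2 * (t 2)⁻¹) * (t 1)⁻¹) * (t 0)⁻¹ := by rw [hT]; group
        _ = t 0 * (M.T.S.zp (γ + av 1) * (p0 0 * q 2)) * (t 0)⁻¹ := by
          rw [hdiag, hT0, a1, zz]
        _ = _ := by rw [hT1, b0, htp, z1 _ (hp0 0), zz]
    have e3 : T * (q 0 * q 1 * q 2) * T⁻¹ =
        M.T.S.zp (av 2 + cv 1 + γ + (cv 2 + γ + av 0) + (γ + av 1 + cv 0) + 1) * (q 0 * q 1 * q 2) := by
      have l : ∀ {x y : G}, x * y = y * x → ∀ w, x * (y * w) = y * (x * w) := fun h w => by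
        rw [← mul_assoc, h, mul_assoc]
      have lq : ∀ k w, q k * (p0 k * w) = M.T.S.zp 1 * (p0 k * (q k * w)) := fun k w => by
        rw [← mul_assoc, hqp, mul_assoc, mul_assoc]
      have h22 : ∀ k w, p0 k * (p0 k * w) = w := fun k w => by rw [← mul_assoc, hp2, one_mul]
      have f1 := mul_mem (hp0 1) (mul_mem (hp0 2) (hq 0))
      have f2 := mul_mem (hp0 0) (mul_mem (hp0 2) (hq 1))
      have hcore : (p0 1 * (p0 2 * q 0)) * ((p0 0 * (p0 2 * q 1)) * (p0 0 * (p0 1 * q 2))) =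
          M.T.S.zp 1 * (q 0 * q 1 * q 2) := by
        simp only [mul_assoc, lq 0, lq 1, lq 2, l (hpq 0 1 (by decide)).symm, l (hpq 0 2 (by decide)).symm,
          l (hpq 1 0 (by decide)).symm, l (hpq 1 2 (by decide)).symm, l (hpq 2 0 (by decide)).symm,
          l (hpq 2 1 (by decide)).symm, l (hpp 1 0), l (hpp 2 0), l (hpp 2 1), h22,
          z1 _ (hp0 0), z1 _ (hp0 1), z1 _ (hp0 2), z1 _ (hq 0), z1 _ (hq 1), z1 _ (hq 2), zz]
        skip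
      calc T * (q 0 * q 1 * q 2) * T⁻¹
          = (T * q 0 * T⁻¹) * ((T * q 1 * T⁻¹) * (T * q 2 * T⁻¹)) := by group
        _ = M.T.S.zp (av 2 + cv 1 + γ + (cv 2 + γ + av 0) + (γ + av 1 + cv 0)) *
            ((p0 1 * (p0 2 * q 0)) * ((p0 0 * (p0 2 * q 1)) * (p0 0 * (p0 1 * q 2)))) := by
          rw [e0, e1, e2, mul_assoc (M.T.S.zp (cv 2 + γ + av 0)), z1 _ f2, zz, mul_assoc, z1 _ f1, zz]
          congr 1
          ring_nf
        _ = _ := by rw [hcore, zz]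
    rw [← hT] at h
    have := M.T.S.zp_inj (mul_right_cancel (e3.symm.trans h))
    have s0 : av 0 + cv 1 = γ := hsum 0
    have s1 : av 1 + cv 2 = γ := hsum 1
    have s2 : av 2 + cv 0 = γ := hsum 2
    linear_combination this - s0 - s1 - s2 - two0 γ - two0 γ - two0 (1 : ZMod 2)
  subst hγ1
  have f3 : ∀ k : Fin 3, k + 1 + 2 = k ∧ k + 1 + 1 = k + 2 ∧ k + 2 + 1 = k := by decide
  -- the renormalised lifts
  obtain ⟨p, hp⟩ : ∃ p : Fin 3 → G, p = fun k => M.T.S.zp (av (k + 1)) * p0 k := ⟨_, rfl⟩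
  have hpF : ∀ k, p k ∈ M.T.S.F := fun k => hp ▸ mul_mem (M.T.S.zp_mem _) (hp0 k)
  have hpc : ∀ k, M.T.S.co (p k) = eps (jx k) := fun k => by
    rw [hp, M.T.S.co_mul _ (M.T.S.zp_mem _) _ (hp0 k), M.T.S.co_zp, zero_add, hp0c]
  have hN : ∀ k, t k * q (k + 1) * (t k)⁻¹ = p (k + 2) * q (k + 1) := fun k => by
    rw [hav, hp]
    dsimp only
    rw [show k + 2 + 1 = k by revert k; decide, mul_assoc]
  have hP : ∀ k, t k * q (k + 2) * (t k)⁻¹ = M.T.z * p (k + 1) * q (k + 2) := fun k => by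
    rw [hcv, hp]
    dsimp only
    rw [show M.T.z = M.T.S.zp 1 from M.T.S.zp_one.symm, show k + 1 + 1 = k + 2 by revert k; decide,
      ← mul_assoc (M.T.S.zp 1), ← M.T.S.zp_add, mul_assoc]
    congr 2
    have := hsum (k + 2)
    rw [(f3 k).2.2] at this
    linear_combination this - two0 (av (k + 2))
  refine ⟨{ p := p, q := q, t := t, p_mem := hpF, p_co := hpc, q_mem := hq, q_co := hqc,
            w_u := ?_, t_mem := htA, t_sq := htsq, t_im := fun k h y => htim k y, t_u := htu,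
            t_v := htv, tq := fun k => by rw [hdiag, M.T.S.zp_one], tq_next := hN, tq_prev := hP }⟩
  intro k
  -- a plane involution carrying a translation to the lift
  obtain ⟨τ, j, hne, hτ⟩ : ∃ τ j, j ≠ k ∧ t τ * q j * (t τ)⁻¹ = p k * q j := by
    refine ⟨k + 1, k + 2, by revert k; decide, ?_⟩
    have := hN (k + 1)
    rwa [(f3 k).1, (f3 k).2.1] at this
  have hpP : p k ∈ M.T.P := M.T.mem_P.2 ⟨hpF k, by rw [hpc]; exact B_inL (inL_eps _) (inL_eps _)⟩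
  have hqP : q j ∈ M.T.P := M.T.mem_P.2 ⟨hq j, by rw [hqc]; exact (B_jx j j).2.2.1⟩
  obtain ⟨W, hW⟩ : ∃ W, W = M.T.v * q j * M.T.v⁻¹ * (q j)⁻¹ := ⟨_, rfl⟩
  obtain ⟨w, hw⟩ : ∃ w, w = M.T.v * p k * M.T.v⁻¹ * (p k)⁻¹ := ⟨_, rfl⟩
  have hWP : W ∈ M.T.P' := hW ▸ M.T.vp_mem hqP
  have hwP : w ∈ M.T.P' := hw ▸ M.T.vp_mem hpP
  have hWph : M.T.ph W = eta (jx j) := by rw [hW, M.T.ph_vp hqP, Frame.cl, hqc]; exact (B_jx j j).2.2.2.2.1
  have hwph : M.T.ph w = eps (jx k) := by rw [hw, M.T.ph_vp hpP, Frame.cl, hpc]; exact (B_jx k k).2.2.2.1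
  have hclp : M.T.cl (p k) = eps (jx k) := by rw [Frame.cl, hpc]; exact (B_jx k k).2.2.2.1
  have hpW : p k * W = W * p k := by
    rw [M.T.comm_PP' hpP hWP, hclp, hWph, (B_jx k j).1, if_neg (Ne.symm hne), M.T.vv_zero, one_mul]
  have hwW : w * W = W * w := by
    rw [M.T.comm_P' hwP hWP, hwph, hWph, (B_jx k j).1, if_neg (Ne.symm hne), M.T.bp_zero, one_mul]
  have hpqj : p k * q j = q j * p k :=
    (M.T.S.commute_iff (hpF k) (hq j)).2 (by rw [hpc, hqc, (B_jx k j).1, if_neg (Ne.symm hne)])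
  have htW : t τ * W * (t τ)⁻¹ = w * W := by
    calc t τ * W * (t τ)⁻¹
        = (t τ * M.T.v * (t τ)⁻¹) * (t τ * q j * (t τ)⁻¹) * (t τ * M.T.v * (t τ)⁻¹)⁻¹ *
          (t τ * q j * (t τ)⁻¹)⁻¹ := by rw [hW]; group
      _ = M.T.v * (p k * q j) * M.T.v⁻¹ * (p k * q j)⁻¹ := by
        rw [hτ]
        have : t τ * M.T.v * (t τ)⁻¹ = M.T.v := by
          rw [mul_inv_eq_iff_eq_mul]; exact (mul_inv_eq_iff_eq_mul.1 (htv τ)).symm
        rw [this]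
      _ = (M.T.v * p k * M.T.v⁻¹ * (p k)⁻¹) * (p k * (M.T.v * q j * M.T.v⁻¹ * (q j)⁻¹)) * (p k)⁻¹ := by
        group
      _ = _ := by rw [← hw, ← hW, hpW]; group
  obtain ⟨a, a', haW⟩ : ∃ a a', M.T.u * W * M.T.u⁻¹ * W⁻¹ = M.T.vv a a' * q j := by
    have h : M.T.cl (M.T.u * W * M.T.u⁻¹ * W⁻¹) = M.T.cl (q j) := by
      show M.T.ph W = _
      rw [hWph, Frame.cl, hqc]; exact (B_jx j j).2.2.2.2.1.symm
    obtain ⟨a, a', e⟩ := M.T.cl_eq hqP (M.T.uw_mem hWP) h.symm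
    exact ⟨a, a', by rw [e, M.T.vv_comm (M.T.P_le_D hqP)]⟩
  obtain ⟨σ, σ', hσ⟩ : ∃ σ σ', M.T.u * w * M.T.u⁻¹ * w⁻¹ = M.T.vv σ σ' * p k := by
    have h : M.T.cl (M.T.u * w * M.T.u⁻¹ * w⁻¹) = M.T.cl (p k) := by
      show M.T.ph w = _
      rw [hwph, hclp]
    obtain ⟨a, a', e⟩ := M.T.cl_eq hpP (M.T.uw_mem hwP) h.symm
    exact ⟨a, a', by rw [e, M.T.vv_comm (M.T.P_le_D hpP)]⟩
  have huW : M.T.u * W * M.T.u⁻¹ = M.T.vv a a' * q j * W := by rw [← haW]; group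
  have huw : M.T.u * w * M.T.u⁻¹ = M.T.vv σ σ' * p k * w := by rw [← hσ]; group
  have hvv : ∀ {d : G}, d ∈ M.T.D → ∀ i i', d * M.T.vv i i' = M.T.vv i i' * d := fun hd => M.T.vv_comm hd
  have hut : M.T.u * t τ = t τ * M.T.u := mul_inv_eq_iff_eq_mul.1 (htu τ)
  have e1 : M.T.vv σ σ' * (p k * w) * (M.T.vv a a' * q j * W) = M.T.vv a a' * (p k * q j) * (w * W) := by
    calc M.T.vv σ σ' * (p k * w) * (M.T.vv a a' * q j * W)
        = M.T.u * (w * W) * M.T.u⁻¹ := by rw [← mul_assoc (M.T.vv σ σ'), ← huw, ← huW]; group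
      _ = (M.T.u * t τ) * W * (M.T.u * t τ)⁻¹ := by rw [← htW]; group
      _ = t τ * (M.T.u * W * M.T.u⁻¹) * (t τ)⁻¹ := by rw [hut]; group
      _ = (t τ * M.T.vv a a' * (t τ)⁻¹) * (t τ * q j * (t τ)⁻¹) * (t τ * W * (t τ)⁻¹) := by
        rw [huW]; group
      _ = _ := by rw [hτ, htW, hvv (M.A_le_D (htA τ)), mul_inv_cancel_right]
  have hqw : w * q j = q j * w := by
    have h := M.T.comm_PP' hqP hwP
    rw [hwph, show M.T.cl (q j) = eta (jx j) by rw [Frame.cl, hqc]; exact (B_jx j j).2.2.2.2.1, B_comm,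
      (B_jx k j).1, if_neg (Ne.symm hne), M.T.vv_zero, one_mul] at h
    exact h.symm
  have e2 : M.T.vv σ σ' * (p k * w) * (M.T.vv a a' * q j * W) =
      M.T.vv σ σ' * (M.T.vv a a' * (p k * q j) * (w * W)) := by
    calc M.T.vv σ σ' * (p k * w) * (M.T.vv a a' * q j * W)
        = M.T.vv σ σ' * ((p k * w) * M.T.vv a a') * q j * W := by group
      _ = M.T.vv σ σ' * M.T.vv a a' * p k * (w * q j) * W := by
        rw [hvv (mul_mem (M.T.P_le_D hpP) (M.T.P'_le_D hwP))]; group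
      _ = _ := by rw [hqw]; group
  have h0 : M.T.vv σ σ' = 1 := by
    have := e2.symm.trans e1
    exact mul_eq_right.1 this
  rw [← hw, huw, h0, one_mul]

end Cfsg.Agent.H41.CoLocal
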