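import Cfsg.Agent.H41.CoLocal.Elem
import Cfsg.Agent.H41.CoLocal.Levi
import Cfsg.Agent.H41.CoType.Separate

/-! The model of the conjugates of the central involution inside the subgroup of order `2^11`. -/

set_option autoImplicit false
set_option linter.unusedSimpArgs false
set_option linter.unusedSectionVars false

namespace Cfsg.Agent.H41.CoType.Frame

open Cfsg.Agent Cfsg.Agent.H41.CoType
open Cfsg.Agent.H18 (SingPt OrthPair)

variable {G : Type*} [Group G] [Finite G] (T : Frame G)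

/-- The element commutes with every element of `F` whose class it fixes. -/
def FixComm (t : G) : Prop := ∀ q ∈ T.S.F, T.S.co (t * q * t⁻¹) = T.S.co q → t * q = q * t

theorem fixComm_conj {t c : G} (ht : t ∈ T.S.C) (hc : c ∈ T.S.C) (h : T.FixComm t) :
    T.FixComm (c * t * c⁻¹) := by
  intro q hq e
  have hq' : c⁻¹ * q * c ∈ T.S.F := by simpa using T.S.norm (inv_mem hc) hq
  have hm : c * t * c⁻¹ * q * (c * t * c⁻¹)⁻¹ ∈ T.S.F :=
    T.S.norm (mul_mem (mul_mem hc ht) (inv_mem hc)) hq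
  have e' : T.S.co (t * (c⁻¹ * q * c) * t⁻¹) = T.S.co (c⁻¹ * q * c) := by
    have h1 := T.co_conj (inv_mem hc) hm
    have h2 := T.co_conj (inv_mem hc) hq
    rw [e, ← h2, inv_inv, show c⁻¹ * (c * t * c⁻¹ * q * (c * t * c⁻¹)⁻¹) * c =
      t * (c⁻¹ * q * c) * t⁻¹ by group] at h1
    exact h1
  have h3 := h _ hq' e'
  calc c * t * c⁻¹ * q = c * (t * (c⁻¹ * q * c)) * c⁻¹ := by group
    _ = q * (c * t * c⁻¹) := by rw [h3]; group

theorem fixComm_conj_iff {t c : G} (ht : t ∈ T.S.C) (hc : c ∈ T.S.C) :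
    T.FixComm (c * t * c⁻¹) ↔ T.FixComm t := by
  refine ⟨fun h => ?_, T.fixComm_conj ht hc⟩
  have h' := T.fixComm_conj (mul_mem (mul_mem hc ht) (inv_mem hc)) (inv_mem hc) h
  rwa [show c⁻¹ * (c * t * c⁻¹) * c⁻¹⁻¹ = t by group] at h'

theorem isPair_of_order_two {r : G} (hord : orderOf r = 2) {a c : F8} (h : T.IsCl r a c)
    (ha : a ≠ 0) (hc : c ≠ 0) (hac : a ≠ c) : IsPair (B8 a c) a c := by
  obtain ⟨hpa, hpc⟩ := T.isCl_pr h
  have h2 := T.sq_R h
  rw [mul_self_of_order_two hord, ← T.vv_zero] at h2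
  obtain ⟨e1, e2⟩ := T.vv_inj h2
  refine ⟨hpa, hpc, ?_, ?_, rfl, ha, hc, hac⟩
  · linear_combination -e1 - two0 (B8 a c)
  · linear_combination -e2 - two0 (B8 a c)

theorem isConj_z_of_P' {w : G} (hw : orderOf w = 2) (hwP : w ∈ T.P') : IsConj w T.z := by
  obtain ⟨q, hq, e⟩ := hwP.1
  have e' : T.g * q * T.g⁻¹ = w := e
  have hc : IsConj q w := isConj_iff.2 ⟨T.g, e'⟩
  refine hc.symm.trans (T.S.isConj_of_mem_F ?_ hq)
  have : q = T.g⁻¹ * w * T.g⁻¹⁻¹ := by rw [← e']; group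
  rw [this]; exact conj_involution hw _

/-- The involutions of the radical conjugate to the central one. -/
theorem isConj_z_iff_cl {r : G} (hord : orderOf r = 2) {a c : F8} (h : T.IsCl r a c) :
    IsConj r T.z ↔ a = 0 ∨ c = 0 ∨ a = c := by
  constructor
  · intro hconj
    by_contra hn
    push Not at hn
    obtain ⟨ha, hc, hac⟩ := hn
    have hk := T.isPair_of_order_two hord h ha hc hac
    obtain ⟨r₀, -, h₀⟩ := T.exists_isCl_of (sa_sc (B8 a c)).1 (sa_sc (B8 a c)).2.1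
    exact T.not_isConj_z h₀ ((T.isConj_of_pair h hk h₀ (sa_sc _)).symm.trans hconj)
  · rintro (rfl | rfl | rfl)
    · exact T.isConj_z_of_P' hord (T.isCl_zero_left h).1
    · exact T.S.isConj_of_mem_F hord (T.isCl_zero_right h).1.1
    · have h' := T.isCl_conj_u h
      rw [two8] at h'
      exact (isConj_conj T.u r).trans
        (T.isConj_z_of_P' (conj_involution hord _) (T.isCl_zero_left h').1)

theorem fixComm_of_zero {r : G} {c : F8} (h : T.IsCl r 0 c) (hc : c ≠ 0) : T.FixComm r := by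
  intro q hq e
  have hrD := T.R_le_D (T.isCl_mem h)
  have hfix : ap (T.im (T.D_le_C hrD)) (T.S.co q) = T.S.co q := by rw [← T.co_conj _ hq, e]
  have he : B8 (eps 0) (T.S.co q) = 0 := by
    refine (bit _).resolve_right fun e1 => hc ?_
    have hy : B8 (eps 0) (T.S.co q + eta 0) = 0 := by rw [B_add_right, e1]; decide +kernel
    have h1 := congrArg pr (T.im_R h hy)
    rw [ap_add, hfix, show T.S.co q + ap (T.im (T.D_le_C hrD)) (eta 0) + (T.S.co q + eta 0) =
      (T.S.co q + T.S.co q) + (ap (T.im (T.D_le_C hrD)) (eta 0) + eta 0) by abel, two8, zero_add,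
      pr_add, pr_eta, add_zero, T.im_R_eta h] at h1
    rw [h1]
    rcases bit (B8 (T.S.co q + eta 0) c) with e' | e' <;> simp [e', pr_zero, pr_eps]
  have hqP : q ∈ T.P := T.mem_P.2 ⟨hq, he⟩
  have hyc : B8 (T.S.co q) c = 0 := by
    have h1 := T.im_R h he
    rw [hfix, two8] at h1
    refine (bit _).resolve_right fun e' => ?_
    rw [e', one_smul] at h1
    exact absurd h1 (by decide +kernel)
  have h2 := T.comm_R h (T.isCl_P hqP)
  have hcl : B8 (T.cl q) c = 0 := by rw [cl, B_pr_flip he (T.isCl_pr h).2, B_comm, hyc]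
  simpa [B_zero_left, B_zero_right, hcl, T.vv_zero] using h2

theorem not_fixComm_pair {k : ZMod 2} {r : G} {a c : F8} (h : T.IsCl r a c) (hk : IsPair k a c) :
    ¬ T.FixComm r := by
  intro hf
  obtain ⟨ω, -, hωe, hωa, hωc⟩ := witt_pair hk
  obtain ⟨y0, hy0, hy0a, hy0c⟩ := exists_dual k 1 0
  obtain ⟨y, rfl⟩ := (ω : F8 ≃ₗ[ZMod 2] F8).surjective y0
  change pr (ap ω y) = ap ω y at hy0
  change B8 (ap ω y) _ = _ at hy0a hy0c
  rw [← hωa, ap_B] at hy0a
  rw [← hωc, ap_B] at hy0c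
  have hye : B8 (eps 0) y = 0 := by rw [← B_fix hωe, ← hy0, B_eps_pr]
  obtain ⟨q, hq, rfl⟩ := T.S.co_surj y
  have hqP : q ∈ T.P := T.mem_P.2 ⟨hq, hye⟩
  have h1 := T.im_R h hye
  rw [hy0c, zero_smul] at h1
  have h2 := hf q hq (by
    rw [T.co_conj (T.D_le_C (T.R_le_D (T.isCl_mem h))) hq]; exact eq_of_add8 h1)
  have h3 := T.comm_R h (T.isCl_P hqP)
  rw [h2, B_zero_right, B_zero_right] at h3
  obtain ⟨e1, -⟩ := T.vv_inj ((mul_eq_right.1 h3.symm).trans T.vv_zero.symm)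
  obtain ⟨hpa, hpc⟩ := T.isCl_pr h
  have k1 : B8 a (T.cl q) = 1 := by rw [B_comm, cl, B_pr_flip hye hpa, B_comm, hy0a]
  have k2 : B8 (T.cl q) c = 0 := by rw [cl, B_pr_flip hye hpc, B_comm, hy0c]
  rw [k1, k2] at e1
  simp at e1

/-- Inside the radical, outside `F`, the criterion decides conjugacy to the central involution. -/
theorem isConj_z_iff_fixComm {r : G} (hR : r ∈ T.R) (hF : r ∉ T.S.F) (hord : orderOf r = 2) :
    IsConj r T.z ↔ T.FixComm r := by
  obtain ⟨a, c, h⟩ := T.exists_isCl hR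
  have hc : c ≠ 0 := by
    rintro rfl
    exact hF (T.isCl_zero_right h).1.1
  rw [T.isConj_z_iff_cl hord h]
  constructor
  · rintro (rfl | hc0 | rfl)
    · exact T.fixComm_of_zero h hc
    · exact absurd hc0 hc
    · have h' := T.isCl_conj_u h
      rw [two8] at h'
      exact (T.fixComm_conj_iff (T.D_le_C (T.R_le_D hR)) (T.S.F_le_C T.hu)).1
        (T.fixComm_of_zero h' hc)
  · intro hf
    by_contra hn
    push Not at hn
    exact T.not_fixComm_pair h (T.isPair_of_order_two hord h hn.1 hc hn.2.2) hf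

/-- An involution with many fixed points is moved into the radical inside the centralizer of `z`. -/
theorem exists_C_conj_R {t : G} (ht2 : t * t = 1) (hC : t ∈ T.S.C) (hone : T.im hC ≠ 1)
    (hlarge : 16 < Set.ncard {x | ap (T.im hC) x = x}) : ∃ c ∈ T.S.C, c * t * c⁻¹ ∈ T.R := by
  have hinv : ∀ x, ap (T.im hC) (ap (T.im hC) x) = x := fun x => by
    rw [← ap_mul, ← T.im_mul]
    have : T.im (mul_mem hC hC) = 1 := (T.S.rho_eq_one _).2 (by rw [ht2]; exact one_mem _)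
    rw [this, ap_one]
  rcases involution_struct (show T.im hC ∈ Om from T.S.rho_mem hC) hinv hone with
    ⟨e, u, he0, heq, hu, hfe, hform⟩ | ⟨h16, -⟩
  · obtain ⟨ω, hω, hωe⟩ := witt_one he0 heq
    obtain ⟨c, hc, hρ⟩ := T.S.exists_rho hω
    refine ⟨c, hc, ?_⟩
    have hC1 : c * t * c⁻¹ ∈ T.S.C := mul_mem (mul_mem hc hC) (inv_mem hc)
    have hρc : T.im hc = ω := hρ
    have him : ∀ x, ap (T.im hC1) (ap ω x) = ap ω (ap (T.im hC) x) := fun x => by
      have e1 : T.im hC1 * T.im hc = T.im hc * T.im hC := by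
        rw [← T.im_mul, ← T.im_mul]; congr 1; group
      rw [← hρc, ← ap_mul, e1, ap_mul]
    obtain ⟨x, hx, hxu⟩ := T.S.co_surj (ap ω u)
    obtain ⟨t1, ht1⟩ : ∃ t1, t1 = c * t * c⁻¹ := ⟨_, rfl⟩
    have ht1s : t1 * t1 = 1 := by rw [ht1, conj_mul, ht2]; group
    have hC1' : t1 ∈ T.S.C := ht1 ▸ hC1
    obtain ⟨m, hm⟩ : ∃ m, m = x⁻¹ * (t1 * x * t1⁻¹) := ⟨_, rfl⟩
    have hmF : m ∈ T.S.F := hm ▸ mul_mem (inv_mem hx) (T.S.norm hC1' hx)
    have hmco : T.S.co m = eps 0 := by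
      rw [hm, T.S.co_mul _ (inv_mem hx) _ (T.S.norm hC1' hx), T.S.co_inv hx, T.co_conj hC1' hx,
        show T.im hC1' = T.im hC1 by subst ht1; rfl, hxu, him, ← ap_add, add_comm, hu, hωe]
    have hm2 : m * m = 1 := (T.S.sq_iff m hmF).2 (by rw [hmco]; decide +kernel)
    have hmc : t1 * m = m * t1 := by
      have ht1i : t1⁻¹ = t1 := inv_eq_of_mul_eq_one_right ht1s
      have h1 : t1 * m * t1 = m⁻¹ := by
        rw [hm, ht1i]
        calc t1 * (x⁻¹ * (t1 * x * t1)) * t1 = t1 * x⁻¹ * t1 * x * (t1 * t1) := by group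
          _ = (x⁻¹ * (t1⁻¹ * x * t1⁻¹))⁻¹ := by rw [ht1s]; group
          _ = _ := by rw [ht1i]
      calc t1 * m = t1 * m * (t1 * t1) := by rw [ht1s, mul_one]
        _ = (t1 * m * t1) * t1 := by group
        _ = m * t1 := by rw [h1, inv_eq_of_mul_eq_one_right hm2]
    obtain ⟨i, hi⟩ := T.S.exists_zp hmF T.b_mem (by rw [hmco, T.hb])
    have hD : c * t * c⁻¹ ∈ T.D := by
      rw [← ht1]
      refine T.mem_D.2 ⟨T.S.mem_C.1 hC1', ?_⟩
      rw [hi, ← mul_assoc, hmc, mul_assoc, T.S.zp_comm i (T.S.mem_C.1 hC1'), mul_assoc]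
    refine T.mem_R_of_trivial hD fun y hy => ?_
    obtain ⟨y', rfl⟩ := (ω : F8 ≃ₗ[ZMod 2] F8).surjective y
    change B8 (eps 0) (ap ω y') = 0 at hy
    rw [← hωe, ap_B] at hy
    show pr (ap (T.im hC1) (ap ω y')) = pr (ap ω y')
    rw [him]
    rcases hform y' hy with h | h
    · rw [eq_of_add8 h]
    · rw [show ap (T.im hC) y' = e + y' by rw [← h, add_assoc, two8, add_zero], ap_add, hωe, pr_add,
        pr_eps, zero_add]
  · omega

end Cfsg.Agent.H41.CoType.Frame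

namespace Cfsg.Agent.H41.CoLocal

open Cfsg.Agent Cfsg.Agent.H41.CoType
open Cfsg.Agent.H18 (SingPt OrthPair)

/-- A kernel vector of the skew matrix. -/
def kerVec (x : V11) : F8 := x 8 • eta 1 + x 9 • eta 2 + x 10 • eta 3

theorem lmul_kerVec (x : V11) (h : x 5 * x 8 + x 6 * x 9 + x 7 * x 10 = 0) :
    lmul (skew x) (kerVec x) = 0 := by
  funext j
  rcases j with i | i
  · fin_cases i <;> simp [lmul, skew, kerVec, eta, Fin.sum_univ_four, Pi.single_apply]
    · linear_combination h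
    · linear_combination two0 (x 9 * x 10)
    · linear_combination two0 (x 8 * x 10)
    · linear_combination two0 (x 8 * x 9)
  · simp [lmul]

theorem combL_eq_zero : ∀ a b c : ZMod 2,
    a • eps (jx 0) + b • eps (jx 1) + c • eps (jx 2) = (0 : F8) ↔ a = 0 ∧ b = 0 ∧ c = 0 := by
  decide +kernel

theorem combL_add (a b c a' b' c' : ZMod 2) :
    (a • eps (jx 0) + b • eps (jx 1) + c • eps (jx 2) : F8) +
      (a' • eps (jx 0) + b' • eps (jx 1) + c' • eps (jx 2)) =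
      (a + a') • eps (jx 0) + (b + b') • eps (jx 1) + (c + c') • eps (jx 2) := by
  simp only [add_smul]; abel

namespace Coord

variable {G : Type*} [Group G] [Finite G] {M : Loc G} (C : Coord M)

theorem orderOf_el {x : V11} (h : x ≠ 0) : orderOf (C.el x) = 2 :=
  orderOf_eq_prime (by rw [pow_two, C.el_sq]) fun e => h (C.el_eq_one e)

theorem el_mem_C (x : V11) : C.el x ∈ M.T.S.C := M.T.D_le_C (M.A_le_D (C.el_mem x))

theorem isCl_el {x : V11} (h8 : x 8 = 0) (h9 : x 9 = 0) (h10 : x 10 = 0) :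
    M.T.IsCl (C.el x) (x 2 • eps (jx 0) + x 3 • eps (jx 1) + x 4 • eps (jx 2))
      (x 5 • eps (jx 0) + x 6 • eps (jx 1) + x 7 • eps (jx 2)) := by
  have hcl : ∀ {g : G} {a c : F8}, M.T.IsCl g a c → ∀ e : ZMod 2, M.T.IsCl (g ^ e.val) (e • a) (e • c) := by
    intro g a c hg e
    rcases bit e with rfl | rfl
    · rw [pow_val_zero, zero_smul, zero_smul, ← M.T.vv_zero]; exact M.T.isCl_vv 0 0
    · rwa [pow_val_one, one_smul, one_smul]
  have h := M.T.isCl_mul (M.T.isCl_mul (M.T.isCl_vv (x 0) (x 1))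
    (M.T.isCl_mul (M.T.isCl_mul (hcl (C.p_isCl 0) (x 2)) (hcl (C.p_isCl 1) (x 3))) (hcl (C.p_isCl 2) (x 4))))
    (M.T.isCl_mul (M.T.isCl_mul (hcl (C.w_isCl 0) (x 5)) (hcl (C.w_isCl 1) (x 6))) (hcl (C.w_isCl 2) (x 7)))
  simpa [el_def, h8, h9, h10] using h

theorem oct_radical {x : V11} (h0 : x ≠ 0) (h8 : x 8 = 0) (h9 : x 9 = 0) (h10 : x 10 = 0) :
    ((x 2 = 0 ∧ x 3 = 0 ∧ x 4 = 0) ∨ (x 5 = 0 ∧ x 6 = 0 ∧ x 7 = 0) ∨
      (x 2 = x 5 ∧ x 3 = x 6 ∧ x 4 = x 7)) ↔ IsConj M.T.z (C.el x) := by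
  rw [isConj_comm, M.T.isConj_z_iff_cl (C.orderOf_el h0) (C.isCl_el h8 h9 h10), ← combL_eq_zero,
    ← combL_eq_zero]
  refine or_congr Iff.rfl (or_congr Iff.rfl ⟨fun ⟨a, b, c⟩ => by rw [a, b, c], fun e => ?_⟩)
  have e' : (x 2 • eps (jx 0) + x 3 • eps (jx 1) + x 4 • eps (jx 2) : F8) +
      (x 5 • eps (jx 0) + x 6 • eps (jx 1) + x 7 • eps (jx 2)) = 0 := by rw [e]; exact two8 _
  rw [combL_add, combL_eq_zero] at e'
  have key : ∀ a b : ZMod 2, a + b = 0 → a = b := by decide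
  exact ⟨(key _ _ e'.1), (key _ _ e'.2.1), (key _ _ e'.2.2)⟩

theorem co_qy (y : Y4) : M.T.S.co (C.qy y) =
    y.1 • eta 0 + y.2.1 • eta (jx 0) + y.2.2.1 • eta (jx 1) + y.2.2.2 • eta (jx 2) := by
  have hp : ∀ {g : G}, g ∈ M.T.S.F → ∀ e : ZMod 2, g ^ e.val ∈ M.T.S.F ∧
      M.T.S.co (g ^ e.val) = e • M.T.S.co g := fun {g} hg e => by
    rcases bit e with rfl | rfl
    · rw [pow_val_zero, zero_smul]; exact ⟨one_mem _, M.T.S.co_one⟩
    · rw [pow_val_one, one_smul]; exact ⟨hg, rfl⟩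
  rw [qy, M.T.S.co_mul _ (mul_mem (mul_mem (hp M.T.hu _).1 (hp (C.q_mem 0) _).1) (hp (C.q_mem 1) _).1) _
      (hp (C.q_mem 2) _).1,
    M.T.S.co_mul _ (mul_mem (hp M.T.hu _).1 (hp (C.q_mem 0) _).1) _ (hp (C.q_mem 1) _).1,
    M.T.S.co_mul _ (hp M.T.hu _).1 _ (hp (C.q_mem 0) _).1, (hp M.T.hu _).2, (hp (C.q_mem 0) _).2,
    (hp (C.q_mem 1) _).2, (hp (C.q_mem 2) _).2, M.T.hcu, C.q_co, C.q_co, C.q_co]

/-- Every element of `F` is an element of the singular part times a translation. -/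
theorem exists_emb_qy {q : G} (hq : q ∈ M.T.S.F) : ∃ l y, q = C.el (emb l) * C.qy y := by
  obtain ⟨y, hy⟩ : ∃ y : Y4, y = (M.T.S.co q (.inr 0), M.T.S.co q (.inr 1), M.T.S.co q (.inr 2),
      M.T.S.co q (.inr 3)) := ⟨_, rfl⟩
  have hL : q * (C.qy y)⁻¹ ∈ M.Lt := by
    refine ⟨mul_mem hq (inv_mem (C.qy_mem y)), fun i => ?_⟩
    rw [M.T.S.co_mul _ hq _ (inv_mem (C.qy_mem y)), M.T.S.co_inv (C.qy_mem y), co_qy, hy]
    fin_cases i <;> simp [jx, eta, Pi.single_apply, two0]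
  obtain ⟨l, hl⟩ := C.el_emb_surj hL
  exact ⟨l, y, by rw [hl, inv_mul_cancel_right]⟩

theorem octSmall_iff_fixComm (x : V11) : octSmall x = true ↔ M.T.FixComm (C.el x) := by
  rw [octSmall, decide_eq_true_iff]
  constructor
  · intro h q hq e
    obtain ⟨l, y, rfl⟩ := C.exists_emb_qy hq
    have hE := C.el_comm (C.el_mem x) (emb l)
    have e1 : C.el x * (C.el (emb l) * C.qy y) * (C.el x)⁻¹ =
        C.el (emb l) * (C.el x * C.qy y * (C.el x)⁻¹) := by
      rw [← mul_assoc (C.el x), hE]; group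
    have hm := M.T.S.norm (C.el_mem_C x) (C.qy_mem y)
    rw [e1, M.T.S.co_mul _ (C.el_emb_mem l).1 _ hm, M.T.S.co_mul _ (C.el_emb_mem l).1 _ (C.qy_mem y)] at e
    have hd : disp x y = 0 := by
      by_contra hd
      exact C.el_qy_co x y hd (add_left_cancel e)
    rw [C.el_qy_fix x y hd, h y hd, Setting.zp_zero, one_mul] at e1
    exact mul_inv_eq_iff_eq_mul.1 e1
  · intro h y hd
    have e := C.el_qy_fix x y hd
    have hco : M.T.S.co (C.el x * C.qy y * (C.el x)⁻¹) = M.T.S.co (C.qy y) := by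
      rw [e, M.T.S.co_mul _ (M.T.S.zp_mem _) _ (C.qy_mem y), M.T.S.co_zp, zero_add]
    rw [h _ (C.qy_mem y) hco, mul_inv_cancel_right, eq_comm, mul_eq_right] at e
    exact M.T.S.zp_eq_one.1 e

theorem fixed_large {x : V11} (hd : ¬(x 8 = 0 ∧ x 9 = 0 ∧ x 10 = 0))
    (hcd : x 5 * x 8 + x 6 * x 9 + x 7 * x 10 = 0) :
    16 < Set.ncard {v | ap (M.T.im (C.el_mem_C x)) v = v} := by
  obtain ⟨hC, hdisp⟩ := Loc.el_disp C x
  have hfix : ∀ v, lmul (skew x) v = 0 → ap (M.T.im (C.el_mem_C x)) v = v := fun v hv =>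
    eq_of_add8 ((hdisp v).trans hv)
  have h16 : Set.ncard {v : F8 | ∀ i, v (.inr i) = 0} = 16 := by
    rw [Set.ncard_eq_toFinset_card']; decide +kernel
  have hk : kerVec x ∉ {v : F8 | ∀ i, v (.inr i) = 0} := by
    intro h
    refine hd ⟨?_, ?_, ?_⟩
    · simpa [kerVec, eta, Pi.single_apply] using h 1
    · simpa [kerVec, eta, Pi.single_apply] using h 2
    · simpa [kerVec, eta, Pi.single_apply] using h 3
  have hsub : insert (kerVec x) {v : F8 | ∀ i, v (.inr i) = 0} ⊆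
      {v | ap (M.T.im (C.el_mem_C x)) v = v} := by
    rintro v (rfl | hv)
    · exact hfix _ (lmul_kerVec x hcd)
    · refine hfix v ?_
      funext j
      rcases j with i | i <;> simp [lmul, show ∀ k, v (.inr k) = 0 from hv]
  have := Set.ncard_le_ncard hsub (Set.toFinite _)
  rw [Set.ncard_insert_of_notMem hk (Set.toFinite _), h16] at this
  omega

theorem octSmall_iff {x : V11} (hd : ¬(x 8 = 0 ∧ x 9 = 0 ∧ x 10 = 0))
    (hcd : x 5 * x 8 + x 6 * x 9 + x 7 * x 10 = 0) :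
    octSmall x = true ↔ IsConj M.T.z (C.el x) := by
  have hR : C.el x ∉ M.T.R := fun h => hd ((C.el_mem_R_iff x).1 h)
  have hF : C.el x ∉ M.T.S.F := fun h => hR (M.T.P_le_R (M.Lt_le_P (M.A_inter_F (C.el_mem x) h)))
  obtain ⟨c, hc, hcR⟩ := M.T.exists_C_conj_R (C.el_sq x) (C.el_mem_C x)
    (fun e => hF ((M.T.S.rho_eq_one (C.el_mem_C x)).1 e)) (C.fixed_large hd hcd)
  have hcF : c * C.el x * c⁻¹ ∉ M.T.S.F := fun h => hF (by
    simpa [mul_assoc] using M.T.S.norm (inv_mem hc) h)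
  have hx0 : x ≠ 0 := fun e => hd (by simp [e])
  have hord := conj_involution (C.orderOf_el hx0) c
  rw [C.octSmall_iff_fixComm, ← M.T.fixComm_conj_iff (C.el_mem_C x) hc,
    ← M.T.isConj_z_iff_fixComm hcR hcF hord]
  exact ⟨fun h => h.symm.trans (isConj_conj c _).symm, fun h => (isConj_conj c _).symm.trans h.symm⟩

end Coord

variable {G : Type*} [Group G] [Finite G] {M : Loc G}

theorem isConj_z_vMap (C : Coord M) (x : V11) :
    IsConj M.T.z (C.el (vMap x)) ↔ IsConj M.T.z (C.el x) := by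
  rw [C.el_vMap]
  exact ⟨fun h => h.trans (isConj_conj _ _).symm, fun h => h.trans (isConj_conj _ _)⟩

theorem isConj_z_uMap (C : Coord M) (x : V11) :
    IsConj M.T.z (C.el (uMap x)) ↔ IsConj M.T.z (C.el x) := by
  rw [C.el_uMap]
  exact ⟨fun h => h.trans (isConj_conj _ _).symm, fun h => h.trans (isConj_conj _ _)⟩

/-- The model describes the conjugates of the central involution. -/
theorem oct_iff (C : Coord M) (x : V11) : oct x = true ↔ IsConj M.T.z (C.el x) := by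
  rcases eq_or_ne x 0 with rfl | h0
  · simp only [oct, if_true, Bool.false_eq_true, false_iff, C.el_zero]
    intro h
    obtain ⟨g, hg⟩ := isConj_iff.1 h
    exact M.T.S.pt.xne (conj_eq_one_iff.1 hg)
  by_cases hd : x 8 = 0 ∧ x 9 = 0 ∧ x 10 = 0
  · simp only [oct, if_neg h0, if_pos hd, decide_eq_true_iff]
    exact C.oct_radical h0 hd.1 hd.2.1 hd.2.2
  simp only [oct, if_neg h0, if_neg hd]
  rcases bit (x 5 * x 8 + x 6 * x 9 + x 7 * x 10) with hcd | hcd
  · rw [if_neg (by rw [hcd]; exact zero_ne_one)]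
    exact C.octSmall_iff hd hcd
  rw [if_pos hcd]
  rcases bit (x 2 * x 8 + x 3 * x 9 + x 4 * x 10) with had | had
  · rw [if_neg (by rw [had]; exact zero_ne_one), C.octSmall_iff ?_ ?_, isConj_z_vMap, isConj_z_uMap]
    · simpa [vMap, uMap] using hd
    · simp [vMap, uMap]
      linear_combination had + two0 (x 5 * x 8 + x 6 * x 9 + x 7 * x 10)
  · rw [if_pos had, C.octSmall_iff ?_ ?_, isConj_z_vMap]
    · simpa [vMap] using hd
    · simp [vMap]
      linear_combination hcd + had + two0 (1 : ZMod 2)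

end Cfsg.Agent.H41.CoLocal
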