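import Cfsg.Agent.H41.CoLocal.Elem
import Cfsg.Agent.H19.Gaschutz

/-! A complement of the subgroup of order `2^11` in its normalizer. -/

set_option autoImplicit false
set_option linter.unusedSimpArgs false
set_option linter.unusedSectionVars false
set_option maxHeartbeats 400000

namespace Cfsg.Agent.H41.CoLocal.Split

open Cfsg.Agent Cfsg.Agent.H41.CoType
open Cfsg.Agent.H18 (SingPt OrthPair subgroupOfMulClosed)
open scoped IsMulCommutative commutatorElement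

section tools

variable {G : Type*} [Group G] [Finite G]

theorem mem_normalizer_of_maps {H : Subgroup G} {g : G} (h : ∀ x ∈ H, g * x * g⁻¹ ∈ H) :
    g ∈ Subgroup.normalizer (H : Set G) := by
  refine Subgroup.mem_normalizer_iff.2 fun x => ⟨h x, fun hx => ?_⟩
  let f : H → H := fun y => ⟨g * y * g⁻¹, h y y.2⟩
  have hf : Function.Injective f := fun y y' e =>
    Subtype.ext (mul_left_cancel (mul_right_cancel (congrArg Subtype.val e)))
  obtain ⟨y, hy⟩ := (Finite.injective_iff_surjective.1 hf) ⟨_, hx⟩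
  have e : g * (y : G) * g⁻¹ = g * x * g⁻¹ := congrArg Subtype.val hy
  rw [← mul_left_cancel (mul_right_cancel e)]
  exact y.2

/-- A product of two subgroups, the second normalizing the first. -/
def prodSub (H K : Subgroup G) (h : ∀ k ∈ K, ∀ x ∈ H, k * x * k⁻¹ ∈ H) : Subgroup G :=
  subgroupOfMulClosed {g | ∃ x ∈ H, ∃ k ∈ K, g = x * k}
    ⟨1, one_mem _, 1, one_mem _, (mul_one 1).symm⟩
    (by
      rintro _ ⟨x, hx, k, hk, rfl⟩ _ ⟨x', hx', k', hk', rfl⟩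
      exact ⟨x * (k * x' * k⁻¹), mul_mem hx (h k hk x' hx'), k * k', mul_mem hk hk', by group⟩)

theorem mem_prodSub {H K : Subgroup G} {h : ∀ k ∈ K, ∀ x ∈ H, k * x * k⁻¹ ∈ H} {g : G} :
    g ∈ prodSub H K h ↔ ∃ x ∈ H, ∃ k ∈ K, g = x * k := Iff.rfl

theorem card_prodSub {H K : Subgroup G} (h : ∀ k ∈ K, ∀ x ∈ H, k * x * k⁻¹ ∈ H)
    (hd : ∀ x ∈ H, x ∈ K → x = 1) :
    Nat.card (prodSub H K h) = Nat.card H * Nat.card K := by
  rw [← Nat.card_prod]
  refine (Nat.card_congr (Equiv.ofBijective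
    (fun p : H × K => (⟨p.1 * p.2, p.1, p.1.2, p.2, p.2.2, rfl⟩ : prodSub H K h))
    ⟨fun p p' e => ?_, fun g => ?_⟩)).symm
  · have e' : (p.1 : G) * p.2 = p'.1 * p'.2 := congrArg Subtype.val e
    have e2 : (p'.1 : G)⁻¹ * p.1 = p'.2 * (p.2 : G)⁻¹ := by
      rw [eq_mul_inv_iff_mul_eq, mul_assoc, e', inv_mul_cancel_left]
    have h1 := hd _ (mul_mem (inv_mem p'.1.2) p.1.2) (e2 ▸ mul_mem p'.2.2 (inv_mem p.2.2))
    have h2 : p.1 = p'.1 := Subtype.ext (inv_mul_eq_one.1 h1).symm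
    rw [h2] at e'
    exact Prod.ext h2 (Subtype.ext (mul_left_cancel e'))
  · obtain ⟨x, hx, k, hk, e⟩ := g.2
    exact ⟨(⟨x, hx⟩, ⟨k, hk⟩), Subtype.ext e.symm⟩

theorem pow_val_add {x : G} (hx : x * x = 1) (a c : ZMod 2) :
    x ^ (a + c).val = x ^ a.val * x ^ c.val := by
  rcases bit a with rfl | rfl <;> rcases bit c with rfl | rfl
  · simp
  · simp
  · simp
  · rw [two0, ZMod.val_zero, pow_zero, show (1 : ZMod 2).val = 1 from rfl, pow_one, hx]

theorem pow_val_mem {H : Subgroup G} {x : G} (a : ZMod 2) (hx : x ∈ H) : x ^ a.val ∈ H :=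
  pow_mem hx _

end tools

/-- Three bits. -/
abbrev V3 := Fin 3 → ZMod 2

/-- The combination of the three translations. -/
def etaC (a : V3) : F8 := a 0 • eta 1 + a 1 • eta 2 + a 2 • eta 3

theorem etaC_add (a c : V3) : etaC (a + c) = etaC a + etaC c := by
  simp only [etaC, Pi.add_apply, add_smul]; abel

theorem etaC_pr : ∀ a : V3, pr (etaC a) = etaC a := by decide +kernel

theorem etaC_B0 : ∀ a : V3, B8 (eps 0) (etaC a) = 0 ∧ B8 (eta 0) (etaC a) = 0 ∧ q8 (etaC a) = 0 := by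
  decide +kernel

theorem etaC_B : ∀ a c : V3, B8 (etaC a) (etaC c) = 0 := by decide +kernel

theorem etaC_inr : ∀ a : V3,
    etaC a (.inr 1) = a 0 ∧ etaC a (.inr 2) = a 1 ∧ etaC a (.inr 3) = a 2 := by decide +kernel

theorem etaC_eq_zero {a : V3} (h : InL (etaC a)) : a = 0 := by
  funext k
  obtain ⟨h1, h2, h3⟩ := etaC_inr a
  fin_cases k
  · exact h1.symm.trans (h 1)
  · exact h2.symm.trans (h 2)
  · exact h3.symm.trans (h 3)

/-- The exchange of the vectors in the pairs `j` and `3`. -/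
def sw (j : Fin 4) (x : F8) : F8 :=
  permV (Equiv.swap j 3) (swap3 (permV (Equiv.swap j 3) (swap3 x)))

/-- The exchange of the vectors in the pairs `1` and `2`. -/
def sw12 (x : F8) : F8 := sw 1 (sw 2 x)

theorem exists_sw (j : Fin 4) : ∃ ω : O8, ω ∈ Om ∧ ∀ x, ap ω x = sw j x := by
  obtain ⟨s, hs⟩ := exists_swapO
  obtain ⟨π, hπ⟩ := exists_permO (Equiv.swap j 3)
  have hss : s * s = 1 := ap_ext fun x => by rw [ap_mul, hs, hs, swap3_swap3, ap_one]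
  have hππ : π * π = 1 := ap_ext fun x => by
    rw [ap_mul, hπ, hπ, ap_one]
    funext i
    rcases i with i | i <;> simp [permV]
  refine ⟨π * s * π * s, ?_, fun x => by rw [ap_mul, ap_mul, ap_mul, hs, hπ, hs, hπ]; rfl⟩
  have : π * s * π * s = ⁅π, s⁆ := by
    rw [commutatorElement_def, inv_eq_of_mul_eq_one_right hππ, inv_eq_of_mul_eq_one_right hss]
  rw [this]
  exact Subgroup.commutator_mem_commutator (Subgroup.mem_top π) (Subgroup.mem_top s)

theorem exists_sw12 : ∃ ω : O8, ω ∈ Om ∧ ∀ x, ap ω x = sw12 x := by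
  obtain ⟨ω, hω, e⟩ := exists_sw 1
  obtain ⟨ω', hω', e'⟩ := exists_sw 2
  exact ⟨ω * ω', mul_mem hω hω', fun x => by rw [ap_mul, e', e]; rfl⟩

/-- The action of a unitriangular element on the last three pairs. -/
def mw (w : V3) (x : F8) : F8 := fun j =>
  match j with
  | .inl i =>
    if i = 2 then x (.inl 2) + w 0 * x (.inl 1)
    else if i = 3 then x (.inl 3) + w 2 * x (.inl 2) + (w 1 + w 0 * w 2) * x (.inl 1)
    else x (.inl i)
  | .inr i =>
    if i = 1 then x (.inr 1) + w 0 * x (.inr 2) + w 1 * x (.inr 3)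
    else if i = 2 then x (.inr 2) + w 2 * x (.inr 3)
    else x (.inr i)

/-- The first generator. -/
abbrev wA : V3 := ![1, 0, 0]

/-- The second generator. -/
abbrev wB : V3 := ![0, 0, 1]

/-- The product of two unitriangular elements. -/
def mulW (w w' : V3) : V3 := ![w 0 + w' 0, w 1 + w' 1 + w 0 * w' 2, w 2 + w' 2]

theorem mul_table : ∀ w w' : V3, ∀ j : Fin 4 ⊕ Fin 4,
    mw w (mw w' (Pi.single j 1)) = mw (mulW w w') (Pi.single j 1) := by decide +kernel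

theorem mw_eps_inj : ∀ w : V3, (∀ i, pr (mw w (eps i)) = pr (eps i)) → w = 0 := by decide +kernel

theorem mw_eps_perp : ∀ w : V3, ∀ i, B8 (eps 0) (mw w (eps i)) = 0 := by decide +kernel

theorem mw_inj : ∀ w w' : V3, (∀ i, mw w (eps i) = mw w' (eps i)) → w = w' := by decide +kernel

theorem basis_ext {ω ω' : O8} (h : ∀ j, ap ω (Pi.single j 1) = ap ω' (Pi.single j 1)) : ω = ω' := by
  refine Subtype.ext ((Pi.basisFun (ZMod 2) (Fin 4 ⊕ Fin 4)).ext' fun j => ?_)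
  rw [Pi.basisFun_apply]
  exact h j

variable {G : Type*} [Group G] [Finite G] {M : Loc G}

variable (M) in
/-- The centralizer of the four-group and the two exchanging elements. -/
abbrev KK : Subgroup G :=
  M.T.D ⊓ (Subgroup.centralizer ({M.T.u} : Set G) ⊓ Subgroup.centralizer ({M.T.v} : Set G))

theorem mem_KK {g : G} : g ∈ KK M ↔
    g ∈ M.T.D ∧ g * M.T.u = M.T.u * g ∧ g * M.T.v = M.T.v * g := by
  simp only [KK, Subgroup.mem_inf, Subgroup.mem_centralizer_singleton_iff]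

variable (M) in
/-- An element of `C` inducing a given map. -/
def Im (g : G) (f : F8 → F8) : Prop := ∃ h : g ∈ M.T.S.C, ∀ y, ap (M.T.im h) y = f y

theorem Im.mul {g g' : G} {f f' : F8 → F8} (h : Im M g f) (h' : Im M g' f') :
    Im M (g * g') (fun y => f (f' y)) := by
  obtain ⟨hg, e⟩ := h
  obtain ⟨hg', e'⟩ := h'
  exact ⟨mul_mem hg hg', fun y => by rw [M.T.im_mul hg hg', ap_mul, e', e]⟩

theorem Im.one : Im M 1 id := by
  refine ⟨one_mem _, fun y => ?_⟩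
  rw [show M.T.im (one_mem M.T.S.C) = 1 from map_one M.T.S.ρ, ap_one]
  rfl

theorem Im.congr {g : G} {f f' : F8 → F8} (h : Im M g f) (e : ∀ y, f y = f' y) : Im M g f' :=
  ⟨h.choose, fun y => by rw [h.choose_spec, e]⟩

theorem im_F {x : G} (hx : x ∈ M.T.S.F) : Im M x id :=
  ⟨M.T.S.F_le_C hx, fun y => by
    rw [show M.T.im (M.T.S.F_le_C hx) = 1 from (M.T.S.rho_eq_one _).2 hx, ap_one]; rfl⟩

theorem norm_of_stab {g : G} {f : F8 → F8} (h : Im M g f) (hs : ∀ y, InL y → InL (f y)) :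
    g ∈ Subgroup.normalizer (M.A : Set G) := by
  obtain ⟨hg, e⟩ := h
  exact mem_normalizer_of_maps fun a ha => M.conj_A hg (fun y hy => by rw [e]; exact hs y hy) ha

theorem KK_eq_one {g : G} (hg : g ∈ KK M) (h : Im M g id) : g = 1 := by
  obtain ⟨hgC, e⟩ := h
  obtain ⟨hgD, hu, hv⟩ := mem_KK.1 hg
  have hF : g ∈ M.T.S.F := (M.T.S.rho_eq_one hgC).1 (ap_ext fun y => by
    rw [ap_one]; exact e y)
  have hP : g ∈ M.T.P := ⟨hF, Subgroup.mem_centralizer_singleton_iff.2 (M.T.mem_D.1 hgD).2⟩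
  have hu' : M.T.u * g * M.T.u⁻¹ = g := by rw [← hu, mul_inv_cancel_right]
  have hv' : M.T.v * g * M.T.v⁻¹ = g := by rw [← hv, mul_inv_cancel_right]
  have h1 := M.T.isCl_P hP
  have h2 := M.T.isCl_conj_v h1
  rw [hv'] at h2
  have h3 : M.T.cl g = 0 := by
    have := (M.T.isCl_uniq h2 h1).2
    rwa [add_zero] at this
  rw [h3] at h1
  obtain ⟨i, j, hij⟩ := M.T.isCl_eq (M.T.isCl_vv 0 0) h1
  rw [M.T.vv_zero, mul_one] at hij
  rw [hij, M.T.u_vv] at hu'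
  have hj : j = 0 := by
    have := (M.T.vv_inj hu').1
    linear_combination this
  rw [hij, M.T.v_vv] at hv'
  have hi : i = 0 := by
    have := (M.T.vv_inj hv').2
    linear_combination this
  rw [hij, hi, hj, M.T.vv_zero]

theorem KK_ext {g g' : G} (hg : g ∈ KK M) (hg' : g' ∈ KK M) {f f' : F8 → F8}
    (h : Im M g f) (h' : Im M g' f')
    (e : ∀ j, f (Pi.single j 1) = f' (Pi.single j 1)) : g = g' := by
  obtain ⟨hgC, eg⟩ := h
  obtain ⟨hgC', eg'⟩ := h'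
  have hω : M.T.im hgC = M.T.im hgC' := basis_ext fun j => by rw [eg, eg', e]
  suffices hh : g * g'⁻¹ = 1 by rwa [mul_inv_eq_one] at hh
  refine KK_eq_one (mul_mem hg (inv_mem hg')) ⟨mul_mem hgC (inv_mem hgC'), fun y => ?_⟩
  rw [M.T.im_mul hgC (inv_mem hgC'),
    show M.T.im (inv_mem hgC') = (M.T.im hgC')⁻¹ from map_inv M.T.S.ρ ⟨g', hgC'⟩,
    hω, mul_inv_cancel, ap_one]
  rfl

/-- Every admissible isometry has a lift commuting with the exchanging elements. -/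
theorem exists_KK {ω : O8} (hω : ω ∈ Om) (he : ap ω (eps 0) = eps 0)
    (hn : ap ω (eta 0) = eta 0) : ∃ c, c ∈ KK M ∧ Im M c (ap ω) := by
  obtain ⟨d, hd, him⟩ := M.T.exists_D hω he
  obtain ⟨φ, hφ⟩ : ∃ φ, φ = M.T.u * d * M.T.u⁻¹ * d⁻¹ := ⟨_, rfl⟩
  obtain ⟨ψ, hψ⟩ : ∃ ψ, ψ = M.T.v * d * M.T.v⁻¹ * d⁻¹ := ⟨_, rfl⟩
  have hφP : φ ∈ M.T.P := by
    refine ⟨?_, Subgroup.mem_centralizer_singleton_iff.2 (M.T.mem_D.1 ?_).2⟩
    · rw [hφ, show M.T.u * d * M.T.u⁻¹ * d⁻¹ = M.T.u * (d * M.T.u⁻¹ * d⁻¹) by group]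
      exact mul_mem M.T.hu (M.T.S.norm (M.T.D_le_C hd) (inv_mem M.T.hu))
    · rw [hφ]
      exact mul_mem (M.T.o.conj_CV (M.T.o.X_le_normalizer M.T.u_mem_X) hd) (inv_mem hd)
  have hψP : ψ ∈ M.T.P' := by
    refine ⟨?_, Subgroup.mem_centralizer_singleton_iff.2 (M.T.mem_D.1 ?_).1⟩
    · rw [hψ, show M.T.v * d * M.T.v⁻¹ * d⁻¹ = M.T.v * (d * M.T.v⁻¹ * d⁻¹) by group]
      exact mul_mem M.T.hv (M.T.o.CV_norm_F' hd (inv_mem M.T.hv))
    · rw [hψ]
      exact mul_mem (M.T.o.conj_CV (M.T.o.X_le_normalizer M.T.v_mem_X) hd) (inv_mem hd)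
  obtain ⟨r, -, hr⟩ := M.T.exists_isCl_of (a := M.T.ph ψ) (c := M.T.cl φ) (M.T.ph_pr _) (M.T.cl_pr _)
  obtain ⟨i, j, hu1⟩ : ∃ i j, M.T.u * (r * d) * M.T.u⁻¹ = M.T.vv i j * (r * d) := by
    have h := M.T.isCl_mul (M.T.isCl_mul (M.T.isCl_conj_u hr) (M.T.isCl_P hφP)) (M.T.isCl_inv hr)
    rw [add_zero, show M.T.ph ψ + M.T.cl φ + M.T.cl φ + M.T.ph ψ = 0 by
      rw [add_assoc (M.T.ph ψ), two8, add_zero, two8], two8] at h
    obtain ⟨i, j, e⟩ := M.T.isCl_eq (M.T.isCl_vv 0 0) h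
    refine ⟨i, j, ?_⟩
    rw [M.T.vv_zero, mul_one] at e
    rw [← e, hφ]; group
  obtain ⟨k, l, hv1⟩ : ∃ k l, M.T.v * (r * d) * M.T.v⁻¹ = M.T.vv k l * (r * d) := by
    have h := M.T.isCl_mul (M.T.isCl_mul (M.T.isCl_conj_v hr) (M.T.isCl_P' hψP)) (M.T.isCl_inv hr)
    rw [add_zero, two8, show M.T.ph ψ + M.T.cl φ + M.T.ph ψ + M.T.cl φ = 0 by
      rw [add_assoc (M.T.ph ψ + M.T.cl φ), two8]] at h
    obtain ⟨k, l, e⟩ := M.T.isCl_eq (M.T.isCl_vv 0 0) h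
    refine ⟨k, l, ?_⟩
    rw [M.T.vv_zero, mul_one] at e
    rw [← e, hψ]; group
  obtain ⟨d1, hd1⟩ : ∃ d1, d1 = r * d := ⟨_, rfl⟩
  rw [← hd1] at hu1 hv1
  have hd1D : d1 ∈ M.T.D := hd1 ▸ mul_mem (M.T.R_le_D (M.T.isCl_mem hr)) hd
  have hj : j = 0 := by
    have e : d1 = M.T.vv (i + j) j * (M.T.vv i j * d1) := by
      calc d1 = (M.T.u * M.T.u) * d1 * (M.T.u * M.T.u)⁻¹ := by rw [M.T.uu]; group
        _ = M.T.u * (M.T.u * d1 * M.T.u⁻¹) * M.T.u⁻¹ := by group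
        _ = M.T.u * (M.T.vv i j * d1) * M.T.u⁻¹ := by rw [hu1]
        _ = M.T.u * M.T.vv i j * M.T.u⁻¹ * (M.T.u * d1 * M.T.u⁻¹) := by group
        _ = _ := by rw [M.T.u_vv, hu1]
    rw [← mul_assoc, eq_comm, mul_eq_right, M.T.vv_mul, ← M.T.vv_zero] at e
    have := (M.T.vv_inj e).1
    linear_combination this - two0 i
  have hk : k = 0 := by
    have hvv : ∀ x ∈ M.T.D, M.T.v * M.T.v * x = x * (M.T.v * M.T.v) := by
      intro x hx
      rcases M.T.o.h'.pair (M.T.o.h'.sq M.T.hv) with e | e <;> rw [e]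
      · rw [one_mul, mul_one]
      · exact ((M.T.mem_D.1 hx).2).symm
    have e : d1 = M.T.vv k (k + l) * (M.T.vv k l * d1) := by
      calc d1 = (M.T.v * M.T.v * d1) * (M.T.v * M.T.v)⁻¹ := by
            rw [hvv d1 hd1D, mul_inv_cancel_right]
        _ = M.T.v * (M.T.v * d1 * M.T.v⁻¹) * M.T.v⁻¹ := by group
        _ = M.T.v * (M.T.vv k l * d1) * M.T.v⁻¹ := by rw [hv1]
        _ = M.T.v * M.T.vv k l * M.T.v⁻¹ * (M.T.v * d1 * M.T.v⁻¹) := by group
        _ = _ := by rw [M.T.v_vv, hv1]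
    rw [← mul_assoc, eq_comm, mul_eq_right, M.T.vv_mul, ← M.T.vv_zero] at e
    have := (M.T.vv_inj e).2
    linear_combination this - two0 l
  subst hj hk
  obtain ⟨c, hc⟩ : ∃ c, c = M.T.vv l i * d1 := ⟨_, rfl⟩
  have hvR := M.T.R_le_D (M.T.isCl_mem (M.T.isCl_vv l i))
  have hcD : c ∈ M.T.D := hc ▸ mul_mem hvR hd1D
  have hcu : M.T.u * c * M.T.u⁻¹ = c := by
    calc M.T.u * c * M.T.u⁻¹ = M.T.u * M.T.vv l i * M.T.u⁻¹ * (M.T.u * d1 * M.T.u⁻¹) := by
          rw [hc]; group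
      _ = c := by
        rw [M.T.u_vv, hu1, ← mul_assoc, M.T.vv_mul, add_zero, add_assoc, two0, add_zero, ← hc]
  have hcv : M.T.v * c * M.T.v⁻¹ = c := by
    calc M.T.v * c * M.T.v⁻¹ = M.T.v * M.T.vv l i * M.T.v⁻¹ * (M.T.v * d1 * M.T.v⁻¹) := by
          rw [hc]; group
      _ = c := by
        rw [M.T.v_vv, hv1, ← mul_assoc, M.T.vv_mul, add_zero, add_comm l i, add_assoc, two0,
          add_zero, ← hc]
  refine ⟨c, mem_KK.2 ⟨hcD, (mul_inv_eq_iff_eq_mul.1 hcu).symm,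
    (mul_inv_eq_iff_eq_mul.1 hcv).symm⟩, M.T.D_le_C hcD, fun y => ?_⟩
  set σ := M.T.im (M.T.D_le_C hcD) with hσ
  have hrcl := M.T.isCl_of_four hr (i := l) (j := i)
  have hrD := M.T.R_le_D (M.T.isCl_mem hrcl)
  have hσω : σ = M.T.im (M.T.D_le_C hrD) * ω := by
    rw [hσ, ← him, ← M.T.im_mul]
    congr 1
    rw [hc, hd1, mul_assoc]
  have hσ0 : ap σ (eta 0) = eta 0 := by
    rw [hσ, ← M.T.hcu, ← M.T.co_conj _ M.T.hu,
      (mul_inv_eq_iff_eq_mul.1 hcu).symm, mul_inv_cancel_right]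
  have key : ∀ x, B8 (eps 0) x = 0 → ap σ x = ap ω x := by
    intro x hx
    have hx' : B8 (eps 0) (ap ω x) = 0 := by rw [Frame.B_fix he, hx]
    have h1 := M.T.im_R hrcl hx'
    have h2 : ap σ x = B8 (ap ω x) (M.T.cl φ) • eps 0 + ap ω x := by
      rw [hσω, ap_mul, ← h1, add_assoc, two8, add_zero]
    have h3 := ap_B σ (eta 0) x
    have h4 := ap_B ω (eta 0) x
    rw [hσ0, h2, B_add_right, B_smul_right, show B8 (eta 0) (eps 0) = 1 by decide +kernel,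
      mul_one] at h3
    rw [hn] at h4
    rw [h4, add_eq_right] at h3
    rw [h2, h3, zero_smul, zero_add]
  have hy0 : B8 (eps 0) (y + y (.inr 0) • eta 0) = 0 := by rw [B_eps]; simp [eta, two0]
  have := key _ hy0
  rw [ap_add, ap_add, ap_smul, ap_smul, hσ0, hn] at this
  exact add_right_cancel this

/-- A conjugate of a plane involution by a lift of an exchange. -/
theorem exists_gen (C : Coord M) {W f : F8 → F8} (hW : ∃ ω : O8, ω ∈ Om ∧ ∀ x, ap ω x = W x)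
    (h0 : W (eps 0) = eps 0) (h0' : W (eta 0) = eta 0) (hWW : ∀ x, W (W x) = x) (k : Fin 3)
    (hf : ∀ x, W (W x + (B8 (eps (Loc.ib k)) (W x) • eps (Loc.ia k) +
      B8 (eps (Loc.ia k)) (W x) • eps (Loc.ib k))) = f x) :
    ∃ g, g ∈ KK M ∧ Im M g f ∧
      ∀ y ∈ M.T.S.F, InL (W (M.T.S.co y)) → g * y * g⁻¹ = y := by
  obtain ⟨ω, hω, eω⟩ := hW
  obtain ⟨c, hc, hcC, ec⟩ := exists_KK (M := M) hω (by rw [eω, h0]) (by rw [eω, h0'])
  have htA := C.t_mem k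
  have htD := M.A_le_D htA
  have htK : C.t k ∈ KK M := mem_KK.2 ⟨htD,
    (mul_inv_eq_iff_eq_mul.1 (C.t_u k)).symm, (mul_inv_eq_iff_eq_mul.1 (C.t_v k)).symm⟩
  have hgK : c * C.t k * c⁻¹ ∈ KK M := mul_mem (mul_mem hc htK) (inv_mem hc)
  have hgC : c * C.t k * c⁻¹ ∈ M.T.S.C := M.T.D_le_C (mem_KK.1 hgK).1
  refine ⟨_, hgK, ⟨hgC, fun x => ?_⟩, ?_⟩
  · have e1 : M.T.im hgC * M.T.im hcC = M.T.im hcC * M.T.im (M.T.D_le_C htD) := by
      rw [← M.T.im_mul, ← M.T.im_mul]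
      congr 1
      group
    have hx : ap (M.T.im hcC) (W x) = x := by rw [ec, eω, hWW]
    conv_lhs => rw [← hx]
    rw [← ap_mul, e1, ap_mul, ec, eω, ← hf, ← C.t_im k (M.T.D_le_C htD) (W x), ← add_assoc,
      add_comm (W x), add_assoc, two8, add_zero]
  · intro y hy hl
    obtain ⟨x, hx, hxl⟩ := M.T.S.co_surj (W (M.T.S.co y))
    obtain ⟨a, ha⟩ := M.T.S.exists_zp (M.T.S.norm hcC hx) hy
      (by rw [M.T.co_conj hcC hx, hxl, ec, eω, hWW])
    have ht : C.t k * x = x * C.t k := M.comm_Lt htA ⟨hx, by rw [hxl]; exact hl⟩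
    rw [mul_inv_eq_iff_eq_mul, ha]
    calc c * C.t k * c⁻¹ * (c * x * c⁻¹ * M.T.S.zp a)
        = c * (C.t k * x) * c⁻¹ * M.T.S.zp a := by group
      _ = c * x * c⁻¹ * (c * C.t k * c⁻¹ * M.T.S.zp a) := by rw [ht]; group
      _ = _ := by rw [M.T.S.zp_comm a (M.T.S.mem_C.1 hgC), mul_assoc (c * x * c⁻¹)]

/-- Generators. -/
structure Gens (M : Loc G) where
  ka : G
  kb : G
  ka_K : ka ∈ KK M
  kb_K : kb ∈ KK M
  ka_im : Im M ka (mw wA)
  kb_im : Im M kb (mw wB)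
  Q0 : G
  Q1 : G
  Q2 : G
  Q0_mem : Q0 ∈ M.T.S.F
  Q1_mem : Q1 ∈ M.T.S.F
  Q2_mem : Q2 ∈ M.T.S.F
  Q0_co : M.T.S.co Q0 = eta 1
  Q1_co : M.T.S.co Q1 = eta 2
  Q2_co : M.T.S.co Q2 = eta 3
  a0 : ka * Q0 * ka⁻¹ = Q0
  a1 : ka * Q1 * ka⁻¹ = Q0 * Q1
  a2 : ka * Q2 * ka⁻¹ = Q2
  b0 : kb * Q0 * kb⁻¹ = Q0
  b1 : kb * Q1 * kb⁻¹ = Q1
  b2 : kb * Q2 * kb⁻¹ = Q1 * Q2

theorem tau_a : ∀ x : F8, sw 1 (sw 1 x + (B8 (eps (Loc.ib 2)) (sw 1 x) • eps (Loc.ia 2) +
    B8 (eps (Loc.ia 2)) (sw 1 x) • eps (Loc.ib 2))) = mw wA x := by decide +kernel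

theorem tau_b : ∀ x : F8, sw12 (sw12 x + (B8 (eps (Loc.ib 0)) (sw12 x) • eps (Loc.ia 0) +
    B8 (eps (Loc.ia 0)) (sw12 x) • eps (Loc.ib 0))) = mw wB x := by decide +kernel

theorem exists_gens (C : Coord M) : Nonempty (Gens M) := by
  obtain ⟨ka, haK, haI, hafix⟩ := exists_gen C (exists_sw 1) (by decide +kernel)
    (by decide +kernel) (by decide +kernel) 2 tau_a
  obtain ⟨kb, hbK, hbI, hbfix⟩ := exists_gen C exists_sw12 (by decide +kernel)
    (by decide +kernel) (by decide +kernel) 0 tau_b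
  obtain ⟨haC, ea⟩ := haI
  obtain ⟨hbC, eb⟩ := hbI
  have h2 := C.q_mem 2
  have c2 : M.T.S.co (C.q 2) = eta 3 := C.q_co 2
  obtain ⟨Q1, hQ1⟩ : ∃ Q, Q = kb * C.q 2 * kb⁻¹ * (C.q 2)⁻¹ := ⟨_, rfl⟩
  have h1 : Q1 ∈ M.T.S.F := hQ1 ▸ mul_mem (M.T.S.norm hbC h2) (inv_mem h2)
  have c1 : M.T.S.co Q1 = eta 2 := by
    rw [hQ1, M.T.S.co_mul _ (M.T.S.norm hbC h2) _ (inv_mem h2), M.T.co_conj hbC h2,
      M.T.S.co_inv h2, eb, c2]
    decide +kernel
  obtain ⟨Q0, hQ0⟩ : ∃ Q, Q = ka * Q1 * ka⁻¹ * Q1⁻¹ := ⟨_, rfl⟩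
  have h0 : Q0 ∈ M.T.S.F := hQ0 ▸ mul_mem (M.T.S.norm haC h1) (inv_mem h1)
  have c0 : M.T.S.co Q0 = eta 1 := by
    rw [hQ0, M.T.S.co_mul _ (M.T.S.norm haC h1) _ (inv_mem h1), M.T.co_conj haC h1,
      M.T.S.co_inv h1, ea, c1]
    decide +kernel
  exact ⟨{
    ka := ka
    kb := kb
    ka_K := haK
    kb_K := hbK
    ka_im := ⟨haC, ea⟩
    kb_im := ⟨hbC, eb⟩
    Q0 := Q0
    Q1 := Q1
    Q2 := C.q 2
    Q0_mem := h0
    Q1_mem := h1
    Q2_mem := h2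
    Q0_co := c0
    Q1_co := c1
    Q2_co := c2
    a0 := hafix Q0 h0 (by rw [c0]; unfold InL; decide +kernel)
    a1 := by rw [hQ0, inv_mul_cancel_right]
    a2 := hafix _ h2 (by rw [c2]; unfold InL; decide +kernel)
    b0 := hbfix Q0 h0 (by rw [c0]; unfold InL; decide +kernel)
    b1 := hbfix Q1 h1 (by rw [c1]; unfold InL; decide +kernel)
    b2 := by rw [hQ1, inv_mul_cancel_right] }⟩

namespace Gens

variable (g : Gens M)

/-- The translations. -/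
def qq (a : V3) : G := g.Q0 ^ (a 0).val * g.Q1 ^ (a 1).val * g.Q2 ^ (a 2).val

theorem qq_mem (a : V3) : g.qq a ∈ M.T.S.F :=
  mul_mem (mul_mem (pow_val_mem _ g.Q0_mem) (pow_val_mem _ g.Q1_mem)) (pow_val_mem _ g.Q2_mem)

theorem co_pow {x : G} (hx : x ∈ M.T.S.F) (a : ZMod 2) :
    M.T.S.co (x ^ a.val) = a • M.T.S.co x := by
  rcases bit a with rfl | rfl
  · simp [M.T.S.co_one]
  · simp [show (1 : ZMod 2).val = 1 from rfl]

theorem qq_co (a : V3) : M.T.S.co (g.qq a) = etaC a := by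
  rw [qq, M.T.S.co_mul _ (mul_mem (pow_val_mem _ g.Q0_mem) (pow_val_mem _ g.Q1_mem)) _
      (pow_val_mem _ g.Q2_mem),
    M.T.S.co_mul _ (pow_val_mem _ g.Q0_mem) _ (pow_val_mem _ g.Q1_mem),
    co_pow g.Q0_mem, co_pow g.Q1_mem, co_pow g.Q2_mem, g.Q0_co, g.Q1_co, g.Q2_co]
  rfl

theorem sq_one {x : G} (hx : x ∈ M.T.S.F) {i : Fin 4} (h : M.T.S.co x = eta i) : x * x = 1 := by
  rw [M.T.S.sq hx, h, (by decide +kernel : ∀ i : Fin 4, q8 (eta i) = 0) i,
    Setting.zp_zero]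

theorem comm_eta {x y : G} (hx : x ∈ M.T.S.F) (hy : y ∈ M.T.S.F) {i j : Fin 4}
    (h : M.T.S.co x = eta i) (h' : M.T.S.co y = eta j) : Commute x y :=
  (M.T.S.commute_iff hx hy).2 (by
    rw [h, h']
    have : ∀ i j : Fin 4, B8 (eta i) (eta j) = 0 := by decide +kernel
    exact this i j)

theorem qq_add (a c : V3) : g.qq (a + c) = g.qq a * g.qq c := by
  have h01 := comm_eta g.Q0_mem g.Q1_mem g.Q0_co g.Q1_co
  have h02 := comm_eta g.Q0_mem g.Q2_mem g.Q0_co g.Q2_co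
  have h12 := comm_eta g.Q1_mem g.Q2_mem g.Q1_co g.Q2_co
  simp only [qq, Pi.add_apply, pow_val_add (sq_one g.Q0_mem g.Q0_co),
    pow_val_add (sq_one g.Q1_mem g.Q1_co), pow_val_add (sq_one g.Q2_mem g.Q2_co)]
  rw [(h01.pow_pow (c 0).val (a 1).val).mul_mul_mul_comm,
    ((h02.pow_pow (c 0).val (a 2).val).mul_left (h12.pow_pow (c 1).val (a 2).val)).mul_mul_mul_comm]

theorem qq_zero : g.qq 0 = 1 := by simp [qq]

theorem qq_comm (a c : V3) : g.qq a * g.qq c = g.qq c * g.qq a := by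
  rw [← qq_add, ← qq_add, add_comm]

theorem qq_u (a : V3) : M.T.u * g.qq a = g.qq a * M.T.u :=
  (M.T.S.commute_iff M.T.hu (g.qq_mem a)).2 (by rw [M.T.hcu, g.qq_co]; exact (etaC_B0 a).2.1)

theorem qq_P (a : V3) : g.qq a ∈ M.T.P :=
  M.T.mem_P.2 ⟨g.qq_mem a, by rw [g.qq_co]; exact (etaC_B0 a).1⟩

theorem qq_isCl (a : V3) : M.T.IsCl (g.qq a) (etaC a) 0 := by
  have := M.T.isCl_P (g.qq_P a)
  rwa [Frame.cl, g.qq_co, etaC_pr] at this

/-- The action of the first generator on the translations. -/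
def fA (a : V3) : V3 := ![a 0 + a 1, a 1, a 2]

/-- The action of the second generator on the translations. -/
def fB (a : V3) : V3 := ![a 0, a 1 + a 2, a 2]

theorem qa (a : V3) : g.ka * g.qq a * g.ka⁻¹ = g.qq (fA a) := by
  have e : g.ka * g.qq a * g.ka⁻¹ =
      MulAut.conj g.ka (g.Q0 ^ (a 0).val * g.Q1 ^ (a 1).val * g.Q2 ^ (a 2).val) := by
    rw [MulAut.conj_apply]; rfl
  rw [e, map_mul, map_mul, map_pow, map_pow, map_pow, MulAut.conj_apply, MulAut.conj_apply,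
    MulAut.conj_apply, g.a0, g.a1, g.a2]
  have h0 := sq_one g.Q0_mem g.Q0_co
  simp only [qq, fA, Matrix.cons_val_zero, Matrix.cons_val_one, Matrix.cons_val]
  rw [pow_val_add h0]
  rcases bit (a 1) with h | h <;> rw [h] <;>
    simp [show (1 : ZMod 2).val = 1 from rfl, mul_assoc]

theorem qb (a : V3) : g.kb * g.qq a * g.kb⁻¹ = g.qq (fB a) := by
  have e : g.kb * g.qq a * g.kb⁻¹ =
      MulAut.conj g.kb (g.Q0 ^ (a 0).val * g.Q1 ^ (a 1).val * g.Q2 ^ (a 2).val) := by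
    rw [MulAut.conj_apply]; rfl
  rw [e, map_mul, map_mul, map_pow, map_pow, map_pow, MulAut.conj_apply, MulAut.conj_apply,
    MulAut.conj_apply, g.b0, g.b1, g.b2]
  have h1 := sq_one g.Q1_mem g.Q1_co
  simp only [qq, fB, Matrix.cons_val_zero, Matrix.cons_val_one, Matrix.cons_val]
  rw [pow_val_add h1]
  rcases bit (a 2) with h | h <;> rw [h] <;>
    simp [show (1 : ZMod 2).val = 1 from rfl, mul_assoc]

/-- The translated translations. -/
def xx (c : V3) : G := M.T.v * g.qq c * M.T.v⁻¹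

theorem xx_add (a c : V3) : g.xx (a + c) = g.xx a * g.xx c := by
  simp only [xx, qq_add]; group

theorem xx_zero : g.xx 0 = 1 := by simp [xx, qq_zero]

theorem xx_isCl (c : V3) : M.T.IsCl (g.xx c) (etaC c) (etaC c) := by
  have := M.T.isCl_conj_v (g.qq_isCl c)
  rwa [add_zero] at this

theorem xx_conj {k : G} (hk : k ∈ KK M) {c c' : V3} (h : k * g.qq c * k⁻¹ = g.qq c') :
    k * g.xx c * k⁻¹ = g.xx c' := by
  have hv : k * M.T.v = M.T.v * k := (mem_KK.1 hk).2.2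
  calc k * g.xx c * k⁻¹ = (k * M.T.v) * g.qq c * (k * M.T.v)⁻¹ := by rw [xx]; group
    _ = M.T.v * (k * g.qq c * k⁻¹) * M.T.v⁻¹ := by rw [hv]; group
    _ = _ := by rw [h]; rfl

theorem qq_xx (a c : V3) : g.qq a * g.xx c = g.xx c * g.qq a := by
  rw [M.T.comm_R (g.qq_isCl a) (g.xx_isCl c), B_zero_right, B_zero_left, etaC_B, add_zero, add_zero,
    M.T.vv_zero, one_mul]

theorem exists_ux : ∃ e : ZMod 2, ∀ c : V3,
    M.T.u * g.xx c * M.T.u⁻¹ = M.T.S.zp (e * c 2) * (g.qq c * g.xx c) := by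
  have hex : ∀ c : V3, ∃ i, M.T.u * g.xx c * M.T.u⁻¹ = M.T.S.zp i * (g.qq c * g.xx c) := by
    intro c
    have h1 := M.T.isCl_conj_u (g.xx_isCl c)
    have h2 := M.T.isCl_mul (g.qq_isCl c) (g.xx_isCl c)
    rw [two8] at h1
    rw [two8, zero_add] at h2
    obtain ⟨i, j, hij⟩ := M.T.isCl_eq h2 h1
    refine ⟨i, ?_⟩
    suffices hj : j = 0 by rw [hij, hj, Frame.vv, M.T.bp_zero, mul_one]
    have hqq : g.qq c * g.qq c = 1 := by
      rw [← g.qq_add, show c + c = 0 from funext fun _ => two0 _, g.qq_zero]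
    have hqD := M.T.P_le_D (g.qq_P c)
    have e : g.xx c = M.T.vv (i + j + i) (j + j) * g.xx c := by
      calc g.xx c = (M.T.u * M.T.u) * g.xx c * (M.T.u * M.T.u)⁻¹ := by rw [M.T.uu]; group
        _ = M.T.u * (M.T.u * g.xx c * M.T.u⁻¹) * M.T.u⁻¹ := by group
        _ = M.T.u * (M.T.vv i j * (g.qq c * g.xx c)) * M.T.u⁻¹ := by rw [hij]
        _ = (M.T.u * M.T.vv i j * M.T.u⁻¹) * (M.T.u * g.qq c * M.T.u⁻¹) *
              (M.T.u * g.xx c * M.T.u⁻¹) := by group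
        _ = M.T.vv (i + j) j * (g.qq c * M.T.vv i j) * (g.qq c * g.xx c) := by
          rw [M.T.u_vv, g.qq_u, mul_inv_cancel_right, hij]; group
        _ = (M.T.vv (i + j) j * M.T.vv i j) * ((g.qq c * g.qq c) * g.xx c) := by
          rw [M.T.vv_comm hqD]; group
        _ = _ := by rw [hqq, one_mul, M.T.vv_mul]
    rw [eq_comm, mul_eq_right, ← M.T.vv_zero] at e
    have := (M.T.vv_inj e).1
    linear_combination this - two0 i
  choose i hi using hex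
  have hz : ∀ (a : ZMod 2) {x : G}, x ∈ M.T.S.C → x * M.T.S.zp a = M.T.S.zp a * x :=
    fun a x hx => M.T.S.zp_comm a (M.T.S.mem_C.1 hx)
  have hxC : ∀ c, g.xx c ∈ M.T.S.C := fun c =>
    M.T.D_le_C (M.T.R_le_D (M.T.isCl_mem (g.xx_isCl c)))
  have hadd : ∀ a c, i (a + c) = i a + i c := by
    intro a c
    refine M.T.S.zp_inj (mul_right_cancel ((hi (a + c)).symm.trans ?_))
    calc M.T.u * g.xx (a + c) * M.T.u⁻¹
        = (M.T.u * g.xx a * M.T.u⁻¹) * (M.T.u * g.xx c * M.T.u⁻¹) := by rw [xx_add]; group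
      _ = M.T.S.zp (i a) * (g.qq a * g.xx a * M.T.S.zp (i c)) * (g.qq c * g.xx c) := by
        rw [hi, hi]; group
      _ = M.T.S.zp (i a) * M.T.S.zp (i c) * (g.qq a * (g.xx a * g.qq c) * g.xx c) := by
        rw [hz _ (mul_mem (M.T.S.F_le_C (g.qq_mem a)) (hxC a))]; group
      _ = _ := by rw [← g.qq_xx, ← M.T.S.zp_add, g.qq_add, g.xx_add]; group
  have hinv : ∀ k ∈ KK M, ∀ c c', k * g.qq c * k⁻¹ = g.qq c' → i c' = i c := by
    intro k hk c c' h
    obtain ⟨hkD, hku, -⟩ := mem_KK.1 hk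
    have hx := g.xx_conj hk h
    refine M.T.S.zp_inj (mul_right_cancel (b := g.qq c' * g.xx c') ?_)
    calc M.T.S.zp (i c') * (g.qq c' * g.xx c') = M.T.u * (k * g.xx c * k⁻¹) * M.T.u⁻¹ := by
          rw [hx, ← hi]
      _ = (M.T.u * k) * g.xx c * (M.T.u * k)⁻¹ := by group
      _ = k * (M.T.u * g.xx c * M.T.u⁻¹) * k⁻¹ := by rw [← hku]; group
      _ = (k * M.T.S.zp (i c) * k⁻¹) * ((k * g.qq c * k⁻¹) * (k * g.xx c * k⁻¹)) := by
        rw [hi]; group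
      _ = _ := by rw [h, hx, hz _ (M.T.D_le_C hkD), mul_inv_cancel_right]
  have h00 : i 0 = 0 := by
    have := hadd 0 0
    rw [add_zero] at this
    linear_combination -this
  have e0 : i ![1, 0, 0] = 0 := by
    have h1 := hinv g.ka g.ka_K ![0, 1, 0] _ (g.qa _)
    rw [show fA ![0, 1, 0] = ![1, 0, 0] + ![0, 1, 0] by decide +kernel, hadd] at h1
    exact add_eq_right.1 h1
  have e1 : i ![0, 1, 0] = 0 := by
    have h1 := hinv g.kb g.kb_K ![0, 0, 1] _ (g.qb _)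
    rw [show fB ![0, 0, 1] = ![0, 1, 0] + ![0, 0, 1] by decide +kernel, hadd] at h1
    exact add_eq_right.1 h1
  refine ⟨i ![0, 0, 1], fun c => ?_⟩
  suffices hc : i c = i ![0, 0, 1] * c 2 by rw [← hc]; exact hi c
  have hsm : ∀ (a : ZMod 2) c, i (a • c) = a * i c := fun a c => by
    rcases bit a with rfl | rfl <;> simp [h00]
  rw [show c = c 0 • ![1, 0, 0] + c 1 • ![0, 1, 0] + c 2 • ![0, 0, 1] by revert c; decide +kernel,
    hadd, hadd, hsm, hsm, hsm, e0, e1]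
  simp
  ring

/-- The word of a unitriangular element. -/
def kw (w : V3) : G :=
  g.ka ^ (w 0).val * (g.ka * g.kb * g.ka * g.kb) ^ (w 1 + w 0 * w 2).val * g.kb ^ (w 2).val

theorem kw_K (w : V3) : g.kw w ∈ KK M :=
  mul_mem (mul_mem (pow_mem g.ka_K _) (pow_mem (mul_mem (mul_mem (mul_mem g.ka_K g.kb_K) g.ka_K)
    g.kb_K) _)) (pow_mem g.kb_K _)

theorem Im_pow {x : G} {f : F8 → F8} (h : Im M x f) (a : ZMod 2) :
    Im M (x ^ a.val) (fun y => if a = 0 then y else f y) := by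
  rcases bit a with rfl | rfl
  · rw [ZMod.val_zero, pow_zero]
    exact Im.congr Im.one fun y => (if_pos rfl).symm
  · rw [show (1 : ZMod 2).val = 1 from rfl, pow_one]
    exact Im.congr h fun y => (if_neg one_ne_zero).symm

theorem word_mw : ∀ w : V3, ∀ j : Fin 4 ⊕ Fin 4,
    (if w 0 = 0 then id else mw wA) ((if w 1 + w 0 * w 2 = 0 then id else
      fun y => mw wA (mw wB (mw wA (mw wB y)))) ((if w 2 = 0 then id else mw wB) (Pi.single j 1))) =
      mw w (Pi.single j 1) := by decide +kernel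

theorem kw_im (w : V3) : ∃ f, Im M (g.kw w) f ∧ ∀ j, f (Pi.single j 1) = mw w (Pi.single j 1) := by
  refine ⟨_, ((Im_pow g.ka_im (w 0)).mul (Im_pow
    (((g.ka_im.mul g.kb_im).mul g.ka_im).mul g.kb_im) (w 1 + w 0 * w 2))).mul
      (Im_pow g.kb_im (w 2)), fun j => ?_⟩
  rw [← word_mw w j]
  split_ifs <;> rfl

theorem mw_lin {h : G} {f : F8 → F8} (hi : Im M h f) (w : V3)
    (e : ∀ j, f (Pi.single j 1) = mw w (Pi.single j 1)) : Im M h (mw w) := by
  obtain ⟨hh, ef⟩ := hi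
  refine ⟨hh, fun y => ?_⟩
  let L : F8 →ₗ[ZMod 2] F8 :=
    { toFun := mw w
      map_add' := fun x y => by
        funext j; rcases j with i | i <;> simp only [mw, Pi.add_apply] <;> split_ifs <;> ring
      map_smul' := fun a x => by
        funext j
        rcases j with i | i <;> simp only [mw, Pi.smul_apply, smul_eq_mul, RingHom.id_apply] <;>
          split_ifs <;> ring }
  have : (M.T.im hh : F8 ≃ₗ[ZMod 2] F8).toLinearMap = L :=
    (Pi.basisFun (ZMod 2) (Fin 4 ⊕ Fin 4)).ext fun j => by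
      rw [Pi.basisFun_apply]; exact (ef _).trans (e j)
  exact LinearMap.congr_fun this y

theorem kw_Im (w : V3) : Im M (g.kw w) (mw w) := by
  obtain ⟨f, hf, e⟩ := g.kw_im w
  exact mw_lin hf w e

theorem kw_mul (w w' : V3) : g.kw w * g.kw w' = g.kw (mulW w w') :=
  KK_ext (mul_mem (g.kw_K w) (g.kw_K w')) (g.kw_K _) ((g.kw_Im w).mul (g.kw_Im w')) (g.kw_Im _)
    (mul_table w w')

theorem kw_zero : g.kw 0 = 1 := by simp [kw]

/-- The unitriangular subgroup. -/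
def U3 : Subgroup G :=
  subgroupOfMulClosed {h | ∃ w, h = g.kw w} ⟨0, g.kw_zero.symm⟩
    (by rintro _ ⟨w, rfl⟩ _ ⟨w', rfl⟩; exact ⟨_, g.kw_mul w w'⟩)

theorem mem_U3 {h : G} : h ∈ g.U3 ↔ ∃ w, h = g.kw w := Iff.rfl

theorem card_U3 : Nat.card g.U3 = 8 := by
  rw [show 8 = Nat.card V3 by rw [Nat.card_fun, Nat.card_zmod, Nat.card_fin]; norm_num]
  refine (Nat.card_congr (Equiv.ofBijective
    (fun w : V3 => (⟨g.kw w, w, rfl⟩ : g.U3)) ⟨fun w w' e => ?_, fun h => ?_⟩)).symm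
  · have e' : g.kw w = g.kw w' := congrArg Subtype.val e
    obtain ⟨h1, e1⟩ := g.kw_Im w
    obtain ⟨h2, e2⟩ := g.kw_Im w'
    refine mw_inj w w' fun i => ?_
    rw [← e1, ← e2]
    congr 2
  · obtain ⟨w, hw⟩ := h.2
    exact ⟨w, Subtype.ext hw.symm⟩

end Gens

theorem mw_inL (w : V3) {y : F8} (hy : InL y) : InL (mw w y) := by
  intro i
  simp only [mw, hy 1, hy 2, hy 3, mul_zero, add_zero]
  split_ifs <;> first | rfl | exact hy i

theorem isCl_stab {r : G} {a c : F8} (h : M.T.IsCl r a c) :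
    r ∈ Subgroup.normalizer (M.A : Set G) := by
  refine norm_of_stab ⟨M.T.D_le_C (M.T.R_le_D (M.T.isCl_mem h)), fun y => rfl⟩ fun y hy => ?_
  have h1 := M.T.im_R h (B_inL (inL_eps 0) hy)
  have e : ap (M.T.im (M.T.D_le_C (M.T.R_le_D (M.T.isCl_mem h)))) y = B8 y c • eps 0 + y := by
    rw [← h1, add_assoc, two8, add_zero]
  rw [e]
  exact inL_add (inL_smul _ (inL_eps 0)) hy

theorem exists_two_group (g : Gens M) :
    ∃ P : Subgroup G, P ≤ Subgroup.normalizer (M.A : Set G) ∧ Nat.card P = 2 ^ 10 ∧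
      ∀ x ∈ P, x ∈ M.A → x = 1 := by
  classical
  obtain ⟨e, he⟩ := g.exists_ux
  obtain ⟨ww, hww⟩ : ∃ ww : V3 → G, ∀ c, ww c = M.T.bp (e * c 2) * g.xx c :=
    ⟨_, fun _ => rfl⟩
  have hbv : ∀ a, M.T.bp a = M.T.vv 0 a := fun a => by rw [Frame.vv, Setting.zp_zero, one_mul]
  have hwcl : ∀ c, M.T.IsCl (ww c) (etaC c) (etaC c) := fun c => by
    rw [hww, hbv]; exact M.T.isCl_of_four (g.xx_isCl c)
  have hqD : ∀ a, g.qq a ∈ M.T.D := fun a => M.T.P_le_D (g.qq_P a)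
  have hxD : ∀ c, g.xx c ∈ M.T.D := fun c => M.T.R_le_D (M.T.isCl_mem (g.xx_isCl c))
  have hqw : ∀ a c, g.qq a * ww c = ww c * g.qq a := fun a c => by
    rw [hww, hbv, ← mul_assoc, M.T.vv_comm (hqD a), mul_assoc, g.qq_xx, ← mul_assoc]
  have hwadd : ∀ a c, ww (a + c) = ww a * ww c := fun a c => by
    rw [hww, hww, hww, hbv, hbv, hbv, g.xx_add, Pi.add_apply, mul_add, ← add_zero (0 : ZMod 2),
      ← M.T.vv_mul]
    simp only [add_zero]
    calc M.T.vv 0 (e * a 2) * M.T.vv 0 (e * c 2) * (g.xx a * g.xx c)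
        = M.T.vv 0 (e * a 2) * (M.T.vv 0 (e * c 2) * g.xx a) * g.xx c := by group
      _ = _ := by rw [← M.T.vv_comm (hxD a)]; group
  have hww0 : ww 0 = 1 := by simp [hww, g.xx_zero, Frame.bp_zero]
  let E : Subgroup G := subgroupOfMulClosed {x | ∃ a c, x = g.qq a * ww c}
    ⟨0, 0, by rw [g.qq_zero, hww0, mul_one]⟩
    (by
      rintro _ ⟨a, c, rfl⟩ _ ⟨a', c', rfl⟩
      refine ⟨a + a', c + c', ?_⟩
      rw [g.qq_add, hwadd]
      exact Commute.mul_mul_mul_comm (hqw a' c).symm _ _)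
  have hEcl : ∀ a c, M.T.IsCl (g.qq a * ww c) (etaC a + etaC c) (etaC c) := fun a c => by
    simpa using M.T.isCl_mul (g.qq_isCl a) (hwcl c)
  have hEzero : ∀ a c, InL (etaC a + etaC c) → InL (etaC c) → a = 0 ∧ c = 0 := by
    intro a c h1 h2
    have hc := etaC_eq_zero h2
    subst hc
    refine ⟨etaC_eq_zero ?_, rfl⟩
    simpa [etaC] using h1
  have hEcard : Nat.card E = 64 := by
    rw [show 64 = Nat.card (V3 × V3) by
      rw [Nat.card_prod, Nat.card_fun, Nat.card_zmod, Nat.card_fin]; norm_num]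
    refine (Nat.card_congr (Equiv.ofBijective
      (fun p : V3 × V3 => (⟨g.qq p.1 * ww p.2, p.1, p.2, rfl⟩ : E))
      ⟨fun p p' h => ?_, fun x => ?_⟩)).symm
    · have h' : g.qq p.1 * ww p.2 = g.qq p'.1 * ww p'.2 := congrArg Subtype.val h
      have h1 := hEcl p.1 p.2
      rw [h'] at h1
      obtain ⟨e1, e2⟩ := M.T.isCl_uniq h1 (hEcl p'.1 p'.2)
      rw [e2, add_left_inj] at e1
      exact Prod.ext (funext fun k => by
        obtain ⟨a0, a1, a2⟩ := etaC_inr p.1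
        obtain ⟨b0, b1, b2⟩ := etaC_inr p'.1
        fin_cases k
        exacts [a0.symm.trans ((congrFun e1 _).trans b0), a1.symm.trans ((congrFun e1 _).trans b1),
          a2.symm.trans ((congrFun e1 _).trans b2)]) (funext fun k => by
        obtain ⟨a0, a1, a2⟩ := etaC_inr p.2
        obtain ⟨b0, b1, b2⟩ := etaC_inr p'.2
        fin_cases k
        exacts [a0.symm.trans ((congrFun e2 _).trans b0), a1.symm.trans ((congrFun e2 _).trans b1),
          a2.symm.trans ((congrFun e2 _).trans b2)])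
    · obtain ⟨a, c, h⟩ := x.2
      exact ⟨(a, c), Subtype.ext h.symm⟩
  have hEu : ∀ x ∈ E, M.T.u * x * M.T.u⁻¹ ∈ E := by
    rintro _ ⟨a, c, rfl⟩
    refine ⟨a + c, c, ?_⟩
    calc M.T.u * (g.qq a * ww c) * M.T.u⁻¹
        = (M.T.u * g.qq a * M.T.u⁻¹) * ((M.T.u * M.T.vv 0 (e * c 2) * M.T.u⁻¹) *
            (M.T.u * g.xx c * M.T.u⁻¹)) := by rw [hww, hbv]; group
      _ = g.qq a * ((M.T.vv (e * c 2) (e * c 2) * M.T.vv (e * c 2) 0) * (g.qq c * g.xx c)) := by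
        rw [g.qq_u, mul_inv_cancel_right, M.T.u_vv, zero_add, he,
          show M.T.S.zp (e * c 2) = M.T.vv (e * c 2) 0 by rw [Frame.vv, M.T.bp_zero, mul_one],
          ← mul_assoc (M.T.vv _ _)]
      _ = _ := by
        rw [M.T.vv_mul, two0, add_zero, ← mul_assoc, ← mul_assoc, mul_assoc (g.qq a),
          ← M.T.vv_comm (hqD c), ← mul_assoc, ← g.qq_add, mul_assoc, ← hbv, ← hww]
  have hEk : ∀ k ∈ KK M, ∀ f : V3 → V3, (∀ c, f c 2 = c 2) →
      (∀ c, k * g.qq c * k⁻¹ = g.qq (f c)) → k ∈ Subgroup.normalizer (E : Set G) := by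
    intro k hk f hf2 hf
    refine mem_normalizer_of_maps ?_
    rintro _ ⟨a, c, rfl⟩
    refine ⟨f a, f c, ?_⟩
    rw [hww, hww, hf2, hbv, ← hf a, ← g.xx_conj hk (hf c)]
    calc k * (g.qq a * (M.T.vv 0 (e * c 2) * g.xx c)) * k⁻¹
        = (k * g.qq a * k⁻¹) * ((k * M.T.vv 0 (e * c 2)) * g.xx c * k⁻¹) := by group
      _ = _ := by rw [M.T.vv_comm (mem_KK.1 hk).1]; group
  have hka := hEk g.ka g.ka_K Gens.fA (fun _ => rfl) g.qa
  have hkb := hEk g.kb g.kb_K Gens.fB (fun _ => rfl) g.qb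
  have hUE : ∀ k ∈ g.U3, ∀ x ∈ E, k * x * k⁻¹ ∈ E := by
    rintro _ ⟨w, rfl⟩ x hx
    refine (Subgroup.mem_normalizer_iff.1 (?_ : g.kw w ∈ Subgroup.normalizer (E : Set G)) x).1 hx
    exact mul_mem (mul_mem (pow_mem hka _) (pow_mem (mul_mem (mul_mem (mul_mem hka hkb) hka) hkb) _))
      (pow_mem hkb _)
  have hZ : ∀ k ∈ g.U3, ∀ x ∈ Subgroup.zpowers M.T.u, k * x * k⁻¹ ∈ Subgroup.zpowers M.T.u := by
    rintro _ ⟨w, rfl⟩ x hx
    obtain ⟨n, rfl⟩ := hx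
    have hc : Commute (g.kw w) M.T.u := (mem_KK.1 (g.kw_K w)).2.1
    rw [(hc.zpow_right n).eq, mul_inv_cancel_right]
    exact Subgroup.zpow_mem_zpowers _ n
  have huu : ∀ x ∈ Subgroup.zpowers M.T.u, x = 1 ∨ x = M.T.u := fun x hx =>
    (H18.mem_zpowers_iff_pair M.T.uu x).1 hx
  let W := prodSub (Subgroup.zpowers M.T.u) g.U3 hZ
  have hWE : ∀ k ∈ W, ∀ x ∈ E, k * x * k⁻¹ ∈ E := by
    rintro _ ⟨s, hs, k, hk, rfl⟩ x hx
    have h1 := hUE k hk x hx
    rw [show s * k * x * (s * k)⁻¹ = s * (k * x * k⁻¹) * s⁻¹ by group]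
    rcases huu s hs with rfl | rfl
    · simpa using h1
    · exact hEu _ h1
  have huD : M.T.u ∉ M.T.D := fun h => by
    have := M.T.hub
    rw [(M.T.mem_D.1 h).2, mul_inv_cancel_right] at this
    exact M.T.S.pt.xne (mul_eq_right.1 this.symm)
  have hU3D : ∀ k ∈ g.U3, k ∈ M.T.D := by
    rintro _ ⟨w, rfl⟩; exact (mem_KK.1 (g.kw_K w)).1
  have hu1 : M.T.u ≠ 1 := fun h => huD (h ▸ one_mem _)
  have hED : ∀ x ∈ E, x ∈ M.T.D := by
    rintro _ ⟨a, c, rfl⟩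
    exact M.T.R_le_D (M.T.isCl_mem (hEcl a c))
  have key : ∀ x ∈ E, ∀ k ∈ W, x * k ∈ M.A → x = 1 ∧ k = 1 := by
    intro x hx k hk hA
    obtain ⟨s, hs, k, hk', rfl⟩ := hk
    have hs1 : s = 1 := by
      rcases huu s hs with h | h
      · exact h
      · exfalso
        subst h
        have h1 := mul_mem (mul_mem (inv_mem (hED x hx)) (M.A_le_D hA)) (inv_mem (hU3D k hk'))
        rw [show x⁻¹ * (x * (M.T.u * k)) * k⁻¹ = M.T.u by group] at h1
        exact huD h1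
    subst hs1
    rw [one_mul] at hA ⊢
    obtain ⟨a, c, rfl⟩ := hx
    obtain ⟨w, rfl⟩ := hk'
    have hcl := hEcl a c
    obtain ⟨hkC, ek⟩ := g.kw_Im w
    have hxC := M.T.D_le_C (M.T.R_le_D (M.T.isCl_mem hcl))
    have hw : w = 0 := by
      refine mw_eps_inj w fun i => ?_
      have h1 := M.fix_L hA (inL_eps i)
      rw [show M.T.im (M.T.D_le_C (M.A_le_D hA)) = M.T.im (mul_mem hxC hkC) from rfl,
        M.T.im_mul hxC hkC, ap_mul, ek] at h1
      have h2 := M.T.im_R hcl (mw_eps_perp w i)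
      rw [h1] at h2
      rw [show mw w (eps i) = eps i + B8 (mw w (eps i)) (etaC c) • eps 0 by
        rw [← h2, ← add_assoc, two8, zero_add], pr_add]
      rcases bit (B8 (mw w (eps i)) (etaC c)) with h | h <;> simp [h, pr_zero, pr_eps]
    subst hw
    rw [g.kw_zero, mul_one] at hA
    obtain ⟨h1, h2⟩ := M.isCl_inL hA hcl
    obtain ⟨rfl, rfl⟩ := hEzero a c h1 h2
    exact ⟨by rw [g.qq_zero, hww0, mul_one], g.kw_zero⟩
  have hdisj : ∀ x ∈ E, x ∈ W → x = 1 := by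
    intro x hx hxW
    have := (key x hx x⁻¹ (inv_mem hxW) (by rw [mul_inv_cancel]; exact one_mem _)).1
    exact this
  refine ⟨prodSub E W hWE, ?_, ?_, ?_⟩
  · rintro _ ⟨_, ⟨a, c, rfl⟩, _, ⟨s, hs, k, ⟨w, rfl⟩, rfl⟩, rfl⟩
    refine mul_mem (isCl_stab (hEcl a c)) (mul_mem ?_
      (norm_of_stab (g.kw_Im w) fun y hy => mw_inL w hy))
    rcases huu s hs with rfl | rfl
    · exact one_mem _
    · exact norm_of_stab (im_F M.T.hu) fun y hy => hy
  · rw [card_prodSub hWE hdisj, card_prodSub hZ (fun x hx hxU => (huu x hx).resolve_right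
      fun h => huD (h ▸ hU3D x hxU)), hEcard, g.card_U3, Nat.card_zpowers,
      orderOf_eq_prime (p := 2) (by rw [pow_two]; exact M.T.uu) hu1]
    norm_num
  · rintro _ ⟨x, hx, k, hk, rfl⟩ hA
    obtain ⟨rfl, rfl⟩ := key x hx k hk hA
    exact mul_one 1

end Cfsg.Agent.H41.CoLocal.Split

namespace Cfsg.Agent.H41.CoLocal

open Cfsg.Agent Cfsg.Agent.H41.CoType
open Split

/-- The subgroup of order `2^11` has a complement in its normalizer. -/
theorem exists_complement {G : Type*} [Group G] [Finite G] {M : Loc G} (C : Coord M)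
    (hN : Nat.card (Subgroup.normalizer (M.A : Set G)) = 2 ^ 11 * 244823040) :
    ∃ K : Subgroup ↥(Subgroup.normalizer (M.A : Set G)),
      (M.A.subgroupOf (Subgroup.normalizer (M.A : Set G))).IsComplement' K := by
  have hAc : ∀ x ∈ M.A, ∀ y ∈ M.A, x * y = y * x := fun _ hx _ hy => M.elem_comm_A hx hy
  have hA : Nat.card M.A = 2 ^ 11 := C.card_A
  obtain ⟨g⟩ := exists_gens C
  obtain ⟨P, hPN, hP, hPA⟩ := exists_two_group g
  set N := Subgroup.normalizer (M.A : Set G) with hNdef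
  have hAN : M.A ≤ N := fun a ha => mem_normalizer_of_maps fun x hx =>
    mul_mem (mul_mem ha hx) (inv_mem ha)
  set AN := M.A.subgroupOf N with hAN'
  haveI : AN.Normal := ⟨fun x hx n => by
    rw [hAN', Subgroup.mem_subgroupOf] at hx ⊢
    exact ((Subgroup.mem_normalizer_iff.1 n.2) x.1).1 hx⟩
  haveI : IsMulCommutative AN := ⟨⟨fun x y => Subtype.ext (Subtype.ext
    (hAc x.1.1 (Subgroup.mem_subgroupOf.1 x.2) y.1.1 (Subgroup.mem_subgroupOf.1 y.2)))⟩⟩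
  set PN := P.subgroupOf N with hPN'
  have hdisj : ∀ x ∈ AN, x ∈ PN → x = 1 := fun x hx hx' =>
    Subtype.ext (hPA x.1 (Subgroup.mem_subgroupOf.1 hx') (Subgroup.mem_subgroupOf.1 hx))
  have hnorm : ∀ k ∈ PN, ∀ x ∈ AN, k * x * k⁻¹ ∈ AN := fun k _ x hx =>
    Subgroup.Normal.conj_mem inferInstance x hx k
  have hU : AN ⊔ PN = prodSub AN PN hnorm := by
    ext x
    rw [Subgroup.mem_sup_of_normal_left, mem_prodSub]
    simp only [eq_comm]
  have hcU : Nat.card ↥(AN ⊔ PN) = 2 ^ 21 := by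
    rw [hU, card_prodSub hnorm hdisj, Nat.card_congr (Subgroup.subgroupOfEquivOfLe hAN).toEquiv,
      Nat.card_congr (Subgroup.subgroupOfEquivOfLe hPN).toEquiv, hA, hP]
    norm_num
  have hidx : (AN ⊔ PN).index = 239085 := by
    have h := (AN ⊔ PN).card_mul_index
    rw [hcU, hN, show 2 ^ 11 * 244823040 = 2 ^ 21 * 239085 by norm_num] at h
    exact Nat.eq_of_mul_eq_mul_left (by norm_num) h
  refine H19.gaschutz_exists (U := AN ⊔ PN) le_sup_left ?_ (A := PN) ?_ rfl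
  · rw [hidx, Nat.card_congr (Subgroup.subgroupOfEquivOfLe hAN).toEquiv, hA]
    exact Nat.Coprime.pow_left 11 (by norm_num)
  · rw [Subgroup.eq_bot_iff_forall]
    exact fun x hx => hdisj x hx.2 hx.1

end Cfsg.Agent.H41.CoLocal
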